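import Cfsg.Agent.Lib.TwStem.Rel
import Cfsg.Agent.Lib.Chev.TwBN
import Cfsg.Agent.Lib.Chev.TwCount
import Cfsg.Agent.Lib.Chev.TwGenB

/-!
# The root subgroups of a twisted group, as subgroups of the group
-/

set_option autoImplicit false
set_option linter.unusedSectionVars false
set_option linter.unusedVariables false

namespace Cfsg.Agent.Lib.TwStem

open Cfsg Cfsg.Lie Cfsg.Agent.Lib.Chev Matrix Equiv
open scoped commutatorElement

variable {T : Tabs} {X : Extra} {R : RootTab} {D : ChevalleyDatum} {hF : Full T X R D} {F : Type*} [Field F] [Fintype F]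
  {τ : Tw hF F} (A : TwG τ)

/-- The root subgroups. -/
noncomputable def GX (rel : ℕ → ℕ) (j : ℕ) : Subgroup ↥A.G1 := (XF τ rel j).subgroupOf A.G1

/-- The torus. -/
noncomputable def GT : Subgroup ↥A.G1 := (D.diagonalSubgroup F ⊓ A.G1).subgroupOf A.G1

/-- The monomial group. -/
noncomputable def GN : Subgroup ↥A.G1 := (D.monomialSubgroup F ⊓ A.G1).subgroupOf A.G1

variable {A}

theorem mem_GX {rel : ℕ → ℕ} {j : ℕ} {x : ↥A.G1} : x ∈ GX A rel j ↔ (x.1 ∈ τ.Fx ∧ x.1 ∈ RO D F rel j) := by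
  unfold GX XF
  rw [Subgroup.mem_subgroupOf]
  rfl

theorem mem_GT {x : ↥A.G1} : x ∈ GT A ↔ x.1 ∈ D.diagonalSubgroup F := by
  unfold GT
  rw [Subgroup.mem_subgroupOf]
  exact ⟨fun h => h.1, fun h => ⟨h, x.2⟩⟩

theorem mem_GN {x : ↥A.G1} : x ∈ GN A ↔ x.1 ∈ D.monomialSubgroup F := by
  unfold GN
  rw [Subgroup.mem_subgroupOf]
  exact ⟨fun h => h.1, fun h => ⟨h, x.2⟩⟩

theorem fix_G1 (x : ↥A.G1) : x.1 ∈ τ.Fx := A.G1_le_Fx x.2

theorem GT_le_GN : GT A ≤ GN A := fun _ hx => mem_GN.2 (hF.c.diagonal_le_monomial (mem_GT.1 hx))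

theorem GT_ab : ∀ a ∈ GT A, ∀ b ∈ GT A, a * b = b * a := by
  intro a ha b hb
  apply Subtype.ext
  exact Cfsg.Agent.Lib.Chev.TwGen.diag_comm hF (mem_GT.1 ha) (mem_GT.1 hb)

theorem GT_nrm : ∀ a ∈ GN A, ∀ t ∈ GT A, a * t * a⁻¹ ∈ GT A := by
  intro a ha t ht
  rw [mem_GT]
  have h1 := mem_GN.1 ha
  have h2 := hF.c.diagonal_le_monomial (mem_GT.1 ht)
  let n : ↥(D.monomialSubgroup F) := ⟨a.1, h1⟩
  let w : ↥(D.monomialSubgroup F) := ⟨t.1, h2⟩
  have h3 : hF.rhoN F (n * w * n⁻¹) = 1 := by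
    rw [map_mul, map_mul, map_inv, hF.rhoN_of_mem_diagonal w (mem_GT.1 ht)]
    group
  exact hF.mem_diagonal_of_rhoN_eq_one h3

variable {rel : ℕ → ℕ} {m : ℕ} (h : RelT τ rel m)

include h in
theorem rel_iter (k : ℕ) (q : Fin D.nroots) : rel ((τ.ρ ^ k) q) = rel q := by
  induction k generalizing q with
  | zero => rfl
  | succ k ih =>
    rw [pow_succ, Perm.mul_apply, ih, h.rho]

include h in
/-- The action of a monomial element on the relative roots. -/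
theorem rel_act {a : ↥A.G1} (ha : a.1 ∈ D.monomialSubgroup F) {q q' : Fin D.nroots} (e : rel q = rel q') :
    rel (hF.rhoN F ⟨a.1, ha⟩ q) = rel (hF.rhoN F ⟨a.1, ha⟩ q') := by
  obtain ⟨k, rfl⟩ := h.orb q q' e
  have hfix : τ.s (⟨a.1, ha⟩ : ↥(D.monomialSubgroup F)).1 = (⟨a.1, ha⟩ : ↥(D.monomialSubgroup F)).1 := A.G1_fix _ a.2
  have key : ∀ k : ℕ, ∀ q : Fin D.nroots, hF.rhoN F ⟨a.1, ha⟩ ((τ.ρ ^ k) q) = (τ.ρ ^ k) (hF.rhoN F ⟨a.1, ha⟩ q) := by
    intro k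
    induction k with
    | zero => intro q; rfl
    | succ k ih =>
      intro q
      rw [pow_succ', Perm.mul_apply, τ.rhoN_comm_of_fix hfix, ih, Perm.mul_apply]
  rw [key, rel_iter h]

/-- A monomial element permutes the relative root groups. -/
theorem GN_act {a : ↥A.G1} (ha : a.1 ∈ D.monomialSubgroup F) {r r' : ℕ}
    (hrr : ∀ q : Fin D.nroots, rel q = r → rel (hF.rhoN F ⟨a.1, ha⟩ q) = r') {x : ↥A.G1} (hx : x ∈ GX A rel r) :
    a * x * a⁻¹ ∈ GX A rel r' := by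
  rw [mem_GX] at hx ⊢
  refine ⟨fix_G1 _, ?_⟩
  refine TwGen.conj_rootClosure hF (Q := fun s => s < D.nroots ∧ rel s = r) (fun _ h => h.1) (s := ⟨a.1, ha⟩) ?_ hx.2
  rintro q hq ⟨_, h2⟩
  exact ⟨(hF.rhoN F ⟨a.1, ha⟩ ⟨q, hq⟩).2, hrr ⟨q, hq⟩ h2⟩

/-- A monomial element permutes the relative root groups: the form with a representative. -/
theorem GN_act' (h : RelT τ rel m) {a : ↥A.G1} (ha : a.1 ∈ D.monomialSubgroup F) (q₀ : Fin D.nroots) {x : ↥A.G1} (hx : x ∈ GX A rel (rel q₀)) :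
    a * x * a⁻¹ ∈ GX A rel (rel (hF.rhoN F ⟨a.1, ha⟩ q₀)) :=
  GN_act ha (fun q hq => rel_act h ha hq) hx

/-- The torus normalises. -/
theorem GT_act {t : ↥A.G1} (ht : t ∈ GT A) {r : ℕ} {x : ↥A.G1} (hx : x ∈ GX A rel r) : t * x * t⁻¹ ∈ GX A rel r := by
  have h1 := hF.c.diagonal_le_monomial (mem_GT.1 ht)
  refine GN_act h1 (fun q hq => ?_) hx
  rw [hF.rhoN_of_mem_diagonal ⟨t.1, h1⟩ (mem_GT.1 ht)]
  exact hq

/-- Fixed points of a positive relative root are in the group. -/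
theorem XF_le (h : RelT τ rel m) {r : ℕ} (hr : r < m) : XF τ rel r ≤ A.G1 := by
  rintro x ⟨h1, h2⟩
  exact A.U_fix_le (h.O_le_U hr h2) h1.2

/-- The fixed points lift to the closure. -/
theorem lift_UF (h : RelT τ rel m) {j : ℕ} {g : GL D.Idx F} (hg : g ∈ Subgroup.closure {x | ∃ l, j ≤ l ∧ l < m ∧ x ∈ XF τ rel l}) :
    ∃ hg' : g ∈ A.G1, (⟨g, hg'⟩ : ↥A.G1) ∈ UF (GX A rel) m j := by
  induction hg using Subgroup.closure_induction with
  | mem x hx =>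
    obtain ⟨l, h1, h2, h3⟩ := hx
    have h4 := XF_le (A := A) h h2 h3
    refine ⟨h4, mem_UF h1 h2 ?_⟩
    rw [mem_GX]
    exact ⟨h3.1, h3.2⟩
  | one => exact ⟨A.G1.one_mem, Subgroup.one_mem _⟩
  | mul a b _ _ ha hb =>
    obtain ⟨h1, h2⟩ := ha
    obtain ⟨h3, h4⟩ := hb
    exact ⟨A.G1.mul_mem h1 h3, Subgroup.mul_mem _ h2 h4⟩
  | inv a _ ha =>
    obtain ⟨h1, h2⟩ := ha
    exact ⟨A.G1.inv_mem h1, Subgroup.inv_mem _ h2⟩

/-- The commutator relation in the group. -/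
theorem GX_comm (h : RelT τ rel m) {k s : ℕ} (hk : k < s) (hs : s < m) {x y : ↥A.G1} (hx : x ∈ GX A rel k) (hy : y ∈ GX A rel s) :
    ⁅x, y⁆ ∈ UF (GX A rel) m (s + 1) := by
  rw [mem_GX] at hx hy
  have h1 := h.comm_mem hk hs hx.2 hy.2
  have h2 : τ.s (⁅x, y⁆ : ↥A.G1).1 = (⁅x, y⁆ : ↥A.G1).1 := A.G1_fix _ (⁅x, y⁆ : ↥A.G1).2
  have h3 : (⁅x, y⁆ : ↥A.G1).1 = ⁅x.1, y.1⁆ := rfl
  rw [← h3] at h1
  have h4 := h.Fx_GE m (s + 1) (by omega) _ h1 h2
  obtain ⟨_, h5⟩ := lift_UF (A := A) h h4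
  exact h5

/-- The elements of a join. -/
theorem UF_le_GE (h : RelT τ rel m) {j : ℕ} {w : ↥A.G1} (hw : w ∈ UF (GX A rel) m j) : w.1 ∈ RGE R D F rel j := by
  unfold UF at hw
  induction hw using Subgroup.closure_induction with
  | mem x hx =>
    obtain ⟨l, h1, h2, h3⟩ := hx
    rw [mem_GX] at h3
    exact h.O_le_GE h1 h2 h3.2
  | one => exact Subgroup.one_mem _
  | mul a b _ _ ha hb => exact Subgroup.mul_mem _ ha hb
  | inv a _ ha => exact Subgroup.inv_mem _ ha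

/-- Disjointness. -/
theorem GX_dis (h : RelT τ rel m) {l : ℕ} (hl : l < m) {x w : ↥A.G1} (hx : x ∈ GX A rel l) (hw : w ∈ UF (GX A rel) m (l + 1))
    (e : x * w = 1) : x = 1 := by
  apply Subtype.ext
  rw [mem_GX] at hx
  apply h.disj hl hx.2
  have e1 : x = w⁻¹ := eq_inv_of_mul_eq_one_left e
  rw [e1]
  exact Subgroup.inv_mem _ (UF_le_GE h hw)

/-- `U ∩ N = 1`. -/
theorem GX_U_N (h : RelT τ rel m) {u : ↥A.G1} (hu : u ∈ Subgroup.closure {x | ∃ r < m, x ∈ GX A rel r}) (hn : u ∈ GN A) : u = 1 := by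
  have h1 : u.1 ∈ D.posUnipotent F := by
    clear hn
    induction hu using Subgroup.closure_induction with
    | mem x hx =>
      obtain ⟨r, hr, h3⟩ := hx
      rw [mem_GX] at h3
      exact h.O_le_U hr h3.2
    | one => exact Subgroup.one_mem _
    | mul a b _ _ ha hb => exact Subgroup.mul_mem _ ha hb
    | inv a _ ha => exact Subgroup.inv_mem _ ha
  have h2 : u.1 ∈ D.posUnipotent F ⊓ D.monomialSubgroup F := ⟨h1, mem_GN.1 hn⟩
  rw [hF.U_inf_N, Subgroup.mem_bot] at h2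
  exact Subtype.ext h2

end Cfsg.Agent.Lib.TwStem
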