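import Cfsg.Agent.Lib.TwStem.Sys

/-!
# The Coxeter relations in the lifted monomial group
-/

set_option autoImplicit false
set_option linter.unusedSectionVars false
set_option linter.unusedVariables false

namespace Cfsg.Agent.Lib.TwStem

open scoped commutatorElement
open Cfsg

section Words

universe u

variable {A : Type u} [Group A] (B C : Subgroup A) (hCB : C ≤ B) (hn : ∀ b ∈ B, ∀ c ∈ C, b * c * b⁻¹ ∈ C)
  {x y : A} (hx : x ∈ B) (hy : y ∈ B) (hxx : x * x ∈ C) (hyy : y * y ∈ C)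

include hn hx hy hxx hyy

/-- A general principle: the words agree modulo `C`. -/
theorem word_iff_aux {u v : A} (hu : u ∈ B) (hv : v ∈ B)
    (key : ∀ {Q : Type u} [Group Q] {a b : Q}, a * a = 1 → b * b = 1 → ∀ f : ↥B →* Q, f ⟨x, hx⟩ = a → f ⟨y, hy⟩ = b →
      f ⟨u, hu⟩ = f ⟨v, hv⟩) :
    u ∈ C ↔ v ∈ C := by
  have hnorm : (C.subgroupOf B).Normal := by
    constructor
    intro t ht g
    rw [Subgroup.mem_subgroupOf] at ht ⊢
    exact hn g.1 g.2 t.1 ht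
  let f : ↥B →* ↥B ⧸ C.subgroupOf B := QuotientGroup.mk' _
  have hf : ∀ w (hw : w ∈ B), f ⟨w, hw⟩ = 1 ↔ w ∈ C := by
    intro w hw
    show (QuotientGroup.mk ⟨w, hw⟩ : ↥B ⧸ C.subgroupOf B) = 1 ↔ _
    rw [QuotientGroup.eq_one_iff, Subgroup.mem_subgroupOf]
  have h1 : f ⟨x, hx⟩ * f ⟨x, hx⟩ = 1 := by
    rw [← map_mul]
    exact (hf _ (B.mul_mem hx hx)).2 hxx
  have h2 : f ⟨y, hy⟩ * f ⟨y, hy⟩ = 1 := by
    rw [← map_mul]
    exact (hf _ (B.mul_mem hy hy)).2 hyy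
  have h3 := key h1 h2 f rfl rfl
  rw [← hf u hu, ← hf v hv, h3]

theorem word2_iff : x * y * x⁻¹ * y⁻¹ ∈ C ↔ (x * y) ^ 2 ∈ C := by
  have hu : x * y * x⁻¹ * y⁻¹ ∈ B := B.mul_mem (B.mul_mem (B.mul_mem hx hy) (B.inv_mem hx)) (B.inv_mem hy)
  have hv : (x * y) ^ 2 ∈ B := B.pow_mem (B.mul_mem hx hy) _
  refine word_iff_aux B C hn hx hy hxx hyy hu hv ?_
  intro Q _ a b ha hb f e1 e2
  have := word2 ha hb
  subst e1 e2
  have e3 : (⟨x * y * x⁻¹ * y⁻¹, hu⟩ : ↥B) = ⟨x, hx⟩ * ⟨y, hy⟩ * (⟨x, hx⟩ : ↥B)⁻¹ * (⟨y, hy⟩ : ↥B)⁻¹ := rfl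
  have e4 : (⟨(x * y) ^ 2, hv⟩ : ↥B) = ((⟨x, hx⟩ : ↥B) * ⟨y, hy⟩) ^ 2 := rfl
  rw [e3, e4]
  simp only [map_mul, map_inv, map_pow]
  simpa only [map_mul] using this

theorem word3_iff : (x * y) * x * (x * y)⁻¹ * y⁻¹ ∈ C ↔ (x * y) ^ 3 ∈ C := by
  have hxy := B.mul_mem hx hy
  have hu : (x * y) * x * (x * y)⁻¹ * y⁻¹ ∈ B := B.mul_mem (B.mul_mem (B.mul_mem hxy hx) (B.inv_mem hxy)) (B.inv_mem hy)
  have hv : (x * y) ^ 3 ∈ B := B.pow_mem hxy _
  refine word_iff_aux B C hn hx hy hxx hyy hu hv ?_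
  intro Q _ a b ha hb f e1 e2
  have := word3 ha hb
  subst e1 e2
  have e3 : (⟨(x * y) * x * (x * y)⁻¹ * y⁻¹, hu⟩ : ↥B) = ((⟨x, hx⟩ : ↥B) * ⟨y, hy⟩) * ⟨x, hx⟩ * ((⟨x, hx⟩ : ↥B) * ⟨y, hy⟩)⁻¹ * (⟨y, hy⟩ : ↥B)⁻¹ := rfl
  have e4 : (⟨(x * y) ^ 3, hv⟩ : ↥B) = ((⟨x, hx⟩ : ↥B) * ⟨y, hy⟩) ^ 3 := rfl
  rw [e3, e4]
  simp only [map_mul, map_inv, map_pow]
  simpa only [mul_inv_rev] using this

theorem word4_iff : (x * y * x) * y * (x * y * x)⁻¹ * y⁻¹ ∈ C ↔ (x * y) ^ 4 ∈ C := by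
  have hxy := B.mul_mem hx hy
  have hxyx := B.mul_mem hxy hx
  have hu : (x * y * x) * y * (x * y * x)⁻¹ * y⁻¹ ∈ B := B.mul_mem (B.mul_mem (B.mul_mem hxyx hy) (B.inv_mem hxyx)) (B.inv_mem hy)
  have hv : (x * y) ^ 4 ∈ B := B.pow_mem hxy _
  refine word_iff_aux B C hn hx hy hxx hyy hu hv ?_
  intro Q _ a b ha hb f e1 e2
  have := word4 ha hb
  subst e1 e2
  have e3 : (⟨(x * y * x) * y * (x * y * x)⁻¹ * y⁻¹, hu⟩ : ↥B) = ((⟨x, hx⟩ : ↥B) * ⟨y, hy⟩ * ⟨x, hx⟩) * ⟨y, hy⟩ * ((⟨x, hx⟩ : ↥B) * ⟨y, hy⟩ * ⟨x, hx⟩)⁻¹ * (⟨y, hy⟩ : ↥B)⁻¹ := rfl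
  have e4 : (⟨(x * y) ^ 4, hv⟩ : ↥B) = ((⟨x, hx⟩ : ↥B) * ⟨y, hy⟩) ^ 4 := rfl
  rw [e3, e4]
  simp only [map_mul, map_inv, map_pow]
  simpa only [mul_inv_rev] using this

theorem word6_iff : (x * y * x * y * x) * y * (x * y * x * y * x)⁻¹ * y⁻¹ ∈ C ↔ (x * y) ^ 6 ∈ C := by
  have hxy := B.mul_mem hx hy
  have hxyx := B.mul_mem (B.mul_mem (B.mul_mem hxy hx) hy) hx
  have hu : (x * y * x * y * x) * y * (x * y * x * y * x)⁻¹ * y⁻¹ ∈ B :=
    B.mul_mem (B.mul_mem (B.mul_mem hxyx hy) (B.inv_mem hxyx)) (B.inv_mem hy)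
  have hv : (x * y) ^ 6 ∈ B := B.pow_mem hxy _
  refine word_iff_aux B C hn hx hy hxx hyy hu hv ?_
  intro Q _ a b ha hb f e1 e2
  have := word6 ha hb
  subst e1 e2
  have e3 : (⟨(x * y * x * y * x) * y * (x * y * x * y * x)⁻¹ * y⁻¹, hu⟩ : ↥B) = ((⟨x, hx⟩ : ↥B) * ⟨y, hy⟩ * ⟨x, hx⟩ * ⟨y, hy⟩ * ⟨x, hx⟩) * ⟨y, hy⟩ * ((⟨x, hx⟩ : ↥B) * ⟨y, hy⟩ * ⟨x, hx⟩ * ⟨y, hy⟩ * ⟨x, hx⟩)⁻¹ * (⟨y, hy⟩ : ↥B)⁻¹ := rfl
  have e4 : (⟨(x * y) ^ 6, hv⟩ : ↥B) = ((⟨x, hx⟩ : ↥B) * ⟨y, hy⟩) ^ 6 := rfl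
  rw [e3, e4]
  simp only [map_mul, map_inv, map_pow]
  simpa only [mul_inv_rev] using this

end Words

variable {Γ G : Type*} [Group Γ] [Group G]

/-- The action of a word. -/
def sL (s : ℕ → ℕ → ℕ) : List ℕ → ℕ → ℕ
  | [], r => r
  | i :: L, r => s i (sL s L r)

namespace TSys

variable {σ : Γ →* G} {l m : ℕ} {X : ℕ → Subgroup G} {T N : Subgroup G} {n : ℕ → G} {s : ℕ → ℕ → ℕ}
  {V : ℕ → Subgroup Γ} {nh : ℕ → Γ} (S : TSys σ l m X T N n s V nh)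

include S

theorem act_word {L : List ℕ} (hL : ∀ i ∈ L, i < l) {r : ℕ} (hr : r < 2 * m) :
    sL s L r < 2 * m ∧ (L.map n).prod ∈ N ∧ ∀ x ∈ X r, (L.map n).prod * x * ((L.map n).prod)⁻¹ ∈ X (sL s L r) := by
  induction L with
  | nil =>
    simp only [sL, List.map_nil, List.prod_nil]
    exact ⟨hr, N.one_mem, fun x hx => by simpa using hx⟩
  | cons i L ih =>
    have hi : i < l := hL i (List.mem_cons_self)
    obtain ⟨h1, h2, h3⟩ := ih (fun j hj => hL j (List.mem_cons_of_mem _ hj))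
    obtain ⟨h4, h5⟩ := S.act i hi _ h1
    refine ⟨h4, ?_, ?_⟩
    · simp only [List.map_cons, List.prod_cons]
      exact N.mul_mem (S.n_mem i hi) h2
    · intro x hx
      simp only [List.map_cons, List.prod_cons, sL]
      have := h5 _ (h3 x hx)
      have e : n i * (L.map n).prod * x * (n i * (L.map n).prod)⁻¹ =
          n i * ((L.map n).prod * x * ((L.map n).prod)⁻¹) * (n i)⁻¹ := by group
      rw [e]
      exact this

theorem map_word {L : List ℕ} (hL : ∀ i ∈ L, i < l) : σ (L.map nh).prod = (L.map n).prod := by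
  induction L with
  | nil => simp
  | cons i L ih =>
    simp only [List.map_cons, List.prod_cons, map_mul]
    rw [S.nh_map i (hL i List.mem_cons_self), ih (fun j hj => hL j (List.mem_cons_of_mem _ hj))]

theorem mem_word {L : List ℕ} (hL : ∀ i ∈ L, i < l) : (L.map nh).prod ∈ Nt σ T V nh l m := by
  induction L with
  | nil => simp [Subgroup.one_mem]
  | cons i L ih =>
    simp only [List.map_cons, List.prod_cons]
    exact Subgroup.mul_mem _ (S.nh_mem_Nt (hL i List.mem_cons_self)) (ih (fun j hj => hL j (List.mem_cons_of_mem _ hj)))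

/-- The conjugate of a reflection. -/
theorem conj_word_nh {L : List ℕ} (hL : ∀ i ∈ L, i < l) {j k : ℕ} (hj : j < l) (hk : k < l)
    (h1 : sL s L j = k ∨ sL s L j = m + k) (h2 : sL s L (m + j) = k ∨ sL s L (m + j) = m + k)
    (hT : (L.map n).prod * n j * ((L.map n).prod)⁻¹ * (n k)⁻¹ ∈ T) :
    (L.map nh).prod * nh j * ((L.map nh).prod)⁻¹ * (nh k)⁻¹ ∈ TL σ T V m k := by
  obtain ⟨_, h3, h4⟩ := S.act_word hL (S.hi2 hj)
  obtain ⟨_, _, h5⟩ := S.act_word hL (S.hi3 hj)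
  have e := S.map_word hL
  constructor
  · refine Subgroup.mul_mem _ ?_ (Subgroup.inv_mem _ (S.nh_mem k hk))
    refine S.conj_LL (by rw [e]; exact h3) hj hk h1 h2 ?_ ?_ (S.nh_mem j hj)
    · rw [e]
      exact h4
    · rw [e]
      exact h5
  · show σ _ ∈ T
    simp only [map_mul, map_inv]
    rw [e, S.nh_map j hj, S.nh_map k hk]
    exact hT

theorem nh_sq {i : ℕ} (hi : i < l) : nh i * nh i ∈ TL σ T V m i := by
  refine ⟨Subgroup.mul_mem _ (S.nh_mem i hi) (S.nh_mem i hi), ?_⟩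
  show σ _ ∈ T
  rw [map_mul, S.nh_map i hi]
  exact S.n_sq i hi

/-- The relation checked by the table. -/
def brOK (s : ℕ → ℕ → ℕ) (m a b : ℕ) : ℕ → Bool
  | 2 => (sL s [a] b == b || sL s [a] b == m + b) && (sL s [a] (m + b) == b || sL s [a] (m + b) == m + b)
  | 3 => (sL s [a, b] a == b || sL s [a, b] a == m + b) && (sL s [a, b] (m + a) == b || sL s [a, b] (m + a) == m + b)
  | 4 => (sL s [a, b, a] b == b || sL s [a, b, a] b == m + b) && (sL s [a, b, a] (m + b) == b || sL s [a, b, a] (m + b) == m + b)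
  | 6 => (sL s [a, b, a, b, a] b == b || sL s [a, b, a, b, a] b == m + b) &&
      (sL s [a, b, a, b, a] (m + b) == b || sL s [a, b, a, b, a] (m + b) == m + b)
  | _ => false

/-- The Coxeter relation from the relation in the base. -/
theorem hbr_of {a b c : ℕ} (ha : a < l) (hb : b < l) (hc : brOK s m a b c = true) (hT : (n a * n b) ^ c ∈ T) :
    (nh a * nh b) ^ c ∈ Tt σ T V l m := by
  have hnn : ∀ g ∈ N, ∀ t ∈ T, g * t * g⁻¹ ∈ T := S.T_nrm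
  have hna := S.n_mem a ha
  have hnb := S.n_mem b hb
  have hsa := S.n_sq a ha
  have hsb := S.n_sq b hb
  have hmN : ∀ g ∈ Nt σ T V nh l m, ∀ t ∈ Tt σ T V l m, g * t * g⁻¹ ∈ Tt σ T V l m := fun g hg t ht => S.Nt_norm hg ht
  have hxa := S.nh_mem_Nt ha
  have hxb := S.nh_mem_Nt hb
  have hxx := S.TL_le_Tt ha (S.nh_sq ha)
  have hyy := S.TL_le_Tt hb (S.nh_sq hb)
  have hLa : ∀ i ∈ [a], i < l := by simpa using ha
  have hLab : ∀ i ∈ [a, b], i < l := by simpa using ⟨ha, hb⟩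
  have hLaba : ∀ i ∈ [a, b, a], i < l := by
    intro i hi
    simp at hi
    omega
  have hL5 : ∀ i ∈ [a, b, a, b, a], i < l := by
    intro i hi
    simp at hi
    omega
  match c, hc, hT with
  | 2, hc, hT =>
    simp only [brOK, Bool.and_eq_true, Bool.or_eq_true, beq_iff_eq] at hc
    have h1 := (word2_iff N T hnn hna hnb hsa hsb).2 hT
    have h2 := S.conj_word_nh hLa hb hb hc.1 hc.2 (by simpa using h1)
    apply (word2_iff _ _ hmN hxa hxb hxx hyy).1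
    exact S.TL_le_Tt hb (by simpa using h2)
  | 3, hc, hT =>
    simp only [brOK, Bool.and_eq_true, Bool.or_eq_true, beq_iff_eq] at hc
    have h1 := (word3_iff N T hnn hna hnb hsa hsb).2 hT
    have h2 := S.conj_word_nh hLab ha hb hc.1 hc.2 (by simpa using h1)
    apply (word3_iff _ _ hmN hxa hxb hxx hyy).1
    exact S.TL_le_Tt hb (by simpa using h2)
  | 4, hc, hT =>
    simp only [brOK, Bool.and_eq_true, Bool.or_eq_true, beq_iff_eq] at hc
    have h1 := (word4_iff N T hnn hna hnb hsa hsb).2 hT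
    have h2 := S.conj_word_nh hLaba hb hb hc.1 hc.2 (by
      simpa only [List.map_cons, List.map_nil, List.prod_cons, List.prod_nil, mul_one, mul_assoc] using (by simpa only [mul_assoc] using h1))
    apply (word4_iff _ _ hmN hxa hxb hxx hyy).1
    apply S.TL_le_Tt hb
    simpa only [List.map_cons, List.map_nil, List.prod_cons, List.prod_nil, mul_one, mul_assoc] using h2
  | 6, hc, hT =>
    simp only [brOK, Bool.and_eq_true, Bool.or_eq_true, beq_iff_eq] at hc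
    have h1 := (word6_iff N T hnn hna hnb hsa hsb).2 hT
    have h2 := S.conj_word_nh hL5 hb hb hc.1 hc.2 (by
      simpa only [List.map_cons, List.map_nil, List.prod_cons, List.prod_nil, mul_one, mul_assoc] using (by simpa only [mul_assoc] using h1))
    apply (word6_iff _ _ hmN hxa hxb hxx hyy).1
    apply S.TL_le_Tt hb
    simpa only [List.map_cons, List.map_nil, List.prod_cons, List.prod_nil, mul_one, mul_assoc] using h2
  | 0, hc, _ => simp [brOK] at hc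
  | 1, hc, _ => simp [brOK] at hc
  | 5, hc, _ => simp [brOK] at hc
  | (_ + 7), hc, _ => simp [brOK] at hc

end TSys

end Cfsg.Agent.Lib.TwStem
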