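import Cfsg.Agent.Lib.TwStem.Sys
import Cfsg.Agent.Lib.TwStem.Br
import Cfsg.Agent.Lib.ChevSec2

/-!
# Lifts of the root groups and the rank one groups
-/

set_option autoImplicit false
set_option linter.unusedSectionVars false
set_option linter.unusedVariables false

namespace Cfsg.Agent.Lib.TwStem

open scoped commutatorElement
open Cfsg Cfsg.Agent.Lib.SL2Core Cfsg.Agent.Lib.SL2Bor Cfsg.Agent.Lib.StK Cfsg.Agent.Lib.ChevLift Cfsg.Agent.Lib.ChevLift.RD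

variable {Γ G : Type*} [Group Γ] [Group G] {σ : Γ →* G}

/-- Transport of the hypotheses along conjugation. -/
theorem Good.conj {T X X' : Subgroup G} (h : Good σ T X) (hE : CE σ) (g : G)
    (hT : ∀ t ∈ T, g * t * g⁻¹ ∈ T) (hT' : ∀ t ∈ T, g⁻¹ * t * g ∈ T)
    (hX : ∀ x ∈ X, g * x * g⁻¹ ∈ X') (hX' : ∀ x ∈ X', g⁻¹ * x * g ∈ X)
    (hn : ∀ t ∈ T, ∀ x ∈ X', t * x * t⁻¹ ∈ X') : Good σ T X' where
  ab := h.ab
  nrm := hn
  lc := by
    intro a b ha hb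
    obtain ⟨k, rfl⟩ := hE.surj g
    have h1 : σ (k⁻¹ * a * k) ∈ X := by
      simpa using hX' _ ha
    have h2 : σ (k⁻¹ * b * k) ∈ X := by
      simpa using hX' _ hb
    have h3 := h.lc _ _ h1 h2
    have h4 : k⁻¹ * (a * b) * k = k⁻¹ * (b * a) * k := by
      calc k⁻¹ * (a * b) * k = (k⁻¹ * a * k) * (k⁻¹ * b * k) := by group
        _ = (k⁻¹ * b * k) * (k⁻¹ * a * k) := h3
        _ = _ := by group
    exact mul_left_cancel (mul_right_cancel h4)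
  fpf := by
    obtain ⟨t, ht, hfp⟩ := h.fpf
    refine ⟨g * t * g⁻¹, hT t ht, ?_⟩
    intro x hx e
    have h1 : t * (g⁻¹ * x * g) * t⁻¹ = g⁻¹ * x * g := by
      have e2 : t * (g⁻¹ * x * g) * t⁻¹ = g⁻¹ * ((g * t * g⁻¹) * x * (g * t * g⁻¹)⁻¹) * g := by group
      rw [e2, e]
    have h2 := hfp _ (hX' x hx) h1
    have h3 : x = g * (g⁻¹ * x * g) * g⁻¹ := by group
    rw [h3, h2]
    group

section Wit

variable [Finite Γ] {T : Subgroup G} {X : ℕ → Subgroup G} {m : ℕ}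

/-- The elements of a lifted root group are commutators with a lift of a fixed point free element. -/
theorem surj_comm {X₁ : Subgroup G} {V₁ : Subgroup Γ} (hab : ∀ a ∈ V₁, ∀ b ∈ V₁, a * b = b * a) {H : Γ}
    (hn : ∀ u ∈ V₁, H * u * H⁻¹ ∈ V₁) (hinj : ∀ u ∈ V₁, σ u = 1 → u = 1)
    (hfp : ∀ u ∈ V₁, σ H * σ u * (σ H)⁻¹ = σ u → σ u = 1) : ∀ y ∈ V₁, ∃ y0 ∈ V₁, y = ⁅H, y0⁆ := by
  let φ : V₁ →* V₁ :=
    { toFun := fun a => ⟨H * a.1 * H⁻¹ * a.1⁻¹, V₁.mul_mem (hn _ a.2) (V₁.inv_mem a.2)⟩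
      map_one' := by
        apply Subtype.ext
        simp
      map_mul' := by
        rintro ⟨a, ha⟩ ⟨b, hb⟩
        apply Subtype.ext
        show H * (a * b) * H⁻¹ * (a * b)⁻¹ = H * a * H⁻¹ * a⁻¹ * (H * b * H⁻¹ * b⁻¹)
        have e1 := hab (H * b * H⁻¹) (hn b hb) a⁻¹ (V₁.inv_mem ha)
        have e2 : b⁻¹ * a⁻¹ = a⁻¹ * b⁻¹ := hab _ (V₁.inv_mem hb) _ (V₁.inv_mem ha)
        calc H * (a * b) * H⁻¹ * (a * b)⁻¹ = H * a * b * H⁻¹ * (b⁻¹ * a⁻¹) := by group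
          _ = H * a * H⁻¹ * ((H * b * H⁻¹) * a⁻¹) * b⁻¹ := by rw [e2]; group
          _ = _ := by rw [e1]; group }
  have hφinj : Function.Injective φ := by
    rw [injective_iff_map_eq_one]
    rintro ⟨a, ha⟩ e
    apply Subtype.ext
    have e' : H * a * H⁻¹ * a⁻¹ = 1 := congrArg Subtype.val e
    apply hinj a ha
    apply hfp a ha
    have e2 : σ (H * a * H⁻¹ * a⁻¹) = 1 := by rw [e', map_one]
    rw [map_mul, map_mul, map_mul, map_inv, map_inv] at e2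
    exact mul_inv_eq_one.1 e2
  have hφsurj : Function.Surjective φ := Finite.injective_iff_surjective.1 hφinj
  intro y hy
  obtain ⟨⟨y0, hy0⟩, e⟩ := hφsurj ⟨y, hy⟩
  exact ⟨y0, hy0, (congrArg Subtype.val e).symm⟩

/-- The relations from a witness. -/
theorem PP_of_wit (hE : CE σ) {V : ℕ → Subgroup Γ} {k s : ℕ} (hks : k < s) (hsm : s < m)
    (hmap : ∀ r < m, ∀ u ∈ V r, σ u ∈ X r) (honto : ∀ r < m, ∀ x ∈ X r, ∃ u ∈ V r, σ u = x)
    (hinj : ∀ r < m, ∀ u ∈ V r, σ u = 1 → u = 1) (hab : ∀ r < m, ∀ a ∈ V r, ∀ b ∈ V r, a * b = b * a)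
    (hcT : ∀ g : Γ, σ g ∈ T → ∀ r < m, ∀ u ∈ V r, g * u * g⁻¹ ∈ V r)
    (hG : ∀ x ∈ X k, ∀ y ∈ X s, ⁅x, y⁆ ∈ UF X m (s + 1))
    (hP1 : ∀ s', s < s' → s' < m → PP V m k s') (hP2 : ∀ k' s', k < k' → k' < s' → s' < m → PP V m k' s')
    (hw : ∃ t ∈ T, (∀ x ∈ X k, t * x * t⁻¹ = x) ∧ (∀ y ∈ X s, t * y * t⁻¹ = y → y = 1) ∨
      (∀ y ∈ X s, t * y * t⁻¹ = y) ∧ (∀ x ∈ X k, t * x * t⁻¹ = x → x = 1)) : PP V m k s := by
  obtain ⟨t, ht, hw⟩ := hw
  obtain ⟨H, rfl⟩ := hE.surj t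
  have hkm : k < m := by omega
  have hcov : ∀ x ∈ V k, ∀ y ∈ V s, ∃ w ∈ UF V m (s + 1), σ w = σ ⁅x, y⁆ := by
    intro x hx y hy
    have h1 : σ ⁅x, y⁆ ∈ UF X m (s + 1) := by
      rw [map_commutatorElement]
      exact hG _ (hmap k hkm x hx) _ (hmap s hsm y hy)
    exact UF_map (U := V) (X := X) (fun l hl x hx => honto l hl x hx) h1
  have hnH : ∀ w ∈ UF V m (s + 1), H * w * H⁻¹ ∈ UF V m (s + 1) := by
    intro w hw
    unfold UF at hw
    induction hw using Subgroup.closure_induction with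
    | mem a ha =>
      obtain ⟨l, h1, h2, h3⟩ := ha
      exact mem_UF h1 h2 (hcT H ht l h2 a h3)
    | one => simp [Subgroup.one_mem]
    | mul a b _ _ ha hb =>
      have e : H * (a * b) * H⁻¹ = H * a * H⁻¹ * (H * b * H⁻¹) := by group
      rw [e]
      exact Subgroup.mul_mem _ ha hb
    | inv a _ ha =>
      have e : H * a⁻¹ * H⁻¹ = (H * a * H⁻¹)⁻¹ := by group
      rw [e]
      exact Subgroup.inv_mem _ ha
  rcases hw with ⟨h1, h2⟩ | ⟨h1, h2⟩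
  · -- `t` fixes `X k`
    refine wit1 hE (H := H) ?_ ?_ hnH (hcT H ht s hsm) ?_ hcov
    · intro x hx
      have h3 := hcT H ht k hkm x hx
      have h4 : H * x * H⁻¹ * x⁻¹ = 1 := by
        apply hinj k hkm _ (Subgroup.mul_mem _ h3 (Subgroup.inv_mem _ hx))
        rw [map_mul, map_mul, map_mul, map_inv, map_inv, h1 _ (hmap k hkm x hx)]
        group
      calc H * x = (H * x * H⁻¹ * x⁻¹) * (x * H) := by group
        _ = x * H := by rw [h4, one_mul]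
    · exact surj_comm (X₁ := X s) (hab s hsm) (hcT H ht s hsm) (hinj s hsm) (fun u hu e => h2 _ (hmap s hsm u hu) e)
    · intro y hy w hw
      exact norm_UF (s := s) (fun s' h3 h4 => hP2 s s' hks h3 h4) hy hw
  · refine wit2 hE (H := H) ?_ ?_ hnH (hcT H ht k hkm) ?_ hcov
    · intro x hx
      have h3 := hcT H ht s hsm x hx
      have h4 : H * x * H⁻¹ * x⁻¹ = 1 := by
        apply hinj s hsm _ (Subgroup.mul_mem _ h3 (Subgroup.inv_mem _ hx))
        rw [map_mul, map_mul, map_mul, map_inv, map_inv, h1 _ (hmap s hsm x hx)]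
        group
      calc H * x = (H * x * H⁻¹ * x⁻¹) * (x * H) := by group
        _ = x * H := by rw [h4, one_mul]
    · exact surj_comm (X₁ := X k) (hab k hkm) (hcT H ht k hkm) (hinj k hkm) (fun u hu e => h2 _ (hmap k hkm u hu) e)
    · intro x hx w hw
      exact norm_UF (s := s) hP1 hx hw

end Wit

section Rank1

variable {F : Type*} [Field F] [Fintype F] [Finite Γ] (hE : CE σ) {N : Subgroup G} {XP XM : Subgroup G} {VP VM : Subgroup Γ}
  (φ₀ : SL2 F →* G)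

include hE in
/-- The section over the rank one group. -/
theorem exists_psi (hP : ∀ t, φ₀ (uu t) ∈ XP) (hM : ∀ t, φ₀ (ll t) ∈ XM)
    (ontoP : ∀ x ∈ XP, ∃ t, φ₀ (uu t) = x)
    (mapP : ∀ u ∈ VP, σ u ∈ XP) (liftP : ∀ x ∈ XP, ∃ u ∈ VP, σ u = x) (injP : ∀ u ∈ VP, σ u = 1 → u = 1)
    (mapM : ∀ u ∈ VM, σ u ∈ XM) (liftM : ∀ x ∈ XM, ∃ u ∈ VM, σ u = x) (injM : ∀ u ∈ VM, σ u = 1 → u = 1)
    (lcP : ∀ a b : Γ, σ a ∈ XP → σ b ∈ XP → a * b = b * a)
    (cMP : ∀ g : Γ, σ g ∈ N → (∀ x ∈ XM, σ g * x * (σ g)⁻¹ ∈ XP) → ∀ u ∈ VM, g * u * g⁻¹ ∈ VP)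
    (cPP : ∀ g : Γ, σ g ∈ N → (∀ x ∈ XP, σ g * x * (σ g)⁻¹ ∈ XP) → ∀ u ∈ VP, g * u * g⁻¹ ∈ VP)
    (ontoM : ∀ x ∈ XM, ∃ t, φ₀ (ll t) = x)
    (hN : ∀ d : F, d ≠ 0 → φ₀ (wd d) ∈ N) :
    ∃ ψ : SL2 F →* Γ, (∀ t, ψ (uu t) ∈ VP) ∧ (∀ t, ψ (ll t) ∈ VM) ∧ ∀ g, σ (ψ g) = φ₀ g := by
  classical
  choose yP hyP1 hyP2 using fun t => liftP _ (hP t)
  choose yM hyM1 hyM2 using fun t => liftM _ (hM t)
  have eqP : ∀ a b : Γ, a ∈ VP → b ∈ VP → σ a = σ b → a = b := by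
    intro a b ha hb e
    have := injP (a * b⁻¹) (VP.mul_mem ha (VP.inv_mem hb)) (by rw [map_mul, map_inv, e, mul_inv_cancel])
    exact mul_inv_eq_one.1 this
  have eqM : ∀ a b : Γ, a ∈ VM → b ∈ VM → σ a = σ b → a = b := by
    intro a b ha hb e
    have := injM (a * b⁻¹) (VM.mul_mem ha (VM.inv_mem hb)) (by rw [map_mul, map_inv, e, mul_inv_cancel])
    exact mul_inv_eq_one.1 this
  have huu : ∀ a b : F, (uu (a + b) : SL2 F) = uu a * uu b := by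
    intro a b
    apply sl2_ext <;> simp [mul_apply2] <;> ring
  have hll : ∀ a b : F, (ll (a + b) : SL2 F) = ll a * ll b := by
    intro a b
    apply sl2_ext <;> simp [mul_apply2] <;> ring
  have hcen : σ.ker ≤ Subgroup.center Γ := by
    intro z hz
    rw [Subgroup.mem_center_iff]
    intro g
    exact (hE.cen z hz g).symm
  obtain ⟨ψ, h1, h2⟩ := ChevSec2.exists_sec2 σ hcen (yP := yP) (yM := yM) φ₀ (XP := fun t => φ₀ (uu t)) (XM := fun t => φ₀ (ll t))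
    (fun _ => rfl) (fun _ => rfl)
    (fun a b => eqP _ _ (hyP1 _) (VP.mul_mem (hyP1 _) (hyP1 _)) (by rw [map_mul, hyP2, hyP2, hyP2, huu, map_mul]))
    (fun a b => eqM _ _ (hyM1 _) (VM.mul_mem (hyM1 _) (hyM1 _)) (by rw [map_mul, hyM2, hyM2, hyM2, hll, map_mul]))
    hyP2 hyM2
    (fun a b s t ha hb => lcP a b (by rw [ha]; exact hP s) (by rw [hb]; exact hP t))
    (by
      intro t ht c
      have hc : ∀ c, σ t * φ₀ (ll c) * (σ t)⁻¹ = φ₀ (uu (-c)) := by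
        intro c
        rw [ht, ← map_inv, ← map_mul, ← map_mul, wd_mul_ll]
        simp
      apply eqP _ _ _ (hyP1 _)
      · rw [map_mul, map_mul, map_inv, hyM2, hyP2, hc]
      · refine cMP t (by rw [ht]; exact hN 1 one_ne_zero) ?_ _ (hyM1 c)
        intro x hx
        obtain ⟨e, rfl⟩ := ontoM x hx
        rw [hc]
        exact hP _)
    (by
      intro d hd t ht a
      have hc : ∀ c, σ t * φ₀ (uu c) * (σ t)⁻¹ = φ₀ (uu (d * d * c)) := by
        intro c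
        have e := congrArg φ₀ (D_mul_uu hd c)
        simp only [map_mul] at e
        rw [ht, e]
        group
      apply eqP _ _ _ (hyP1 _)
      · rw [map_mul, map_mul, map_inv, hyP2, hyP2, hc]
      · refine cPP t (by
          rw [ht]
          exact N.mul_mem (hN d hd) (hN (-1) (neg_ne_zero.mpr one_ne_zero))) ?_ _ (hyP1 a)
        intro x hx
        obtain ⟨e, rfl⟩ := ontoP x hx
        rw [hc]
        exact hP _)
  refine ⟨ψ, fun t => by rw [h1]; exact hyP1 t, fun t => by rw [h2]; exact hyM1 t, ?_⟩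
  intro g
  induction g using sl2_ind with
  | hu t => rw [h1, hyP2]
  | hl t => rw [h2, hyM2]
  | hm A B hA hB => rw [map_mul, map_mul, map_mul, hA, hB]

end Rank1

end Cfsg.Agent.Lib.TwStem
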