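import Cfsg.Agent.Lib.TwStem.Core

/-!
# Lifts of a root group with a transitive torus action commute
-/

set_option autoImplicit false
set_option linter.unusedSectionVars false
set_option linter.unusedVariables false

namespace Cfsg.Agent.Lib.TwStem

open scoped commutatorElement

variable {Γ G : Type*} [Group Γ] [Group G] {σ : Γ →* G}

/-- A biadditive scale invariant alternating form vanishes: the lifts commute. -/
theorem lc_of_scale {E : Type*} [Field E] (hE : CE σ) {X : Subgroup G} (p : E → G)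
    (hadd : ∀ s t, p (s + t) = p s * p t) (honto : ∀ x ∈ X, ∃ s, p s = x)
    {ρ : E} (hρ0 : ρ ≠ 0) (hρ1 : ρ ≠ 1) (hρ2 : ρ * (1 - ρ) - 1 ≠ 0) (hab : ∀ s t, p s * p t = p t * p s)
    (hscale : ∀ c : E, c ≠ 0 → ∃ g : G, ∀ s, g * p s * g⁻¹ = p (c * s)) :
    ∀ a b : Γ, σ a ∈ X → σ b ∈ X → a * b = b * a := by
  classical
  choose L hL using fun s => hE.surj (p s)
  let B : E → E → Γ := fun s t => ⁅L s, L t⁆
  have hB : ∀ s t a b, σ a = p s → σ b = p t → ⁅a, b⁆ = B s t := fun s t a b ha hb =>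
    hE.comm_eq (ha.trans (hL s).symm) (hb.trans (hL t).symm)
  have hcen : ∀ s t x, B s t * x = x * B s t := fun s t x => hE.comm_cen (by rw [hL, hL]; exact hab s t) x
  have hl : ∀ s s' t, B (s + s') t = B s t * B s' t := by
    intro s s' t
    have e : B (s + s') t = ⁅L s * L s', L t⁆ := (hB _ _ _ _ (by rw [map_mul, hL, hL, hadd]) (hL t)).symm
    rw [e]
    have e2 : ⁅L s * L s', L t⁆ = L s * B s' t * (L s)⁻¹ * B s t := by
      show _ = L s * ⁅L s', L t⁆ * (L s)⁻¹ * ⁅L s, L t⁆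
      simp only [commutatorElement_def]
      group
    rw [e2, ← hcen s' t (L s), mul_assoc (B s' t), mul_inv_cancel, mul_one, hcen s t (B s' t)]
  have hr : ∀ s t t', B s (t + t') = B s t * B s t' := by
    intro s t t'
    have e : B s (t + t') = ⁅L s, L t * L t'⁆ := (hB _ _ _ _ (hL s) (by rw [map_mul, hL, hL, hadd])).symm
    rw [e]
    have e2 : ⁅L s, L t * L t'⁆ = B s t * (L t * B s t' * (L t)⁻¹) := by
      show _ = ⁅L s, L t⁆ * (L t * ⁅L s, L t'⁆ * (L t)⁻¹)
      simp only [commutatorElement_def]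
      group
    rw [e2, ← hcen s t' (L t), mul_assoc (B s t'), mul_inv_cancel, mul_one]
  have hsc : ∀ c : E, c ≠ 0 → ∀ s t, B (c * s) (c * t) = B s t := by
    intro c hc s t
    obtain ⟨g, hg⟩ := hscale c hc
    obtain ⟨H, rfl⟩ := hE.surj g
    have e : B (c * s) (c * t) = ⁅H * L s * H⁻¹, H * L t * H⁻¹⁆ := by
      refine (hB _ _ _ _ ?_ ?_).symm
      · rw [map_mul, map_mul, map_inv, hL, hg]
      · rw [map_mul, map_mul, map_inv, hL, hg]
    have e2 : ⁅H * L s * H⁻¹, H * L t * H⁻¹⁆ = H * B s t * H⁻¹ := by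
      show _ = H * ⁅L s, L t⁆ * H⁻¹
      simp only [commutatorElement_def]
      group
    rw [e, e2, ← hcen s t H, mul_assoc, mul_inv_cancel, mul_one]
  let g : E → Γ := fun r => B 1 r
  have hg_add : ∀ r r', g (r + r') = g r * g r' := fun r r' => hr 1 r r'
  have hg0 : g 0 = 1 := by
    have := hg_add 0 0
    rw [add_zero] at this
    exact mul_eq_right.1 this.symm
  have hg_neg : ∀ r, g (-r) = (g r)⁻¹ := by
    intro r
    have := hg_add r (-r)
    rw [add_neg_cancel, hg0] at this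
    exact eq_inv_of_mul_eq_one_right this.symm
  have hB1 : ∀ s, s ≠ 0 → ∀ t, B s t = g (t / s) := by
    intro s hs t
    have := hsc s⁻¹ (inv_ne_zero hs) s t
    rw [inv_mul_cancel₀ hs] at this
    rw [← this, div_eq_inv_mul]
  have h1ρ : 1 - ρ ≠ 0 := sub_ne_zero.2 (Ne.symm hρ1)
  have key : ∀ S : E, S ≠ 0 → g (S * (ρ * (1 - ρ))) = g S := by
    intro S hS
    have hu : S * (1 - ρ) ≠ 0 := mul_ne_zero hS h1ρ
    have hv : S * ρ ≠ 0 := mul_ne_zero hS hρ0
    have hs1 : (S * (1 - ρ))⁻¹ ≠ 0 := inv_ne_zero hu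
    have hs2 : (S * ρ)⁻¹ ≠ 0 := inv_ne_zero hv
    have hs3 : (S * (1 - ρ))⁻¹ + (S * ρ)⁻¹ = (S * (ρ * (1 - ρ)))⁻¹ := by
      field_simp
      ring
    have e := hl (S * (1 - ρ))⁻¹ (S * ρ)⁻¹ 1
    rw [hs3, hB1 _ (inv_ne_zero (mul_ne_zero hS (mul_ne_zero hρ0 h1ρ))), hB1 _ hs1, hB1 _ hs2] at e
    simp only [one_div, inv_inv] at e
    rw [e, ← hg_add]
    congr 1
    ring
  have hgS : ∀ S : E, S ≠ 0 → g (S * (ρ * (1 - ρ) - 1)) = 1 := by
    intro S hS
    have e : S * (ρ * (1 - ρ) - 1) = S * (ρ * (1 - ρ)) + -S := by ring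
    rw [e, hg_add, key S hS, hg_neg, mul_inv_cancel]
  have hgall : ∀ r, g r = 1 := by
    intro r
    by_cases hr0 : r = 0
    · rw [hr0, hg0]
    · have := hgS (r / (ρ * (1 - ρ) - 1)) (div_ne_zero hr0 hρ2)
      rwa [div_mul_cancel₀ _ hρ2] at this
  have hBall : ∀ s t, B s t = 1 := by
    intro s t
    by_cases hs : s = 0
    · have := hl 0 0 t
      rw [add_zero] at this
      rw [hs]
      exact mul_eq_right.1 this.symm
    · rw [hB1 s hs, hgall]
  intro a b ha hb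
  obtain ⟨s, hs⟩ := honto _ ha
  obtain ⟨t, ht⟩ := honto _ hb
  have e := hB s t a b hs.symm ht.symm
  rw [hBall] at e
  exact commutatorElement_eq_one_iff_mul_comm.1 e

end Cfsg.Agent.Lib.TwStem
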