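import Cfsg.Agent.Lib.TwStem.Asm3
import Cfsg.Agent.Lib.TwStem.Scale

/-!
# Torus elements acting on relative root groups
-/

set_option autoImplicit false
set_option linter.unusedSectionVars false
set_option linter.unusedVariables false

namespace Cfsg.Agent.Lib.TwStem

open scoped commutatorElement
open Cfsg Cfsg.Lie Cfsg.Agent.Lib.Chev Matrix Equiv

variable {T : Tabs} {X : Extra} {R : RootTab} {D : ChevalleyDatum} {hF : Full T X R D} {F : Type*} [Field F] [Fintype F]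
  {τ : Tw hF F} {f : F ≃+* F} {ρ' π' : ℕ → ℕ} {J : ℕ → List ℕ} {A dd : ℕ → ℕ}

/-- The roots of a relative root. -/
def OrbL (D : ChevalleyDatum) (rel : ℕ → ℕ) (j : ℕ) : List ℕ := (List.range D.nroots).filter fun s => rel s = j

theorem mem_OrbL {rel : ℕ → ℕ} {j r : ℕ} : r ∈ OrbL D rel j ↔ r < D.nroots ∧ rel r = j := by
  simp [OrbL]

theorem OrbL_nodup {rel : ℕ → ℕ} {j : ℕ} : (OrbL D rel j).Nodup := List.Nodup.filter _ List.nodup_range

namespace RTab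

variable {h : SCOK τ f ρ' π' J A dd} {rel rp : ℕ → ℕ} {l m : ℕ} {B : ℕ → ℕ} (t : RTab h rel rp l m B)

include t

theorem OrbL_comm {j : ℕ} (hj : j < m) : hF.CommL F (OrbL D rel j) := by
  apply hF.commL_of_nil (fun r hr => (mem_OrbL.1 hr).1)
  intro r hr s hs hne
  obtain ⟨h1, h2⟩ := mem_OrbL.1 hr
  obtain ⟨h3, h4⟩ := mem_OrbL.1 hs
  have p1 := (t.R.pos r h1).2 (by omega)
  have p2 := (t.R.pos s h3).2 (by omega)
  refine ⟨?_, t.R.comm2 r h1 s h3 p1 p2 hne (by omega)⟩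
  intro e
  have := hF.neg_lt_N h1 p1
  omega

theorem OrbL_pos {j : ℕ} (hj : j < m) : ∀ r ∈ OrbL D rel j, R.N ≤ r ∧ r < D.nroots := by
  intro r hr
  obtain ⟨h1, h2⟩ := mem_OrbL.1 hr
  exact ⟨(t.R.pos r h1).2 (by omega), h1⟩

theorem exists_wL {j : ℕ} (hj : j < m) {x : GL D.Idx F} (hx : x ∈ RO D F rel j) : ∃ u : ℕ → F, x = hF.wL (OrbL D rel j) u :=
  hF.exists_wL_of_mem (t.OrbL_comm hj) OrbL_nodup (fun _ => mem_OrbL.symm) hx

/-- A torus element acting trivially. -/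
theorem tor_fix {c : Fin D.rank → Fˣ} (hc : tor R D c ∈ h.twG.G1) {j : ℕ} (hj : j < m)
    (hfix : ∀ q < D.nroots, rel q = j → chiT D c q = 1) {x : ↥h.twG.G1} (hx : x ∈ GX h.twG rel j) :
    (⟨tor R D c, hc⟩ : ↥h.twG.G1) * x * (⟨tor R D c, hc⟩ : ↥h.twG.G1)⁻¹ = x := by
  apply Subtype.ext
  obtain ⟨u, hu⟩ := t.exists_wL hj (mem_GX.1 hx).2
  show tor R D c * x.1 * (tor R D c)⁻¹ = x.1
  rw [hu, hF.tor_conj_wL c (fun r hr => (mem_OrbL.1 hr).1)]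
  apply hF.wL_congr
  intro r hr
  obtain ⟨h1, h2⟩ := mem_OrbL.1 hr
  rw [hfix r h1 h2]
  simp

/-- A torus element acting without fixed points. -/
theorem tor_fpf {c : Fin D.rank → Fˣ} (hc : tor R D c ∈ h.twG.G1) {j : ℕ} (hj : j < m)
    (hne : ∀ q < D.nroots, rel q = j → chiT D c q ≠ 1) {x : ↥h.twG.G1} (hx : x ∈ GX h.twG rel j)
    (e : (⟨tor R D c, hc⟩ : ↥h.twG.G1) * x * (⟨tor R D c, hc⟩ : ↥h.twG.G1)⁻¹ = x) : x = 1 := by
  apply Subtype.ext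
  obtain ⟨u, hu⟩ := t.exists_wL hj (mem_GX.1 hx).2
  have e1 : tor R D c * x.1 * (tor R D c)⁻¹ = x.1 := congrArg Subtype.val e
  rw [hu, hF.tor_conj_wL c (fun r hr => (mem_OrbL.1 hr).1)] at e1
  have e2 := hF.wL_inj (t.OrbL_comm hj) OrbL_nodup (t.OrbL_pos hj) e1
  show x.1 = 1
  rw [hu, ← hF.wL_zero (OrbL D rel j)]
  apply hF.wL_congr
  intro r hr
  obtain ⟨h1, h2⟩ := mem_OrbL.1 hr
  have e3 := e2 r hr
  have e4 := hne r h1 h2
  have e5 : ((chiT D c r : Fˣ) : F) - 1 ≠ 0 := by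
    intro e6
    apply e4
    apply Units.ext
    simpa using sub_eq_zero.1 e6
  have e6 : (((chiT D c r : Fˣ) : F) - 1) * u r = 0 := by
    rw [sub_mul, e3]
    ring
  exact (mul_eq_zero.1 e6).resolve_left e5

theorem tor_mem_GT {c : Fin D.rank → Fˣ} (hc : tor R D c ∈ h.twG.G1) : (⟨tor R D c, hc⟩ : ↥h.twG.G1) ∈ GT h.twG :=
  mem_GT.2 (hF.tor_mem_diagonal c)

/-- The witness from a torus element. -/
theorem wit_l {c : Fin D.rank → Fˣ} (hc : tor R D c ∈ h.twG.G1) {k s : ℕ} (hk : k < m) (hs : s < m)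
    (h1 : ∀ q < D.nroots, rel q = k → chiT D c q = 1) (h2 : ∀ q < D.nroots, rel q = s → chiT D c q ≠ 1) : Wit h rel k s :=
  ⟨_, t.tor_mem_GT hc, Or.inl ⟨fun _ hx => t.tor_fix hc hk h1 hx, fun _ hy e => t.tor_fpf hc hs h2 hy e⟩⟩

theorem wit_r {c : Fin D.rank → Fˣ} (hc : tor R D c ∈ h.twG.G1) {k s : ℕ} (hk : k < m) (hs : s < m)
    (h1 : ∀ q < D.nroots, rel q = s → chiT D c q = 1) (h2 : ∀ q < D.nroots, rel q = k → chiT D c q ≠ 1) : Wit h rel k s :=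
  ⟨_, t.tor_mem_GT hc, Or.inr ⟨fun _ hx => t.tor_fix hc hs h1 hx, fun _ hy e => t.tor_fpf hc hk h2 hy e⟩⟩

/-- Transport of `Good` along a word. -/
theorem good_word {Γ : Type*} [Group Γ] {σ : Γ →* ↥h.twG.G1} (hE : CE σ) {L : List ℕ} (hL : ∀ i ∈ L, i < l) {r : ℕ} (hr : r < 2 * m)
    (hg : Good σ (GT h.twG) (GX h.twG rel r)) :
    sL (ss X J rel rp B) L r < 2 * m ∧ Good σ (GT h.twG) (GX h.twG rel (sL (ss X J rel rp B) L r)) := by
  induction L with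
  | nil => exact ⟨hr, hg⟩
  | cons a L ih =>
    obtain ⟨h1, h2⟩ := ih (fun i hi => hL i (List.mem_cons_of_mem _ hi))
    exact ⟨(t.act (hL a List.mem_cons_self) h1).1, t.good_step hE (hL a List.mem_cons_self) h1 h2⟩

end RTab

end Cfsg.Agent.Lib.TwStem
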