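import Cfsg.Agent.Lib.TwStem.Class2

/-!
# Assembling the system of a twisted group
-/

set_option autoImplicit false
set_option linter.unusedSectionVars false
set_option linter.unusedVariables false

namespace Cfsg.Agent.Lib.TwStem

open scoped commutatorElement
open Cfsg Cfsg.Lie Cfsg.Agent.Lib.Chev Matrix Equiv
open Cfsg.Agent.Lib.SL2Core Cfsg.Agent.Lib.SL2Bor Cfsg.Agent.Lib.StK Cfsg.Agent.Lib.ChevLift Cfsg.Agent.Lib.ChevLift.RD

variable {T : Tabs} {X : Extra} {R : RootTab} {D : ChevalleyDatum} {hF : Full T X R D} {F : Type*} [Field F] [Fintype F]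
  {τ : Tw hF F} {f : F ≃+* F} {ρ' π' : ℕ → ℕ} {J : ℕ → List ℕ} {A dd : ℕ → ℕ}

/-- The tables of the relative root system. -/
structure RTab (h : SCOK τ f ρ' π' J A dd) (rel rp : ℕ → ℕ) (l m : ℕ) (B : ℕ → ℕ) : Prop where
  R : RelT τ rel m
  lm : l ≤ m
  rp_lt : ∀ r < 2 * m, rp r < D.nroots
  rp_rel : ∀ r < 2 * m, rel (rp r) = r
  B_lt : ∀ a < l, B a < D.rank
  cl_pos : ∀ a < l, ∀ r, (r < D.nroots ∧ rel r = a) ↔ r ∈ (J (B a)).map D.simple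
  cls : ∀ i < D.rank, ∃ a < l, J i = J (B a)
  swap1 : ∀ a < l, rel (wAct X (J (B a)) (rp a)) = m + a
  swap2 : ∀ a < l, rel (wAct X (J (B a)) (rp (m + a))) = a
  pos : ∀ a < l, ∀ r < m, r ≠ a → rel (wAct X (J (B a)) (rp r)) < m

/-- The Weyl elements, as elements of the group. -/
noncomputable def nn (h : SCOK τ f ρ' π' J A dd) (B : ℕ → ℕ) (a : ℕ) : ↥h.twG.G1 := by
  classical
  exact if ha : B a < D.rank then ⟨(h.twG.nC (B a)).1, h.twG.nC_mem _ ha⟩ else 1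

/-- The action on relative roots. -/
noncomputable def ss (X : Extra) (J : ℕ → List ℕ) (rel rp B : ℕ → ℕ) (a r : ℕ) : ℕ := rel (wAct X (J (B a)) (rp r))

namespace RTab

variable {h : SCOK τ f ρ' π' J A dd} {rel rp : ℕ → ℕ} {l m : ℕ} {B : ℕ → ℕ} (t : RTab h rel rp l m B)

include t

theorem nn_val {a : ℕ} (ha : a < l) : (nn h B a).1 = (h.twG.nC (B a)).1 := by
  unfold nn
  rw [dif_pos (t.B_lt a ha)]

theorem nn_mono {a : ℕ} (ha : a < l) : (nn h B a).1 ∈ D.monomialSubgroup F := by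
  rw [t.nn_val ha]
  exact (h.twG.nC (B a)).2

theorem rho_nn {a : ℕ} (ha : a < l) (q : Fin D.nroots) :
    ((hF.rhoN F ⟨(nn h B a).1, t.nn_mono ha⟩ q : Fin D.nroots) : ℕ) = wAct X (J (B a)) q := by
  have e : (⟨(nn h B a).1, t.nn_mono ha⟩ : ↥(D.monomialSubgroup F)) = ((J (B a)).map (hF.nNt F)).prod :=
    Subtype.ext (t.nn_val ha)
  rw [e, hF.rhoN_prod_nNt, hF.prod_wPt_apply (fun j hj => h.mem_J_lt (t.B_lt a ha) hj)]

/-- The conjugation action of a monomial element. -/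
theorem conj_fwd {c : ↥h.twG.G1} (hc : c.1 ∈ D.monomialSubgroup F) (q : Fin D.nroots) {x : ↥h.twG.G1}
    (hx : x ∈ GX h.twG rel (rel q)) : c * x * c⁻¹ ∈ GX h.twG rel (rel (hF.rhoN F ⟨c.1, hc⟩ q)) :=
  GN_act' t.R hc q hx

theorem conj_bwd {c : ↥h.twG.G1} (hc : c.1 ∈ D.monomialSubgroup F) (q : Fin D.nroots) {x : ↥h.twG.G1}
    (hx : x ∈ GX h.twG rel (rel (hF.rhoN F ⟨c.1, hc⟩ q))) : c⁻¹ * x * c ∈ GX h.twG rel (rel q) := by
  have hc' : (c⁻¹).1 ∈ D.monomialSubgroup F := Subgroup.inv_mem _ hc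
  have h1 := GN_act' t.R hc' _ hx
  have e : (⟨(c⁻¹).1, hc'⟩ : ↥(D.monomialSubgroup F)) = (⟨c.1, hc⟩ : ↥(D.monomialSubgroup F))⁻¹ := rfl
  have e2 : (hF.rhoN F ⟨c.1, hc⟩)⁻¹ ((hF.rhoN F ⟨c.1, hc⟩) q) = q := by simp
  rw [e, map_inv, e2, inv_inv] at h1
  exact h1

theorem act {a r : ℕ} (ha : a < l) (hr : r < 2 * m) :
    ss X J rel rp B a r < 2 * m ∧ ∀ x ∈ GX h.twG rel r, nn h B a * x * (nn h B a)⁻¹ ∈ GX h.twG rel (ss X J rel rp B a r) := by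
  have e1 := t.rho_nn ha ⟨rp r, t.rp_lt r hr⟩
  have e0 : ss X J rel rp B a r = rel (hF.rhoN F ⟨(nn h B a).1, t.nn_mono ha⟩ ⟨rp r, t.rp_lt r hr⟩) := by
    unfold ss
    rw [e1]
  constructor
  · rw [e0]
    exact t.R.lt _ (Fin.is_lt _)
  · intro x hx
    rw [e0]
    apply t.conj_fwd
    show x ∈ GX h.twG rel (rel (rp r))
    rw [t.rp_rel r hr]
    exact hx

theorem act_inv {a r : ℕ} (ha : a < l) (hr : r < 2 * m) :
    ∀ x ∈ GX h.twG rel (ss X J rel rp B a r), (nn h B a)⁻¹ * x * nn h B a ∈ GX h.twG rel r := by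
  have e1 := t.rho_nn ha ⟨rp r, t.rp_lt r hr⟩
  have e0 : ss X J rel rp B a r = rel (hF.rhoN F ⟨(nn h B a).1, t.nn_mono ha⟩ ⟨rp r, t.rp_lt r hr⟩) := by
    unfold ss
    rw [e1]
  intro x hx
  rw [e0] at hx
  have := t.conj_bwd (t.nn_mono ha) ⟨rp r, t.rp_lt r hr⟩ hx
  rw [show rel ((⟨rp r, t.rp_lt r hr⟩ : Fin D.nroots) : ℕ) = r from t.rp_rel r hr] at this
  exact this

/-- Transport of `Good`. -/
theorem good_step {Γ : Type*} [Group Γ] {σ : Γ →* ↥h.twG.G1} (hE : CE σ) {a r : ℕ} (ha : a < l) (hr : r < 2 * m)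
    (hg : Good σ (GT h.twG) (GX h.twG rel r)) : Good σ (GT h.twG) (GX h.twG rel (ss X J rel rp B a r)) := by
  have hn : nn h B a ∈ GN h.twG := mem_GN.2 (t.nn_mono ha)
  refine hg.conj hE (nn h B a) (fun x hx => GT_nrm _ hn _ hx) (fun x hx => ?_) (t.act ha hr).2 (t.act_inv ha hr) (fun x hx y hy => GT_act hx hy)
  have := GT_nrm _ (Subgroup.inv_mem _ hn) _ hx
  simpa using this

/-- The simple indices in the range of `2 m`. -/
theorem a_lt {a : ℕ} (ha : a < l) : a < m := lt_of_lt_of_le ha t.lm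

/-- Words of a class are in the relative root group. -/
theorem gen_pos' {a i : ℕ} (ha : a < l) (hi : i < D.rank) (hJ : J i = J (B a)) {u : F} (hu : f^[dd i] u = u) :
    ∃ hg : hF.c.wordG (cw ρ' f (D.simple (A i)) (dd i) u) ∈ h.twG.G1,
      (⟨_, hg⟩ : ↥h.twG.G1) ∈ GX h.twG rel a := by
  have hg : hF.c.wordG (cw ρ' f (D.simple (A i)) (dd i) u) ∈ h.G1 :=
    Subgroup.subset_closure ⟨i, hi, u, hu, Or.inl rfl⟩
  refine ⟨hg, mem_GX.2 ⟨h.twG.G1_le_Fx hg, ?_⟩⟩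
  apply hF.c.wordG_mem
  intro p hp
  simp only [cw, List.mem_map] at hp
  obtain ⟨k, hk, rfl⟩ := hp
  have h1 : ρ'^[k] (D.simple (A i)) ∈ (J (B a)).map D.simple := by
    rw [← hJ, ← h.rs_eq hi]
    exact mem_rsOf (List.mem_range.1 hk)
  exact hF.xG_mem_rootClosure ((t.cl_pos a ha _).2 h1) _

/-- Words of a class are in the relative root group. -/
theorem gen_neg' {a i : ℕ} (ha : a < l) (hi : i < D.rank) (hJ : J i = J (B a)) {u : F} (hu : f^[dd i] u = u) :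
    ∃ hg : hF.c.wordG (cw ρ' f (D.neg (D.simple (A i))) (dd i) u) ∈ h.twG.G1,
      (⟨_, hg⟩ : ↥h.twG.G1) ∈ GX h.twG rel (m + a) := by
  have hg : hF.c.wordG (cw ρ' f (D.neg (D.simple (A i))) (dd i) u) ∈ h.G1 :=
    Subgroup.subset_closure ⟨i, hi, u, hu, Or.inr rfl⟩
  refine ⟨hg, mem_GX.2 ⟨h.twG.G1_le_Fx hg, ?_⟩⟩
  apply hF.c.wordG_mem
  intro p hp
  simp only [cw, List.mem_map] at hp
  obtain ⟨k, hk, rfl⟩ := hp
  have h1 : ρ'^[k] (D.neg (D.simple (A i))) ∈ (J i).map fun j => D.neg (D.simple j) := by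
    rw [← h.rsn_eq hi]
    exact mem_rsOf (List.mem_range.1 hk)
  obtain ⟨j, hj, e⟩ := List.mem_map.1 h1
  rw [← e]
  have h2 : D.simple j ∈ (J (B a)).map D.simple := by
    rw [← hJ]
    exact List.mem_map_of_mem hj
  have h3 := (t.cl_pos a ha _).2 h2
  have hjl := h.mem_J_lt hi hj
  have h4 := t.R.neg _ h3.1 (hF.simple_ge hjl)
  refine hF.xG_mem_rootClosure ⟨hF.neg_lt h3.1, ?_⟩ _
  rw [h4, h3.2]

theorem gen (g : ↥h.twG.G1) : g ∈ Subgroup.closure {x | ∃ a < l, x ∈ GX h.twG rel a ∨ x ∈ GX h.twG rel (m + a)} := by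
  set S := Subgroup.closure {x : ↥h.twG.G1 | ∃ a < l, x ∈ GX h.twG rel a ∨ x ∈ GX h.twG rel (m + a)} with hS
  have key : h.G1 ≤ S.map h.twG.G1.subtype := by
    unfold SCOK.G1
    rw [Subgroup.closure_le]
    rintro x ⟨i, hi, u, hu, rfl | rfl⟩
    · obtain ⟨a, ha, hJ⟩ := t.cls i hi
      obtain ⟨hg, h1⟩ := t.gen_pos' ha hi hJ hu
      exact ⟨⟨_, hg⟩, Subgroup.subset_closure ⟨a, ha, Or.inl h1⟩, rfl⟩
    · obtain ⟨a, ha, hJ⟩ := t.cls i hi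
      obtain ⟨hg, h1⟩ := t.gen_neg' ha hi hJ hu
      exact ⟨⟨_, hg⟩, Subgroup.subset_closure ⟨a, ha, Or.inr h1⟩, rfl⟩
  obtain ⟨y, hy, e⟩ := key g.2
  have : y = g := Subtype.ext e
  rwa [← this]

theorem dich : ∀ c ∈ GN h.twG, ∀ a < l, ∃ k < m, (∀ x ∈ GX h.twG rel a, c⁻¹ * x * c ∈ GX h.twG rel k) ∨
    (∀ x ∈ GX h.twG rel (m + a), c⁻¹ * x * c ∈ GX h.twG rel k) := by
  intro c hc a ha
  have ham := t.a_lt ha
  have hlt : a < 2 * m := by omega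
  have hc' : (c⁻¹).1 ∈ D.monomialSubgroup F := Subgroup.inv_mem _ (mem_GN.1 hc)
  set q₀ : Fin D.nroots := ⟨rp a, t.rp_lt a hlt⟩ with hq₀
  have hrel : rel q₀ = a := t.rp_rel a hlt
  have hpos : R.N ≤ (q₀ : ℕ) := (t.R.pos _ q₀.2).2 (by rw [hrel]; exact ham)
  have hconj : ∀ (q : Fin D.nroots) (x : ↥h.twG.G1), x ∈ GX h.twG rel (rel q) →
      c⁻¹ * x * c ∈ GX h.twG rel (rel (hF.rhoN F ⟨(c⁻¹).1, hc'⟩ q)) := by
    intro q x hx
    have := t.conj_fwd hc' q hx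
    simpa using this
  by_cases h1 : R.N ≤ ((hF.rhoN F ⟨(c⁻¹).1, hc'⟩ q₀ : Fin D.nroots) : ℕ)
  · refine ⟨_, (t.R.pos _ (Fin.is_lt _)).1 h1, Or.inl fun x hx => hconj q₀ x ?_⟩
    rw [hrel]
    exact hx
  · obtain ⟨u, hu⟩ := hF.rhoN_spec ⟨(c⁻¹).1, hc'⟩
    have e1 : hF.rhoN F ⟨(c⁻¹).1, hc'⟩ (hF.negF q₀) = hF.negF (hF.rhoN F ⟨(c⁻¹).1, hc'⟩ q₀) := hu.neg_σ q₀
    have h2 : R.N ≤ ((hF.negF (hF.rhoN F ⟨(c⁻¹).1, hc'⟩ q₀) : Fin D.nroots) : ℕ) :=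
      hF.neg_ge_N (not_le.1 h1)
    rw [← e1] at h2
    refine ⟨_, (t.R.pos _ (Fin.is_lt _)).1 h2, Or.inr fun x hx => hconj (hF.negF q₀) x ?_⟩
    have e2 : rel (hF.negF q₀ : Fin D.nroots) = m + a := by
      have := t.R.neg _ q₀.2 hpos
      rw [hrel] at this
      exact this
    rw [e2]
    exact hx

end RTab

end Cfsg.Agent.Lib.TwStem
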