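import Cfsg.Agent.Lib.TwStem.Asm

/-!
# Assembling the system of a twisted group: the lifts
-/

set_option autoImplicit false
set_option linter.unusedSectionVars false
set_option linter.unusedVariables false

namespace Cfsg.Agent.Lib.TwStem

open scoped commutatorElement
open Cfsg Cfsg.Lie Cfsg.Agent.Lib.Chev Matrix Equiv
open Cfsg.Agent.Lib.SL2Core Cfsg.Agent.Lib.SL2Bor Cfsg.Agent.Lib.StK Cfsg.Agent.Lib.ChevLift Cfsg.Agent.Lib.ChevLift.RD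

variable {T : Tabs} {X : Extra} {R : RootTab} {D : ChevalleyDatum} {hF : Full T X R D} {F : Type*} [Field F] [Fintype F]
  {τ : Tw hF F} {f : F ≃+* F} {ρ' π' : ℕ → ℕ} {J : ℕ → List ℕ} {A dd : ℕ → ℕ}

namespace RTab

variable {h : SCOK τ f ρ' π' J A dd} {rel rp : ℕ → ℕ} {l m : ℕ} {B : ℕ → ℕ} (t : RTab h rel rp l m B)
  {Γ : Type*} [Group Γ] {σ : Γ →* ↥h.twG.G1}

/-- The lifted root groups. -/
noncomputable abbrev VV (h : SCOK τ f ρ' π' J A dd) (rel : ℕ → ℕ) (σ : Γ →* ↥h.twG.G1) (r : ℕ) : Subgroup Γ :=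
  LS σ (GT h.twG) (GX h.twG rel r)

/-- The homomorphism, with values in the group. -/
noncomputable def phi0 {i : ℕ} {φ : SL2 ↥(Sb f (dd i)) →* GL D.Idx F} (P : ClassHom h i φ) :
    SL2 ↥(Sb f (dd i)) →* ↥h.twG.G1 :=
  φ.codRestrict h.twG.G1 P.mem_G1

theorem phi0_val {i : ℕ} {φ : SL2 ↥(Sb f (dd i)) →* GL D.Idx F} (P : ClassHom h i φ) (g : SL2 ↥(Sb f (dd i))) :
    (phi0 P g).1 = φ g := rfl

include t

theorem hmain (hE : CE σ) {r : ℕ} (hg : Good σ (GT h.twG) (GX h.twG rel r)) :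
    (∀ u ∈ VV h rel σ r, σ u ∈ GX h.twG rel r) ∧ (∀ x ∈ GX h.twG rel r, ∃ u ∈ VV h rel σ r, σ u = x) ∧
      (∀ u ∈ VV h rel σ r, σ u = 1 → u = 1) := by
  haveI : Finite (GL D.Idx F) := inferInstance
  haveI : Finite ↥(GX h.twG rel r) := inferInstance
  exact hg.main hE

theorem conj_VV {r r' : ℕ} (g : Γ) (hg : σ g ∈ GN h.twG) (hX : ∀ x ∈ GX h.twG rel r, σ g * x * (σ g)⁻¹ ∈ GX h.twG rel r')
    {u : Γ} (hu : u ∈ VV h rel σ r) : g * u * g⁻¹ ∈ VV h rel σ r' :=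
  LS_conj g (fun t ht => GT_nrm _ hg _ ht) hX hu

theorem phi0_wd {a : ℕ} (ha : a < l) {φ : SL2 ↥(Sb f (dd (B a))) →* GL D.Idx F} (P : ClassHom h (B a) φ) :
    phi0 P (wd 1) = nn h B a := by
  apply Subtype.ext
  rw [phi0_val, P.wd_one, t.nn_val ha]
  symm
  exact hF.coe_prod_nNt (fun j hj => h.mem_J_lt (t.B_lt a ha) hj)

theorem mem_P {a : ℕ} (ha : a < l) {φ : SL2 ↥(Sb f (dd (B a))) →* GL D.Idx F} (P : ClassHom h (B a) φ) (u : ↥(Sb f (dd (B a)))) :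
    phi0 P (uu u) ∈ GX h.twG rel a := by
  obtain ⟨hg, h1⟩ := t.gen_pos' ha (t.B_lt a ha) rfl (mem_Sb.1 u.2)
  convert h1 using 1
  apply Subtype.ext
  rw [phi0_val, P.hu]

theorem mem_M {a : ℕ} (ha : a < l) {φ : SL2 ↥(Sb f (dd (B a))) →* GL D.Idx F} (P : ClassHom h (B a) φ) (u : ↥(Sb f (dd (B a)))) :
    phi0 P (ll u) ∈ GX h.twG rel (m + a) := by
  obtain ⟨hg, h1⟩ := t.gen_neg' ha (t.B_lt a ha) rfl (mem_Sb.1 u.2)
  convert h1 using 1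
  apply Subtype.ext
  rw [phi0_val, P.hl]

theorem ontoP {a : ℕ} (ha : a < l) {φ : SL2 ↥(Sb f (dd (B a))) →* GL D.Idx F} (P : ClassHom h (B a) φ) :
    ∀ x ∈ GX h.twG rel a, ∃ u, phi0 P (uu u) = x := by
  have hB := t.B_lt a ha
  intro x hx
  obtain ⟨hx1, hx2⟩ := mem_GX.1 hx
  have hQ : ∀ r, (r < D.nroots ∧ rel r = a) ↔ r ∈ rsOf ρ' (D.simple (A (B a))) (dd (B a)) := by
    intro r
    rw [h.rs_eq hB]
    exact t.cl_pos a ha r
  obtain ⟨u, hu, e⟩ := τ.of_fixed f (h.dd_pos _ hB) (h.cl_pos hB)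
    (by rw [h.rs_eq hB]; exact h.pos_rs hB) (by rw [h.rs_eq hB]; exact h.nd_rs hB)
    (by rw [h.rs_eq hB]; exact h.comm_pos hB) (h.hsp hB) hQ hx2 hx1.2
  refine ⟨⟨u, mem_Sb.2 hu⟩, Subtype.ext ?_⟩
  rw [phi0_val, P.hu, e]

theorem ontoM {a : ℕ} (ha : a < l) {φ : SL2 ↥(Sb f (dd (B a))) →* GL D.Idx F} (P : ClassHom h (B a) φ) :
    ∀ x ∈ GX h.twG rel (m + a), ∃ u, phi0 P (ll u) = x := by
  have ham := t.a_lt ha
  have hw1 := t.phi0_wd ha P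
  intro x hx
  have h1 := (t.act ha (r := m + a) (by omega)).2 x hx
  have h2 : ss X J rel rp B a (m + a) = a := t.swap2 a ha
  rw [h2] at h1
  obtain ⟨u, hu⟩ := t.ontoP ha P _ h1
  refine ⟨-u, ?_⟩
  have e1 := P.wd_ll (-u)
  rw [_root_.neg_neg] at e1
  have e2 : phi0 P (wd 1) * phi0 P (ll (-u)) * (phi0 P (wd 1))⁻¹ = phi0 P (uu u) := Subtype.ext e1
  rw [hw1, hu] at e2
  have e3 : nn h B a * phi0 P (ll (-u)) = nn h B a * x := by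
    calc nn h B a * phi0 P (ll (-u)) = (nn h B a * phi0 P (ll (-u)) * (nn h B a)⁻¹) * nn h B a := by group
      _ = (nn h B a * x * (nn h B a)⁻¹) * nn h B a := by rw [e2]
      _ = _ := by group
  exact mul_left_cancel e3

/-- The section over the rank one group. -/
theorem exists_ψ [Finite Γ] (hE : CE σ) {a : ℕ} (ha : a < l) (hg1 : Good σ (GT h.twG) (GX h.twG rel a))
    (hg2 : Good σ (GT h.twG) (GX h.twG rel (m + a))) {φ : SL2 ↥(Sb f (dd (B a))) →* GL D.Idx F} (P : ClassHom h (B a) φ) :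
    ∃ ψ : SL2 ↥(Sb f (dd (B a))) →* Γ, (∀ u, ψ (uu u) ∈ VV h rel σ a) ∧ (∀ u, ψ (ll u) ∈ VV h rel σ (m + a)) ∧
      ∀ g, σ (ψ g) = phi0 P g := by
  classical
  haveI : Fintype ↥(Sb f (dd (B a))) := Fintype.ofFinite _
  obtain ⟨m1, m2, m3⟩ := t.hmain hE hg1
  obtain ⟨m4, m5, m6⟩ := t.hmain hE hg2
  exact exists_psi hE (N := GN h.twG) (XP := GX h.twG rel a) (XM := GX h.twG rel (m + a)) (VP := VV h rel σ a)
    (VM := VV h rel σ (m + a)) (phi0 P) (t.mem_P ha P) (t.mem_M ha P) (t.ontoP ha P) m1 m2 m3 m4 m5 m6 hg1.lc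
    (fun g hg hx u hu => t.conj_VV g hg hx hu) (fun g hg hx u hu => t.conj_VV g hg hx hu) (t.ontoM ha P)
    (fun d hd => mem_GN.2 (P.wd_mono hd))

/-- The rank one group is the image of the section. -/
theorem LL_range {a : ℕ} (hE : CE σ) (ha : a < l) (hg1 : Good σ (GT h.twG) (GX h.twG rel a))
    (hg2 : Good σ (GT h.twG) (GX h.twG rel (m + a))) {φ : SL2 ↥(Sb f (dd (B a))) →* GL D.Idx F} (P : ClassHom h (B a) φ)
    {ψ : SL2 ↥(Sb f (dd (B a))) →* Γ} (h1 : ∀ u, ψ (uu u) ∈ VV h rel σ a) (h2 : ∀ u, ψ (ll u) ∈ VV h rel σ (m + a))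
    (h3 : ∀ g, σ (ψ g) = phi0 P g) {u : Γ} (hu : u ∈ LL (VV h rel σ) m a) : u ∈ ψ.range := by
  obtain ⟨m1, m2, m3⟩ := t.hmain hE hg1
  obtain ⟨m4, m5, m6⟩ := t.hmain hE hg2
  have key : Subgroup.closure ((VV h rel σ a : Set Γ) ∪ VV h rel σ (m + a)) ≤ ψ.range := by
    rw [Subgroup.closure_le]
    rintro x (hx | hx)
    · obtain ⟨w, hw⟩ := t.ontoP ha P _ (m1 x hx)
      refine ⟨uu w, ?_⟩
      have h4 : σ (ψ (uu w) * x⁻¹) = 1 := by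
        rw [map_mul, map_inv, h3, hw, mul_inv_cancel]
      exact mul_inv_eq_one.1 (m3 _ (Subgroup.mul_mem _ (h1 w) (Subgroup.inv_mem _ hx)) h4)
    · obtain ⟨w, hw⟩ := t.ontoM ha P _ (m4 x hx)
      refine ⟨ll w, ?_⟩
      have h4 : σ (ψ (ll w) * x⁻¹) = 1 := by
        rw [map_mul, map_inv, h3, hw, mul_inv_cancel]
      exact mul_inv_eq_one.1 (m6 _ (Subgroup.mul_mem _ (h2 w) (Subgroup.inv_mem _ hx)) h4)
  exact key hu

theorem psi_mem_LL {a : ℕ} {E : Type*} [Field E] {ψ : SL2 E →* Γ} (h1 : ∀ u, ψ (uu u) ∈ VV h rel σ a) (h2 : ∀ u, ψ (ll u) ∈ VV h rel σ (m + a))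
    (g : SL2 E) : ψ g ∈ LL (VV h rel σ) m a := by
  induction g using sl2_ind with
  | hu s => exact Subgroup.subset_closure (Or.inl (h1 s))
  | hl s => exact Subgroup.subset_closure (Or.inr (h2 s))
  | hm A B hA hB =>
    rw [map_mul]
    exact Subgroup.mul_mem _ hA hB

theorem wd_uu_eq {E : Type*} [Field E] {t' : E} (ht : t' ≠ 0) :
    wd (1 : E) * uu t' = uu (-(1 * 1) * t'⁻¹) * (wd (-1 * t'⁻¹) * wd (-1)) * ll t'⁻¹ := by
  apply sl2_ext <;> simp [mul_apply2, wd] <;> field_simp <;> ring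

/-- The rank one facts. -/
theorem rank1 [Finite Γ] (hE : CE σ) {a : ℕ} (ha : a < l) (hg1 : Good σ (GT h.twG) (GX h.twG rel a))
    (hg2 : Good σ (GT h.twG) (GX h.twG rel (m + a))) {φ : SL2 ↥(Sb f (dd (B a))) →* GL D.Idx F} (P : ClassHom h (B a) φ)
    (hker : ∀ c : ↥(Sb f (dd (B a))), c ≠ 0 → φ (wd c * wd (-1)) = 1 → c = 1) :
    ∃ na : Γ, na ∈ LL (VV h rel σ) m a ∧ σ na = nn h B a ∧ (∀ u ∈ LL (VV h rel σ) m a, σ u = 1 → u = 1) ∧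
      (∀ x ∈ VV h rel σ a, x = 1 ∨ ∃ p ∈ VV h rel σ a, ∃ τ' ∈ TL σ (GT h.twG) (VV h rel σ) m a, ∃ q ∈ VV h rel σ (m + a),
        na * x = p * τ' * q) ∧
      ∀ w ∈ TL σ (GT h.twG) (VV h rel σ) m a, ∃ c : ↥(Sb f (dd (B a))), c ≠ 0 ∧ ((σ w : ↥h.twG.G1) : GL D.Idx F) = φ (wd c * wd (-1)) := by
  obtain ⟨ψ, h1, h2, h3⟩ := t.exists_ψ hE ha hg1 hg2 P
  obtain ⟨m1, m2, m3⟩ := t.hmain hE hg1
  obtain ⟨m4, m5, m6⟩ := t.hmain hE hg2
  have hLL := t.psi_mem_LL (a := a) h1 h2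
  have hinj := P.inj hker
  have hval : ∀ g, ((σ (ψ g) : ↥h.twG.G1) : GL D.Idx F) = φ g := by
    intro g
    rw [h3]
    rfl
  refine ⟨ψ (wd 1), hLL _, ?_, ?_, ?_, ?_⟩
  · rw [h3]
    exact t.phi0_wd ha P
  · intro u hu e
    obtain ⟨g, rfl⟩ := t.LL_range hE ha hg1 hg2 P h1 h2 h3 hu
    have e1 : φ g = 1 := by
      rw [← hval, e]
      rfl
    have e2 : g = 1 := hinj (by rw [e1, map_one])
    rw [e2, map_one]
  · intro x hx
    obtain ⟨w, hw⟩ := t.ontoP ha P _ (m1 x hx)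
    have h4 : σ (ψ (uu w) * x⁻¹) = 1 := by
      rw [map_mul, map_inv, h3, hw, mul_inv_cancel]
    have h5 : ψ (uu w) = x := mul_inv_eq_one.1 (m3 _ (Subgroup.mul_mem _ (h1 w) (Subgroup.inv_mem _ hx)) h4)
    subst h5
    by_cases hw0 : w = 0
    · left
      rw [hw0, uu_zero', map_one]
    · right
      have hw1 : (-1 : ↥(Sb f (dd (B a)))) * w⁻¹ ≠ 0 := mul_ne_zero (neg_ne_zero.2 one_ne_zero) (inv_ne_zero hw0)
      refine ⟨_, h1 (-(1 * 1) * w⁻¹), ψ (wd (-1 * w⁻¹) * wd (-1)), ⟨hLL _, ?_⟩, _, h2 w⁻¹, ?_⟩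
      · show σ _ ∈ GT h.twG
        rw [mem_GT, hval]
        exact P.D_diag hw1
      · rw [← map_mul, ← map_mul, ← map_mul, t.wd_uu_eq hw0]
  · rintro w ⟨hw1, hw2⟩
    obtain ⟨g, rfl⟩ := t.LL_range hE ha hg1 hg2 P h1 h2 h3 hw1
    have h4 : φ g ∈ D.diagonalSubgroup F := by
      rw [← hval]
      exact mem_GT.1 hw2
    obtain ⟨c, hc, rfl⟩ := P.diag_of h4
    exact ⟨c, hc, hval _⟩

end RTab

end Cfsg.Agent.Lib.TwStem
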