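import Cfsg.Agent.Lib.TwStem.Base
import Cfsg.Agent.Lib.Chev.TwSCBN

/-!
# The homomorphism from the monomial group of a twisted group to the Coxeter group
-/

set_option autoImplicit false
set_option linter.unusedSectionVars false
set_option linter.unusedVariables false

namespace Cfsg.Agent.Lib.TwStem

open Cfsg Cfsg.Lie Cfsg.Agent.Lib.Chev Matrix Equiv

variable {T : Tabs} {X : Extra} {R : RootTab} {D : ChevalleyDatum} {hF : Full T X R D} {F : Type*} [Field F] [Fintype F]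
  {τ : Tw hF F} (A : TwG τ)

/-- The homomorphism, with the images of the generators. -/
theorem exists_phi_of_card {n : ℕ} (M : CoxeterMatrix (Fin n)) (rep : Fin n → ℕ) (hrep : ∀ a, rep a < D.rank)
    (hrel : ∀ a b, (hF.rhoN F (A.nC (rep a)) * hF.rhoN F (A.nC (rep b))) ^ M a b = 1)
    (hgen : ∀ i < D.rank, ∃ a, A.nC i = A.nC (rep a)) [Finite M.Group]
    (hcard : Nat.card M.Group = Nat.card A.W1) :
    ∃ φ : ↥(GN A) →* M.Group, (∀ t (ht : t ∈ GT A), φ ⟨t, GT_le_GN ht⟩ = 1) ∧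
      ∀ a, φ ⟨⟨(A.nC (rep a)).1, A.nC_mem _ (hrep a)⟩, mem_GN.2 (A.nC (rep a)).2⟩ = M.simple a := by
  classical
  let cs := M.toCoxeterSystem
  let sW : Fin n → A.W1 := fun a => ⟨hF.rhoN F (A.nC (rep a)), Subgroup.subset_closure ⟨rep a, hrep a, rfl⟩⟩
  have hlift : M.IsLiftable sW := by
    intro a b
    apply Subtype.ext
    exact hrel a b
  let Ψ : M.Group →* A.W1 := cs.lift ⟨sW, hlift⟩
  have hΨ : ∀ a, Ψ (M.simple a) = sW a := fun a => cs.lift_apply_simple hlift a
  have hsurj : Function.Surjective Ψ := by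
    rw [← MonoidHom.range_eq_top, eq_top_iff]
    rintro ⟨w, hw⟩ -
    have key : ∀ w (hw : w ∈ A.W1), (⟨w, hw⟩ : A.W1) ∈ Ψ.range := by
      intro w hw
      unfold TwG.W1 at hw
      induction hw using Subgroup.closure_induction with
      | mem x hx =>
        obtain ⟨i, hi, rfl⟩ := hx
        obtain ⟨a, ha⟩ := hgen i hi
        refine ⟨M.simple a, ?_⟩
        rw [hΨ]
        apply Subtype.ext
        show hF.rhoN F (A.nC (rep a)) = hF.rhoN F (A.nC i)
        exact (congrArg (hF.rhoN F) ha).symm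
      | one => exact Subgroup.one_mem _
      | mul a b ha' hb' ha hb => exact Subgroup.mul_mem _ ha hb
      | inv a ha' ha => exact Subgroup.inv_mem _ ha
    exact key w hw
  have hfin : Finite A.W1 := inferInstance
  have hbij : Function.Bijective Ψ := by
    refine ⟨?_, hsurj⟩
    exact ((Nat.bijective_iff_surjective_and_card Ψ).2 ⟨hsurj, hcard⟩).1
  let e := (MulEquiv.ofBijective Ψ hbij).symm
  let r₀ : ↥(GN A) →* ↥(D.monomialSubgroup F) :=
    { toFun := fun x => ⟨x.1.1, mem_GN.1 x.2⟩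
      map_one' := rfl
      map_mul' := fun _ _ => rfl }
  have hmem : ∀ x, hF.rhoN F (r₀ x) ∈ A.W1 := by
    intro x
    exact A.mem_W1_of_comm _ _ (hF.rhoN_mem_Wk _) (A.rho_fix (r₀ x) x.1.2) rfl
  let r₁ : ↥(GN A) →* A.W1 :=
    { toFun := fun x => ⟨hF.rhoN F (r₀ x), hmem x⟩
      map_one' := by
        apply Subtype.ext
        show hF.rhoN F (r₀ 1) = 1
        rw [map_one, map_one]
      map_mul' := fun a b => by
        apply Subtype.ext
        show hF.rhoN F (r₀ (a * b)) = hF.rhoN F (r₀ a) * hF.rhoN F (r₀ b)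
        rw [map_mul, map_mul] }
  refine ⟨e.toMonoidHom.comp r₁, ?_, ?_⟩
  · intro t ht
    have h2 : r₁ ⟨t, GT_le_GN ht⟩ = 1 := Subtype.ext (hF.rhoN_of_mem_diagonal (r₀ ⟨t, GT_le_GN ht⟩) (mem_GT.1 ht))
    show e (r₁ ⟨t, GT_le_GN ht⟩) = 1
    rw [h2, map_one]
  · intro a
    have h2 : r₁ ⟨⟨(A.nC (rep a)).1, A.nC_mem _ (hrep a)⟩, mem_GN.2 (A.nC (rep a)).2⟩ = Ψ (M.simple a) := by
      rw [hΨ]
      rfl
    show e (r₁ _) = _
    rw [h2]
    have h3 : (MulEquiv.ofBijective Ψ hbij) (M.simple a) = Ψ (M.simple a) := rfl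
    rw [← h3]
    exact MulEquiv.symm_apply_apply (MulEquiv.ofBijective Ψ hbij) (M.simple a)

variable {f : F ≃+* F} {ρ' π' : ℕ → ℕ} {J : ℕ → List ℕ} {A' dd : ℕ → ℕ} (h : SCOK τ f ρ' π' J A' dd)

include h in
/-- The homomorphism of a system of classes. -/
theorem exists_phi {n : ℕ} (M : CoxeterMatrix (Fin n)) [Finite M.Group] (rep : Fin n → ℕ) (hrep : ∀ a, rep a < D.rank)
    (hrel : ∀ a b, ∀ r, r < D.nroots → (fun s => wAct X (J (rep a)) (wAct X (J (rep b)) s))^[M a b] r = r)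
    (hgen : ∀ i < D.rank, ∃ a, J i = J (rep a))
    (hinv : ∀ i < D.rank, ∀ r < D.nroots, wAct X (J i) (wAct X (J i) r) = r)
    {gm : List (List (List ℤ))} (hgm : checkGm R X D J gm = true)
    {W : W1Tab} (hW : w1OK R D.rank gm W = true) (hcard : Nat.card M.Group = W.expand.length) :
    ∃ φ : ↥(GN h.twG) →* M.Group, (∀ t (ht : t ∈ GT h.twG), φ ⟨t, GT_le_GN ht⟩ = 1) ∧
      ∀ a, φ ⟨⟨(h.twG.nC (rep a)).1, h.twG.nC_mem _ (hrep a)⟩, mem_GN.2 (h.twG.nC (rep a)).2⟩ = M.simple a := by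
  classical
  have hrho : ∀ i (hi : i < D.rank) (r : Fin D.nroots), ((hF.rhoN F ((h.twG).nC i) r : Fin D.nroots) : ℕ) = wAct X (J i) r := by
    intro i hi r
    show ((hF.rhoN F (((J i).map (hF.nNt F)).prod) r : Fin D.nroots) : ℕ) = _
    rw [hF.rhoN_prod_nNt, hF.prod_wPt_apply (fun j hj => h.mem_J_lt hi hj)]
  refine exists_phi_of_card (h.twG) M rep hrep ?_ ?_ ?_
  · intro a b
    ext r
    have key : ∀ k : ℕ, (((hF.rhoN F ((h.twG).nC (rep a)) * hF.rhoN F ((h.twG).nC (rep b))) ^ k) r : Fin D.nroots).1 =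
        (fun s => wAct X (J (rep a)) (wAct X (J (rep b)) s))^[k] r := by
      intro k
      induction k with
      | zero => rfl
      | succ k ih =>
        rw [pow_succ', Perm.mul_apply, Function.iterate_succ_apply', ← ih, Perm.mul_apply, hrho _ (hrep a), hrho _ (hrep b)]
    rw [key, hrel a b r r.2]
    rfl
  · intro i hi
    obtain ⟨a, ha⟩ := hgen i hi
    refine ⟨a, ?_⟩
    show ((J i).map (hF.nNt F)).prod = ((J (rep a)).map (hF.nNt F)).prod
    rw [ha]
  · rw [hcard]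
    have h2 := hF.sum_W1 (h.twG) (gen := J) (fun i hi => hF.rhoN_prod_nNt _)
      (fun i hi j hj => h.mem_J_lt hi hj) hinv hgm hW (fun _ => 1)
    have h3 : (W.expand.map fun _ => 1).sum = W.expand.length := by
      simp
    rw [← h3, ← h2, Nat.card_eq_fintype_card]
    simp [Fintype.card_subtype]

end Cfsg.Agent.Lib.TwStem
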