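import Cfsg.Agent.Lib.TwStem.Asm2
import Cfsg.Agent.Lib.TwStem.Cox2

/-!
# Assembling the system of a twisted group: the main theorem
-/

set_option autoImplicit false
set_option linter.unusedSectionVars false
set_option linter.unusedVariables false

namespace Cfsg.Agent.Lib.TwStem

open scoped commutatorElement
open Cfsg Cfsg.Lie Cfsg.Agent.Lib.Chev Matrix Equiv
open Cfsg.Agent.Lib.SL2Core Cfsg.Agent.Lib.SL2Bor Cfsg.Agent.Lib.StK Cfsg.Agent.Lib.ChevLift Cfsg.Agent.Lib.ChevLift.RD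

variable {T : Tabs} {X : Extra} {R : RootTab} {D : ChevalleyDatum} {hF : Full T X R D} {F : Type*} [Field F] [Fintype F]
  {τ : Tw hF F} {f : F ≃+* F} {ρ' π' : ℕ → ℕ} {J : ℕ → List ℕ} {A dd : ℕ → ℕ}

/-- A witness for a pair of relative roots. -/
def Wit (h : SCOK τ f ρ' π' J A dd) (rel : ℕ → ℕ) (k s : ℕ) : Prop :=
  ∃ t ∈ GT h.twG, (∀ x ∈ GX h.twG rel k, t * x * t⁻¹ = x) ∧ (∀ y ∈ GX h.twG rel s, t * y * t⁻¹ = y → y = 1) ∨
      (∀ y ∈ GX h.twG rel s, t * y * t⁻¹ = y) ∧ (∀ x ∈ GX h.twG rel k, t * x * t⁻¹ = x → x = 1)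

namespace RTab

variable {h : SCOK τ f ρ' π' J A dd} {rel rp : ℕ → ℕ} {l m : ℕ} {B : ℕ → ℕ} (t : RTab h rel rp l m B)
  {Γ : Type*} [Group Γ] {σ : Γ →* ↥h.twG.G1}

include t

theorem UF_sig {u : Γ} {j : ℕ} (hmap : ∀ r < m, ∀ u ∈ VV h rel σ r, σ u ∈ GX h.twG rel r) (hu : u ∈ UF (VV h rel σ) m j) :
    σ u ∈ UF (GX h.twG rel) m j := by
  unfold UF at hu
  induction hu using Subgroup.closure_induction with
  | mem a ha =>
    obtain ⟨r, h1, h2, h3⟩ := ha
    exact mem_UF h1 h2 (hmap r h2 a h3)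
  | one =>
    rw [map_one]
    exact Subgroup.one_mem _
  | mul x y _ _ hx hy =>
    rw [map_mul]
    exact Subgroup.mul_mem _ hx hy
  | inv x _ hx =>
    rw [map_inv]
    exact Subgroup.inv_mem _ hx

/-- The system. -/
theorem exists_tsys [Finite Γ] (hE : CE σ) (hgood : ∀ r < 2 * m, Good σ (GT h.twG) (GX h.twG rel r))
    (hwit : ∀ k s, k < s → s < m → Wit h rel k s)
    (hcl : ∀ a < l, ∃ φ : SL2 ↥(Sb f (dd (B a))) →* GL D.Idx F, ClassHom h (B a) φ ∧
      ∀ c : ↥(Sb f (dd (B a))), c ≠ 0 → φ (wd c * wd (-1)) = 1 → c = 1) :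
    ∃ nh : ℕ → Γ, TSys σ l m (GX h.twG rel) (GT h.twG) (GN h.twG) (nn h B) (ss X J rel rp B) (VV h rel σ) nh := by
  classical
  have hlm := t.lm
  have hrk : ∀ a, ∃ na : Γ, a < l → (na ∈ LL (VV h rel σ) m a ∧ σ na = nn h B a ∧ (∀ u ∈ LL (VV h rel σ) m a, σ u = 1 → u = 1) ∧
      (∀ x ∈ VV h rel σ a, x = 1 ∨ ∃ p ∈ VV h rel σ a, ∃ τ' ∈ TL σ (GT h.twG) (VV h rel σ) m a, ∃ q ∈ VV h rel σ (m + a),
        na * x = p * τ' * q)) := by
    intro a
    by_cases ha : a < l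
    · obtain ⟨φ, P, hk⟩ := hcl a ha
      obtain ⟨na, h1, h2, h3, h4, -⟩ := t.rank1 hE ha (hgood a (by omega)) (hgood (m + a) (by omega)) P hk
      exact ⟨na, fun _ => ⟨h1, h2, h3, h4⟩⟩
    · exact ⟨1, fun h' => absurd h' ha⟩
  choose nh hnh using hrk
  have hmap : ∀ r < 2 * m, ∀ u ∈ VV h rel σ r, σ u ∈ GX h.twG rel r := fun r hr => (t.hmain hE (hgood r hr)).1
  have honto : ∀ r < 2 * m, ∀ x ∈ GX h.twG rel r, ∃ u ∈ VV h rel σ r, σ u = x := fun r hr => (t.hmain hE (hgood r hr)).2.1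
  have hinj : ∀ r < 2 * m, ∀ u ∈ VV h rel σ r, σ u = 1 → u = 1 := fun r hr => (t.hmain hE (hgood r hr)).2.2
  have hP : ∀ k s, k < s → s < m → PP (VV h rel σ) m k s := by
    refine all_PP ?_
    intro k s hks hsm hP1 hP2
    refine PP_of_wit (T := GT h.twG) (X := GX h.twG rel) hE hks hsm (fun r hr => hmap r (by omega))
      (fun r hr => honto r (by omega)) (fun r hr => hinj r (by omega)) ?_ ?_ ?_ hP1 hP2 (hwit k s hks hsm)
    · intro r hr a ha b hb
      exact (hgood r (by omega)).lc a b (hmap r (by omega) a ha) (hmap r (by omega) b hb)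
    · intro g hg r hr u hu
      exact t.conj_VV g (GT_le_GN hg) (fun x hx => GT_act hg hx) hu
    · intro x hx y hy
      exact GX_comm t.R hks hsm hx hy
  refine ⟨nh, ?_⟩
  refine
    { cen := hE
      T_le := GT_le_GN
      T_ab := GT_ab
      T_nrm := GT_nrm
      n_mem := fun a ha => mem_GN.2 (t.nn_mono ha)
      n_sq := fun a ha => by
        rw [mem_GT]
        show (nn h B a).1 * (nn h B a).1 ∈ _
        rw [t.nn_val ha]
        exact h.twG.nC_sq_mem (t.B_lt a ha)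
      act := fun a ha r hr => t.act ha hr
      act_T := fun x hx r hr y hy => GT_act hx hy
      lm := hlm
      swap1 := t.swap1
      swap2 := t.swap2
      pos := t.pos
      gen := t.gen
      dich := t.dich
      U_N := fun u hu hn => GX_U_N t.R hu hn
      map := hmap
      onto := honto
      conj := fun g hg r hr r' hr' hX u hu => t.conj_VV g hg hX hu
      hP := hP
      hinjU := ?_
      nh_mem := fun a ha => (hnh a ha).1
      nh_map := fun a ha => (hnh a ha).2.1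
      inj_L := fun a ha => (hnh a ha).2.2.1
      bru := fun a ha => (hnh a ha).2.2.2 }
  refine UF_inj hP (fun r hr => hinj r (by omega)) ?_ 0
  intro r hr x hx w hw e
  have h1 := hmap r (by omega) x hx
  have h2 := t.UF_sig (fun r hr => hmap r (by omega)) hw
  exact GX_dis t.R hr h1 h2 e

end RTab

end Cfsg.Agent.Lib.TwStem
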