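import Cfsg.Agent.Lib.TwStem.Asm3

/-!
# Assembling the system of a twisted group, with arbitrary lifted root groups
-/

set_option autoImplicit false
set_option linter.unusedSectionVars false
set_option linter.unusedVariables false

namespace Cfsg.Agent.Lib.TwStem

open scoped commutatorElement
open Cfsg Cfsg.Lie Cfsg.Agent.Lib.Chev Matrix Equiv
open Cfsg.Agent.Lib.SL2Core Cfsg.Agent.Lib.SL2Bor Cfsg.Agent.Lib.StK Cfsg.Agent.Lib.ChevLift Cfsg.Agent.Lib.ChevLift.RD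

variable {T : Tabs} {X : Extra} {R : RootTab} {D : ChevalleyDatum} {hF : Full T X R D} {F : Type*} [Field F] [Fintype F]
  {τ : Tw hF F} {f : F ≃+* F} {ρ' π' : ℕ → ℕ} {J : ℕ → List ℕ} {A dd : ℕ → ℕ}

/-- Lifted root groups. -/
structure VD (h : SCOK τ f ρ' π' J A dd) (rel : ℕ → ℕ) {Γ : Type*} [Group Γ] (σ : Γ →* ↥h.twG.G1) (V : ℕ → Subgroup Γ) (m : ℕ) : Prop where
  map : ∀ r < 2 * m, ∀ u ∈ V r, σ u ∈ GX h.twG rel r
  onto : ∀ r < 2 * m, ∀ x ∈ GX h.twG rel r, ∃ u ∈ V r, σ u = x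
  inj : ∀ r < 2 * m, ∀ u ∈ V r, σ u = 1 → u = 1
  conj : ∀ g, σ g ∈ GN h.twG → ∀ r < 2 * m, ∀ r' < 2 * m, (∀ x ∈ GX h.twG rel r, σ g * x * (σ g)⁻¹ ∈ GX h.twG rel r') →
    ∀ u ∈ V r, g * u * g⁻¹ ∈ V r'
  lc : ∀ r < 2 * m, ∀ a b, σ a ∈ GX h.twG rel r → σ b ∈ GX h.twG rel r → a * b = b * a

namespace RTab

variable {h : SCOK τ f ρ' π' J A dd} {rel rp : ℕ → ℕ} {l m : ℕ} {B : ℕ → ℕ} (t : RTab h rel rp l m B)
  {Γ : Type*} [Group Γ] {σ : Γ →* ↥h.twG.G1} {V : ℕ → Subgroup Γ}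

include t

/-- The section over the rank one group. -/
theorem exists_ψV [Finite Γ] (hE : CE σ) (v : VD h rel σ V m) {a : ℕ} (ha : a < l) {φ : SL2 ↥(Sb f (dd (B a))) →* GL D.Idx F}
    (P : ClassHom h (B a) φ) :
    ∃ ψ : SL2 ↥(Sb f (dd (B a))) →* Γ, (∀ u, ψ (uu u) ∈ V a) ∧ (∀ u, ψ (ll u) ∈ V (m + a)) ∧
      ∀ g, σ (ψ g) = phi0 P g := by
  classical
  haveI : Fintype ↥(Sb f (dd (B a))) := Fintype.ofFinite _
  have ham := t.a_lt ha
  have h1 : a < 2 * m := by omega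
  have h2 : m + a < 2 * m := by omega
  exact exists_psi hE (N := GN h.twG) (XP := GX h.twG rel a) (XM := GX h.twG rel (m + a)) (VP := V a)
    (VM := V (m + a)) (phi0 P) (t.mem_P ha P) (t.mem_M ha P) (t.ontoP ha P) (v.map _ h1) (v.onto _ h1) (v.inj _ h1)
    (v.map _ h2) (v.onto _ h2) (v.inj _ h2) (v.lc _ h1)
    (fun g hg hx u hu => v.conj g hg _ h2 _ h1 hx u hu) (fun g hg hx u hu => v.conj g hg _ h1 _ h1 hx u hu) (t.ontoM ha P)
    (fun d hd => mem_GN.2 (P.wd_mono hd))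

/-- The rank one group is the image of the section. -/
theorem LL_rangeV (hE : CE σ) (v : VD h rel σ V m) {a : ℕ} (ha : a < l) {φ : SL2 ↥(Sb f (dd (B a))) →* GL D.Idx F} (P : ClassHom h (B a) φ)
    {ψ : SL2 ↥(Sb f (dd (B a))) →* Γ} (h1 : ∀ u, ψ (uu u) ∈ V a) (h2 : ∀ u, ψ (ll u) ∈ V (m + a))
    (h3 : ∀ g, σ (ψ g) = phi0 P g) {u : Γ} (hu : u ∈ LL V m a) : u ∈ ψ.range := by
  have ham := t.a_lt ha
  have l1 : a < 2 * m := by omega
  have l2 : m + a < 2 * m := by omega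
  have key : Subgroup.closure ((V a : Set Γ) ∪ V (m + a)) ≤ ψ.range := by
    rw [Subgroup.closure_le]
    rintro x (hx | hx)
    · obtain ⟨w, hw⟩ := t.ontoP ha P _ (v.map _ l1 x hx)
      refine ⟨uu w, ?_⟩
      have h4 : σ (ψ (uu w) * x⁻¹) = 1 := by
        rw [map_mul, map_inv, h3, hw, mul_inv_cancel]
      exact mul_inv_eq_one.1 (v.inj _ l1 _ (Subgroup.mul_mem _ (h1 w) (Subgroup.inv_mem _ hx)) h4)
    · obtain ⟨w, hw⟩ := t.ontoM ha P _ (v.map _ l2 x hx)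
      refine ⟨ll w, ?_⟩
      have h4 : σ (ψ (ll w) * x⁻¹) = 1 := by
        rw [map_mul, map_inv, h3, hw, mul_inv_cancel]
      exact mul_inv_eq_one.1 (v.inj _ l2 _ (Subgroup.mul_mem _ (h2 w) (Subgroup.inv_mem _ hx)) h4)
  exact key hu

theorem psi_mem_LLV {a : ℕ} {E : Type*} [Field E] {ψ : SL2 E →* Γ} (h1 : ∀ u, ψ (uu u) ∈ V a) (h2 : ∀ u, ψ (ll u) ∈ V (m + a))
    (g : SL2 E) : ψ g ∈ LL V m a := by
  induction g using sl2_ind with
  | hu s => exact Subgroup.subset_closure (Or.inl (h1 s))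
  | hl s => exact Subgroup.subset_closure (Or.inr (h2 s))
  | hm A B hA hB =>
    rw [map_mul]
    exact Subgroup.mul_mem _ hA hB

/-- The rank one facts. -/
theorem rank1V [Finite Γ] (hE : CE σ) (v : VD h rel σ V m) {a : ℕ} (ha : a < l) {φ : SL2 ↥(Sb f (dd (B a))) →* GL D.Idx F} (P : ClassHom h (B a) φ)
    (hker : ∀ c : ↥(Sb f (dd (B a))), c ≠ 0 → φ (wd c * wd (-1)) = 1 → c = 1) :
    ∃ na : Γ, na ∈ LL V m a ∧ σ na = nn h B a ∧ (∀ u ∈ LL V m a, σ u = 1 → u = 1) ∧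
      (∀ x ∈ V a, x = 1 ∨ ∃ p ∈ V a, ∃ τ' ∈ TL σ (GT h.twG) V m a, ∃ q ∈ V (m + a),
        na * x = p * τ' * q) ∧
      ∀ w ∈ TL σ (GT h.twG) V m a, ∃ c : ↥(Sb f (dd (B a))), c ≠ 0 ∧ ((σ w : ↥h.twG.G1) : GL D.Idx F) = φ (wd c * wd (-1)) := by
  obtain ⟨ψ, h1, h2, h3⟩ := t.exists_ψV hE v ha P
  have ham := t.a_lt ha
  have l1 : a < 2 * m := by omega
  have hLL := t.psi_mem_LLV (a := a) h1 h2
  have hinj := P.inj hker
  have hval : ∀ g, ((σ (ψ g) : ↥h.twG.G1) : GL D.Idx F) = φ g := by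
    intro g
    rw [h3]
    rfl
  refine ⟨ψ (wd 1), hLL _, ?_, ?_, ?_, ?_⟩
  · rw [h3]
    exact t.phi0_wd ha P
  · intro u hu e
    obtain ⟨g, rfl⟩ := t.LL_rangeV hE v ha P h1 h2 h3 hu
    have e1 : φ g = 1 := by
      rw [← hval, e]
      rfl
    have e2 : g = 1 := hinj (by rw [e1, map_one])
    rw [e2, map_one]
  · intro x hx
    obtain ⟨w, hw⟩ := t.ontoP ha P _ (v.map _ l1 x hx)
    have h4 : σ (ψ (uu w) * x⁻¹) = 1 := by
      rw [map_mul, map_inv, h3, hw, mul_inv_cancel]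
    have h5 : ψ (uu w) = x := mul_inv_eq_one.1 (v.inj _ l1 _ (Subgroup.mul_mem _ (h1 w) (Subgroup.inv_mem _ hx)) h4)
    subst h5
    by_cases hw0 : w = 0
    · left
      rw [hw0, uu_zero', map_one]
    · right
      have hw1 : (-1 : ↥(Sb f (dd (B a)))) * w⁻¹ ≠ 0 := mul_ne_zero (neg_ne_zero.2 one_ne_zero) (inv_ne_zero hw0)
      refine ⟨_, h1 (-(1 * 1) * w⁻¹), ψ (wd (-1 * w⁻¹) * wd (-1)), ⟨hLL _, ?_⟩, _, h2 w⁻¹, ?_⟩
      · show σ _ ∈ GT h.twG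
        rw [mem_GT, hval]
        exact P.D_diag hw1
      · rw [← map_mul, ← map_mul, ← map_mul, t.wd_uu_eq hw0]
  · rintro w ⟨hw1, hw2⟩
    obtain ⟨g, rfl⟩ := t.LL_rangeV hE v ha P h1 h2 h3 hw1
    have h4 : φ g ∈ D.diagonalSubgroup F := by
      rw [← hval]
      exact mem_GT.1 hw2
    obtain ⟨c, hc, rfl⟩ := P.diag_of h4
    exact ⟨c, hc, hval _⟩

/-- The system. -/
theorem exists_tsysV [Finite Γ] (hE : CE σ) (v : VD h rel σ V m)
    (hP : ∀ k s, k < s → s < m → PP V m k s)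
    (hcl : ∀ a < l, ∃ φ : SL2 ↥(Sb f (dd (B a))) →* GL D.Idx F, ClassHom h (B a) φ ∧
      ∀ c : ↥(Sb f (dd (B a))), c ≠ 0 → φ (wd c * wd (-1)) = 1 → c = 1) :
    ∃ nh : ℕ → Γ, TSys σ l m (GX h.twG rel) (GT h.twG) (GN h.twG) (nn h B) (ss X J rel rp B) V nh := by
  classical
  have hlm := t.lm
  have hrk : ∀ a, ∃ na : Γ, a < l → (na ∈ LL V m a ∧ σ na = nn h B a ∧ (∀ u ∈ LL V m a, σ u = 1 → u = 1) ∧
      (∀ x ∈ V a, x = 1 ∨ ∃ p ∈ V a, ∃ τ' ∈ TL σ (GT h.twG) V m a, ∃ q ∈ V (m + a),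
        na * x = p * τ' * q)) := by
    intro a
    by_cases ha : a < l
    · obtain ⟨φ, P, hk⟩ := hcl a ha
      obtain ⟨na, h1, h2, h3, h4, -⟩ := t.rank1V hE v ha P hk
      exact ⟨na, fun _ => ⟨h1, h2, h3, h4⟩⟩
    · exact ⟨1, fun h' => absurd h' ha⟩
  choose nh hnh using hrk
  refine ⟨nh, ?_⟩
  refine
    { cen := hE
      T_le := GT_le_GN
      T_ab := GT_ab
      T_nrm := GT_nrm
      n_mem := fun a ha => mem_GN.2 (t.nn_mono ha)
      n_sq := fun a ha => by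
        rw [mem_GT]
        show (nn h B a).1 * (nn h B a).1 ∈ _
        rw [t.nn_val ha]
        exact h.twG.nC_sq_mem (t.B_lt a ha)
      act := fun a ha r hr => t.act ha hr
      act_T := fun x hx r hr y hy => GT_act hx hy
      lm := hlm
      swap1 := t.swap1
      swap2 := t.swap2
      pos := t.pos
      gen := t.gen
      dich := t.dich
      U_N := fun u hu hn => GX_U_N t.R hu hn
      map := v.map
      onto := v.onto
      conj := v.conj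
      hP := hP
      hinjU := ?_
      nh_mem := fun a ha => (hnh a ha).1
      nh_map := fun a ha => (hnh a ha).2.1
      inj_L := fun a ha => (hnh a ha).2.2.1
      bru := fun a ha => (hnh a ha).2.2.2 }
  refine UF_inj hP (fun r hr => v.inj r (by omega)) ?_ 0
  intro r hr x hx w hw e
  have h1 := v.map r (by omega) x hx
  have h2 : σ w ∈ UF (GX h.twG rel) m (r + 1) := by
    clear e
    unfold UF at hw
    induction hw using Subgroup.closure_induction with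
    | mem a ha =>
      obtain ⟨r', h3, h4, h5⟩ := ha
      exact mem_UF h3 h4 (v.map r' (by omega) a h5)
    | one =>
      rw [map_one]
      exact Subgroup.one_mem _
    | mul x y _ _ hx hy =>
      rw [map_mul]
      exact Subgroup.mul_mem _ hx hy
    | inv x _ hx =>
      rw [map_inv]
      exact Subgroup.inv_mem _ hx
  exact GX_dis t.R hr h1 h2 e

end RTab

end Cfsg.Agent.Lib.TwStem
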