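import Cfsg.Agent.Lib.TwStem.Tri

/-!
# The Bruhat decomposition of a group generated by a unipotent group and a monomial group
-/

set_option autoImplicit false
set_option linter.unusedSectionVars false
set_option linter.unusedVariables false

namespace Cfsg.Agent.Lib.TwStem

open scoped commutatorElement

variable {Γ : Type*} [Group Γ]

/-- The union of the Bruhat cells. -/
def BCell (U Nt : Subgroup Γ) : Set Γ := {g | ∃ u ∈ U, ∃ n ∈ Nt, ∃ v ∈ U, g = u * n * v}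

variable {U Nt : Subgroup Γ}

theorem cell_one : (1 : Γ) ∈ BCell U Nt := ⟨1, U.one_mem, 1, Nt.one_mem, 1, U.one_mem, by simp⟩

theorem cell_left_U {y g : Γ} (hy : y ∈ U) (hg : g ∈ BCell U Nt) : y * g ∈ BCell U Nt := by
  obtain ⟨u, hu, n, hn, v, hv, rfl⟩ := hg
  exact ⟨y * u, U.mul_mem hy hu, n, hn, v, hv, by group⟩

theorem cell_left_norm {y g : Γ} (hy : y ∈ Nt) (hU : ∀ u ∈ U, y * u * y⁻¹ ∈ U) (hg : g ∈ BCell U Nt) :
    y * g ∈ BCell U Nt := by
  obtain ⟨u, hu, n, hn, v, hv, rfl⟩ := hg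
  exact ⟨y * u * y⁻¹, hU u hu, y * n, Nt.mul_mem hy hn, v, hv, by group⟩

/-- The multiplication by a reflection. -/
theorem cell_left_w {w g : Γ} {Up Va Vb : Subgroup Γ} (hw : w ∈ Nt)
    (hdec : ∀ u ∈ U, ∃ u' ∈ Up, ∃ x ∈ Va, u = u' * x)
    (hUp : ∀ u ∈ Up, w * u * w⁻¹ ∈ U)
    (hdich : ∀ n ∈ Nt, (∀ x ∈ Va, n⁻¹ * x * n ∈ U) ∨ (∀ x ∈ Vb, n⁻¹ * x * n ∈ U))
    (hVa : Va ≤ U)
    (h1 : ∀ x ∈ Va, x = 1 ∨ ∃ a ∈ Va, ∃ τ ∈ Nt, ∃ b ∈ Vb, w * x = a * τ * b)
    (hg : g ∈ BCell U Nt) : w * g ∈ BCell U Nt := by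
  obtain ⟨u, hu, n, hn, v, hv, rfl⟩ := hg
  obtain ⟨u', hu', x, hx, rfl⟩ := hdec u hu
  have key : w * x * n * v ∈ BCell U Nt := by
    rcases hdich n hn with h | h
    · exact ⟨1, U.one_mem, w * n, Nt.mul_mem hw hn, n⁻¹ * x * n * v, U.mul_mem (h x hx) hv, by group⟩
    · rcases h1 x hx with rfl | ⟨a, ha, τ, hτ, b, hb, e⟩
      · exact ⟨1, U.one_mem, w * n, Nt.mul_mem hw hn, v, hv, by group⟩
      · refine ⟨a, hVa ha, τ * n, Nt.mul_mem hτ hn, n⁻¹ * b * n * v, U.mul_mem (h b hb) hv, ?_⟩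
        rw [e]
        group
  have e : w * (u' * x * n * v) = (w * u' * w⁻¹) * (w * x * n * v) := by group
  rw [e]
  exact cell_left_U (hUp _ hu') key

/-- The closure of a left stable set. -/
theorem closure_le_cell {S : Set Γ} (hS : ∀ y ∈ S, ∀ g ∈ BCell U Nt, y * g ∈ BCell U Nt ∧ y⁻¹ * g ∈ BCell U Nt) {g : Γ}
    (hg : g ∈ Subgroup.closure S) : g ∈ BCell U Nt := by
  induction hg using Subgroup.closure_induction_left with
  | one => exact cell_one
  | mul_left x hx g hg ih => exact (hS x hx g ih).1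
  | inv_mul_cancel x hx g hg ih => exact (hS x hx g ih).2

/-- The join of the root groups but one. -/
def UO (V : ℕ → Subgroup Γ) (m i : ℕ) : Subgroup Γ := Subgroup.closure {g | ∃ l, l < m ∧ l ≠ i ∧ g ∈ V l}

theorem UO_le {V : ℕ → Subgroup Γ} {m i : ℕ} : UO V m i ≤ UF V m 0 := by
  apply Subgroup.closure_mono
  rintro g ⟨l, h1, h2, h3⟩
  exact ⟨l, Nat.zero_le _, h1, h3⟩

/-- The decomposition of the positive part at a simple root. -/
theorem UF_dec_at {V : ℕ → Subgroup Γ} {m i : ℕ} (hP : ∀ k s, k < s → s < m → PP V m k s) (hi : i < m) {u : Γ}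
    (hu : u ∈ UF V m 0) : ∃ u' ∈ UO V m i, ∃ x ∈ V i, u = u' * x := by
  -- `V i` normalises
  have hUF : ∀ j, i < j → UF V m j ≤ UO V m i := by
    intro j hj
    apply Subgroup.closure_mono
    rintro g ⟨l, h1, h2, h3⟩
    exact ⟨l, h2, by omega, h3⟩
  have hgen : ∀ x ∈ V i, ∀ l, l < m → l ≠ i → ∀ y ∈ V l, x * y * x⁻¹ ∈ UO V m i := by
    intro x hx l hl hli y hy
    have hy' : y ∈ UO V m i := Subgroup.subset_closure ⟨l, hl, hli, hy⟩
    rcases lt_or_gt_of_ne hli with h | h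
    · -- `l < i`
      have h1 := hP l i h hi y hy x hx
      have h2 : ⁅y, x⁆ ∈ UO V m i := hUF _ (by omega) h1
      have e : x * y * x⁻¹ = (⁅y, x⁆)⁻¹ * y := by
        rw [commutatorElement_def]
        group
      rw [e]
      exact Subgroup.mul_mem _ (Subgroup.inv_mem _ h2) hy'
    · have h1 := hP i l h hl x hx y hy
      have h2 : ⁅x, y⁆ ∈ UO V m i := hUF _ (by omega) h1
      have e : x * y * x⁻¹ = ⁅x, y⁆ * y := by
        rw [commutatorElement_def]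
        group
      rw [e]
      exact Subgroup.mul_mem _ h2 hy'
  have hnorm : ∀ x ∈ V i, ∀ y ∈ UO V m i, x * y * x⁻¹ ∈ UO V m i := by
    intro x hx y hy
    unfold UO at hy
    induction hy using Subgroup.closure_induction with
    | mem y hy =>
      obtain ⟨l, h1, h2, h3⟩ := hy
      exact hgen x hx l h1 h2 y h3
    | one => simp
    | mul a b _ _ ha hb =>
      have e : x * (a * b) * x⁻¹ = x * a * x⁻¹ * (x * b * x⁻¹) := by group
      rw [e]
      exact Subgroup.mul_mem _ ha hb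
    | inv a _ ha =>
      have e : x * a⁻¹ * x⁻¹ = (x * a * x⁻¹)⁻¹ := by group
      rw [e]
      exact Subgroup.inv_mem _ ha
  unfold UF at hu
  induction hu using Subgroup.closure_induction with
  | mem y hy =>
    obtain ⟨l, _, h2, h3⟩ := hy
    by_cases h : l = i
    · subst h
      exact ⟨1, Subgroup.one_mem _, y, h3, by simp⟩
    · exact ⟨y, Subgroup.subset_closure ⟨l, h2, h, h3⟩, 1, Subgroup.one_mem _, by simp⟩
  | one => exact ⟨1, Subgroup.one_mem _, 1, Subgroup.one_mem _, by simp⟩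
  | mul a b _ _ ha hb =>
    obtain ⟨u, hu, x, hx, rfl⟩ := ha
    obtain ⟨u', hu', x', hx', rfl⟩ := hb
    exact ⟨u * (x * u' * x⁻¹), Subgroup.mul_mem _ hu (hnorm x hx u' hu'), x * x', Subgroup.mul_mem _ hx hx', by group⟩
  | inv a _ ha =>
    obtain ⟨u, hu, x, hx, rfl⟩ := ha
    refine ⟨x⁻¹ * u⁻¹ * x⁻¹⁻¹, hnorm _ (Subgroup.inv_mem _ hx) _ (Subgroup.inv_mem _ hu), x⁻¹, Subgroup.inv_mem _ hx, by group⟩

end Cfsg.Agent.Lib.TwStem
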