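import Cfsg.Agent.Lib.TwStem.Lift
import Cfsg.Agent.Lib.TwStem.Base
import Cfsg.Agent.Lib.Chev.TwSC

/-!
# The rank one homomorphism of a class of orthogonal simple roots
-/

set_option autoImplicit false
set_option linter.unusedSectionVars false
set_option linter.unusedVariables false

namespace Cfsg.Agent.Lib.TwStem

open scoped commutatorElement
open Cfsg Cfsg.Lie Cfsg.Agent.Lib.Chev Matrix Equiv
open Cfsg.Agent.Lib.SL2Core Cfsg.Agent.Lib.SL2Bor Cfsg.Agent.Lib.StK Cfsg.Agent.Lib.ChevLift Cfsg.Agent.Lib.ChevLift.RD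

/-- A product of commuting homomorphisms. -/
theorem exists_prod_hom {H K : Type*} [Group H] [Group K] (L : List (H →* K))
    (hc : L.Pairwise fun a b => ∀ x y, Commute (a x) (b y)) :
    ∃ φ : H →* K, ∀ x, φ x = (L.map fun a => a x).prod := by
  induction L with
  | nil => exact ⟨1, fun x => rfl⟩
  | cons a L ih =>
    obtain ⟨h1, h2⟩ := List.pairwise_cons.1 hc
    obtain ⟨φ, hφ⟩ := ih h2
    have h3 : ∀ x y, Commute (a x) (φ y) := by
      intro x y
      rw [hφ]
      apply Commute.list_prod_right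
      intro z hz
      simp only [List.mem_map] at hz
      obtain ⟨b, hb, rfl⟩ := hz
      exact h1 b hb x y
    refine ⟨{ toFun := fun x => a x * φ x
              map_one' := by simp
              map_mul' := fun x y => ?_ }, ?_⟩
    · rw [map_mul, map_mul, mul_assoc, mul_assoc, ← mul_assoc (a y), (h3 y x).eq, mul_assoc]
    · intro x
      simp [hφ]

section Map

variable {E F : Type*} [Field E] [Field F] (g : E →+* F)

theorem map_uu (t : E) : SpecialLinearGroup.map g (uu t) = uu (g t) := by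
  apply sl2_ext <;> (show g _ = _) <;> simp

theorem map_ll (t : E) : SpecialLinearGroup.map g (ll t) = ll (g t) := by
  apply sl2_ext <;> (show g _ = _) <;> simp

theorem map_wd (t : E) : SpecialLinearGroup.map g (wd t) = wd (g t) := by
  unfold wd
  rw [map_mul, map_mul, map_uu, map_ll, map_neg, map_inv₀]

end Map

variable {T : Tabs} {X : Extra} {R : RootTab} {D : ChevalleyDatum} {hF : Full T X R D} {F : Type*} [Field F]

/-- The fixed subfield. -/
def Sb (f : F ≃+* F) (d : ℕ) : Subfield F := RingHom.eqLocusField (((f : F ≃+* F) : F →+* F) ^ d) (RingHom.id F)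

theorem mem_Sb {f : F ≃+* F} {d : ℕ} {t : F} : t ∈ Sb f d ↔ f^[d] t = t := by
  unfold Sb
  show (((f : F ≃+* F) : F →+* F) ^ d) t = t ↔ _
  rw [RingHom.coe_pow]
  rfl

/-- The embeddings of the fixed subfield. -/
def ik (f : F ≃+* F) (d k : ℕ) : ↥(Sb f d) →+* F := (((f : F ≃+* F) : F →+* F) ^ k).comp (Sb f d).subtype

theorem ik_apply {f : F ≃+* F} {d k : ℕ} (t : ↥(Sb f d)) : ik f d k t = f^[k] t.1 := by
  unfold ik
  rw [RingHom.comp_apply, RingHom.coe_pow]
  rfl

/-- Homomorphisms for the roots. -/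
theorem exists_root_hom (hF : Full T X R D) (r : Fin D.nroots) :
    ∃ φ : SL2 F →* GL D.Idx F, (∀ t, φ (uu t) = hF.c.xG r t) ∧ ∀ t, φ (ll t) = hF.c.xG (D.neg r) t := by
  obtain ⟨φ, -, h⟩ := hF.exists_sl2_hom (F := F) r.2
  exact ⟨φ, fun t => hF.c.eq_xG ((h (uu t) t).1 rfl), fun t => hF.c.eq_xG ((h (ll t) t).2 rfl)⟩

theorem comm_homs {E H : Type*} [Field E] [Group H] {a b : SL2 E →* H} (h1 : ∀ s t, Commute (a (uu s)) (b (uu t)))
    (h2 : ∀ s t, Commute (a (uu s)) (b (ll t))) (h3 : ∀ s t, Commute (a (ll s)) (b (uu t)))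
    (h4 : ∀ s t, Commute (a (ll s)) (b (ll t))) (x y : SL2 E) : Commute (a x) (b y) := by
  induction x using sl2_ind with
  | hu s =>
    induction y using sl2_ind with
    | hu t => exact h1 s t
    | hl t => exact h2 s t
    | hm A B hA hB => rw [map_mul]; exact hA.mul_right hB
  | hl s =>
    induction y using sl2_ind with
    | hu t => exact h3 s t
    | hl t => exact h4 s t
    | hm A B hA hB => rw [map_mul]; exact hA.mul_right hB
  | hm A B hA hB => rw [map_mul]; exact hA.mul_left hB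

theorem wordG_eq_prod {ι : Type*} (hF : Full T X R D) (L : List ι) (p : ι → ℕ × F) :
    hF.c.wordG (L.map p) = (L.map fun i => hF.c.xG (p i).1 (p i).2).prod := by
  induction L with
  | nil => rfl
  | cons a L ih => simp [Checks.wordG_cons, ih]

namespace SCOK

variable {τ : Tw hF F} {f : F ≃+* F} {ρ' π' : ℕ → ℕ} {J : ℕ → List ℕ} {A dd : ℕ → ℕ}
  (h : SCOK τ f ρ' π' J A dd)

include h

theorem exists_class {i : ℕ} (hi : i < D.rank) :
    ∃ φ : SL2 ↥(Sb f (dd i)) →* GL D.Idx F,
      (∀ t : ↥(Sb f (dd i)), φ (uu t) = hF.c.wordG (cw ρ' f (D.simple (A i)) (dd i) t.1)) ∧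
      (∀ t : ↥(Sb f (dd i)), φ (ll t) = hF.c.wordG (cw ρ' f (D.neg (D.simple (A i))) (dd i) t.1)) ∧
      (∀ c : ↥(Sb f (dd i)), φ (wd c) =
        ((List.range (dd i)).map fun k => hF.c.nG (D.simple (π'^[k] (A i))) (f^[k] c.1)).prod) ∧
      (∀ c : ↥(Sb f (dd i)), φ (wd c * wd (-1)) =
        ((List.range (dd i)).map fun k => hF.c.hG (D.simple (π'^[k] (A i))) (f^[k] c.1)).prod) := by
  classical
  have hA := h.A_lt i hi
  have hsl : ∀ k, D.simple (π'^[k] (A i)) < D.nroots := fun k => hF.simple_lt (h.iter_simple k _ hA).1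
  choose Φ hΦu hΦl using fun r : Fin D.nroots => exists_root_hom (F := F) hF r
  let r : ℕ → Fin D.nroots := fun k => ⟨D.simple (π'^[k] (A i)), hsl k⟩
  let φk : ℕ → (SL2 ↥(Sb f (dd i)) →* GL D.Idx F) := fun k =>
    (Φ (r k)).comp (SpecialLinearGroup.map (ik f (dd i) k))
  have hφu : ∀ k t, φk k (uu t) = hF.c.xG (D.simple (π'^[k] (A i))) (f^[k] t.1) := by
    intro k t
    show Φ (r k) (SpecialLinearGroup.map (ik f (dd i) k) (uu t)) = _
    rw [map_uu, hΦu, ik_apply]
  have hφl : ∀ k t, φk k (ll t) = hF.c.xG (D.neg (D.simple (π'^[k] (A i)))) (f^[k] t.1) := by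
    intro k t
    show Φ (r k) (SpecialLinearGroup.map (ik f (dd i) k) (ll t)) = _
    rw [map_ll, hΦl, ik_apply]
  have hJ := h.J_eq i hi
  have hm : ∀ k, k < dd i → π'^[k] (A i) ∈ J i := by
    intro k hk
    rw [hJ]
    exact List.mem_map.2 ⟨k, List.mem_range.2 hk, rfl⟩
  have hcomm : ∀ a ∈ List.range (dd i), ∀ b ∈ List.range (dd i), a < b → ∀ x y, Commute (φk a x) (φk b y) := by
    intro a ha b hb hab x y
    have ha' := List.mem_range.1 ha
    have hb' := List.mem_range.1 hb
    have hnd := h.nd i hi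
    rw [hJ] at hnd
    have hne : π'^[a] (A i) ≠ π'^[b] (A i) := by
      intro e4
      have := (List.inj_on_of_nodup_map hnd) ha hb e4
      omega
    have hal := h.mem_J_lt hi (hm a ha')
    have hbl := h.mem_J_lt hi (hm b hb')
    obtain ⟨⟨h1, h2⟩, ⟨h3, h4, h5⟩, ⟨h6, h7, h8⟩⟩ := h.orth i hi _ (hm a ha') _ (hm b hb') hne
    obtain ⟨-, ⟨h3', h4', h5'⟩, -⟩ := h.orth i hi _ (hm b hb') _ (hm a ha') hne.symm
    refine comm_homs (fun s t => ?_) (fun s t => ?_) (fun s t => ?_) (fun s t => ?_) x y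
    · rw [hφu, hφu]
      refine Full.xG_commute_of_nil (hF := hF) (hF.simple_lt hal) (hF.simple_lt hbl) ?_ h1 h2 _ _
      intro e2
      exact hne (hF.simple_inj hbl hal e2).symm
    · rw [hφu, hφl]
      exact Full.xG_commute_of_nil (hF := hF) (hF.simple_lt hal) (hF.neg_lt (hF.simple_lt hbl)) h3 h4 h5 _ _
    · rw [hφl, hφu]
      exact (Full.xG_commute_of_nil (hF := hF) (hF.simple_lt hbl) (hF.neg_lt (hF.simple_lt hal)) h3' h4' h5' _ _).symm
    · rw [hφl, hφl]
      exact Full.xG_commute_of_nil (hF := hF) (hF.neg_lt (hF.simple_lt hal)) (hF.neg_lt (hF.simple_lt hbl)) h6 h7 h8 _ _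
  have hpw : ((List.range (dd i)).map φk).Pairwise fun a b => ∀ x y, Commute (a x) (b y) := by
    rw [List.pairwise_map]
    have h0 : (List.range (dd i)).Pairwise (· < ·) := List.pairwise_lt_range
    exact h0.imp_of_mem fun {a b} ha hb hab => hcomm a ha b hb hab
  obtain ⟨φ, hφ⟩ := exists_prod_hom _ hpw
  have hφ' : ∀ x, φ x = ((List.range (dd i)).map fun k => φk k x).prod := by
    intro x
    rw [hφ, List.map_map]
    rfl
  have hwd : ∀ k (c : ↥(Sb f (dd i))), φk k (wd c) = hF.c.nG (D.simple (π'^[k] (A i))) (f^[k] c.1) := by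
    intro k c
    show Φ (r k) (SpecialLinearGroup.map (ik f (dd i) k) (wd c)) = _
    rw [map_wd, ik_apply]
    unfold wd
    rw [map_mul, map_mul, hΦu, hΦl]
    rfl
  refine ⟨φ, ?_, ?_, ?_, ?_⟩
  · intro t
    rw [hφ']
    unfold cw
    rw [wordG_eq_prod hF]
    congr 1
    apply List.map_congr_left
    intro k _
    rw [hφu, (h.iter_simple k _ hA).2]
  · intro t
    rw [hφ']
    unfold cw
    rw [wordG_eq_prod hF]
    congr 1
    apply List.map_congr_left
    intro k _
    rw [hφl]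
    have := h.iter_neg k (hF.simple_lt hA) (fun m _ => by
      rw [(h.iter_simple m _ hA).2]
      exact hF.simple_lt (h.iter_simple m _ hA).1)
    rw [this, (h.iter_simple k _ hA).2]
  · intro c
    rw [hφ']
    congr 1
    apply List.map_congr_left
    intro k _
    exact hwd k c
  · intro c
    rw [hφ']
    congr 1
    apply List.map_congr_left
    intro k _
    rw [map_mul, hwd, hwd]
    have e : ∀ k : ℕ, f^[k] ((-1 : ↥(Sb f (dd i))) : F) = -1 := by
      have h1 : ((-1 : ↥(Sb f (dd i))) : F) = -1 := rfl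
      rw [h1]
      intro k
      induction k with
      | zero => rfl
      | succ k ih => rw [Function.iterate_succ_apply', ih, map_neg, map_one]
    rw [e]
    rfl

end SCOK

end Cfsg.Agent.Lib.TwStem
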