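import Cfsg.Agent.Lib.TwStem.Class

/-!
# Properties of the rank one homomorphism of a class
-/

set_option autoImplicit false
set_option linter.unusedSectionVars false
set_option linter.unusedVariables false

namespace Cfsg.Agent.Lib.TwStem

open scoped commutatorElement
open Cfsg Cfsg.Lie Cfsg.Agent.Lib.Chev Matrix Equiv
open Cfsg.Agent.Lib.SL2Core Cfsg.Agent.Lib.SL2Bor Cfsg.Agent.Lib.StK Cfsg.Agent.Lib.ChevLift Cfsg.Agent.Lib.ChevLift.RD

variable {T : Tabs} {X : Extra} {R : RootTab} {D : ChevalleyDatum} {hF : Full T X R D} {F : Type*} [Field F]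
  {τ : Tw hF F} {f : F ≃+* F} {ρ' π' : ℕ → ℕ} {J : ℕ → List ℕ} {A dd : ℕ → ℕ}

/-- The homomorphism of a class. -/
structure ClassHom (h : SCOK τ f ρ' π' J A dd) (i : ℕ) (φ : SL2 ↥(Sb f (dd i)) →* GL D.Idx F) : Prop where
  hi : i < D.rank
  hu : ∀ t : ↥(Sb f (dd i)), φ (uu t) = hF.c.wordG (cw ρ' f (D.simple (A i)) (dd i) t.1)
  hl : ∀ t : ↥(Sb f (dd i)), φ (ll t) = hF.c.wordG (cw ρ' f (D.neg (D.simple (A i))) (dd i) t.1)
  hw : ∀ c : ↥(Sb f (dd i)), φ (wd c) =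
        ((List.range (dd i)).map fun k => hF.c.nG (D.simple (π'^[k] (A i))) (f^[k] c.1)).prod
  hd : ∀ c : ↥(Sb f (dd i)), φ (wd c * wd (-1)) =
        ((List.range (dd i)).map fun k => hF.c.hG (D.simple (π'^[k] (A i))) (f^[k] c.1)).prod

theorem SCOK.exists_classHom (h : SCOK τ f ρ' π' J A dd) {i : ℕ} (hi : i < D.rank) : ∃ φ, ClassHom h i φ := by
  obtain ⟨φ, h1, h2, h3, h4⟩ := Cfsg.Agent.Lib.TwStem.SCOK.exists_class h hi
  exact ⟨φ, hi, h1, h2, h3, h4⟩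

theorem f_ne (f : F ≃+* F) {c : F} (hc : c ≠ 0) (k : ℕ) : f^[k] c ≠ 0 := by
  induction k with
  | zero => exact hc
  | succ k ih =>
    rw [Function.iterate_succ_apply']
    intro e
    exact ih ((map_eq_zero f).1 e)

theorem wd1_eq {E : Type*} [Field E] : wd (1 : E) * wd (-1) = 1 := by
  apply sl2_ext <;> simp [mul_apply2, wd]

namespace ClassHom

variable {h : SCOK τ f ρ' π' J A dd} {i : ℕ} {φ : SL2 ↥(Sb f (dd i)) →* GL D.Idx F} (P : ClassHom h i φ)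

include P

theorem mem_G1 (g : SL2 ↥(Sb f (dd i))) : φ g ∈ h.G1 := by
  induction g using sl2_ind with
  | hu t =>
    rw [P.hu]
    exact Subgroup.subset_closure ⟨i, P.hi, t.1, mem_Sb.1 t.2, Or.inl rfl⟩
  | hl t =>
    rw [P.hl]
    exact Subgroup.subset_closure ⟨i, P.hi, t.1, mem_Sb.1 t.2, Or.inr rfl⟩
  | hm A B hA hB =>
    rw [map_mul]
    exact Subgroup.mul_mem _ hA hB

theorem A_lt : A i < D.rank := h.A_lt i P.hi

theorem sim_lt (k : ℕ) : D.simple (π'^[k] (A i)) < D.nroots := hF.simple_lt (h.iter_simple k _ P.A_lt).1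

theorem wd_mono {c : ↥(Sb f (dd i))} (hc : c ≠ 0) : φ (wd c) ∈ D.monomialSubgroup F := by
  rw [P.hw]
  apply Subgroup.list_prod_mem
  intro x hx
  simp only [List.mem_map] at hx
  obtain ⟨k, _, rfl⟩ := hx
  rw [hF.c.nG_eq_hG_mul]
  have hc' : (c : F) ≠ 0 := fun e => hc (Subtype.ext e)
  exact Subgroup.mul_mem _ (hF.c.diagonal_le_monomial (hF.c.hG_mem_diagonal (P.sim_lt k) (f_ne f hc' k)))
    (hF.c.nG_mem_monomial (P.sim_lt k))

theorem D_diag {c : ↥(Sb f (dd i))} (hc : c ≠ 0) : φ (wd c * wd (-1)) ∈ D.diagonalSubgroup F := by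
  rw [P.hd]
  apply Subgroup.list_prod_mem
  intro x hx
  simp only [List.mem_map] at hx
  obtain ⟨k, _, rfl⟩ := hx
  have hc' : (c : F) ≠ 0 := fun e => hc (Subtype.ext e)
  exact hF.c.hG_mem_diagonal (P.sim_lt k) (f_ne f hc' k)

/-- The image of the Weyl element. -/
theorem wd_one : φ (wd 1) = ((J i).map hF.nS).prod := by
  rw [P.hw, h.J_eq i P.hi, List.map_map]
  congr 1
  apply List.map_congr_left
  intro k _
  show _ = hF.c.nG _ 1
  congr 1
  exact h.f_one k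

theorem P_mem (t : ↥(Sb f (dd i))) : φ (uu t) ∈ D.posUnipotent F := by
  rw [P.hu]
  apply hF.c.wordG_mem
  intro p hp
  simp only [cw, List.mem_map] at hp
  obtain ⟨k, _, rfl⟩ := hp
  rw [(h.iter_simple k _ P.A_lt).2]
  exact hF.xG_mem_U (P.sim_lt k) (hF.simple_ge (h.iter_simple k _ P.A_lt).1) _

theorem M_mem (t : ↥(Sb f (dd i))) : φ (ll t) ∈ D.negUnipotent F := by
  rw [P.hl]
  apply hF.c.wordG_mem
  intro p hp
  simp only [cw, List.mem_map] at hp
  obtain ⟨k, _, rfl⟩ := hp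
  have hA := P.A_lt
  rw [h.iter_neg k (hF.simple_lt hA) (fun m _ => by
      rw [(h.iter_simple m _ hA).2]
      exact hF.simple_lt (h.iter_simple m _ hA).1), (h.iter_simple k _ hA).2]
  exact hF.xG_mem_V (hF.neg_lt_N (P.sim_lt k) (hF.simple_ge (h.iter_simple k _ P.A_lt).1)) _

theorem P_inj {t : ↥(Sb f (dd i))} (e : φ (uu t) = 1) : t = 0 := by
  have hi := P.hi
  have e0 : φ (uu t) = φ (uu 0) := by
    rw [e, uu_zero', map_one]
  rw [P.hu, P.hu] at e0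
  have := Tw.cw_inj (hF := hF) f (h.dd_pos i hi) (by rw [h.rs_eq hi]; exact h.pos_rs hi) (by rw [h.rs_eq hi]; exact h.nd_rs hi)
    (by rw [h.rs_eq hi]; exact h.comm_pos hi) e0
  exact Subtype.ext this

theorem M_inj {t : ↥(Sb f (dd i))} (e : φ (ll t) = 1) : t = 0 := by
  have e1 : wd (1 : ↥(Sb f (dd i))) * ll t = uu (-t) * wd 1 := wd_mul_ll t
  have e2 := congrArg φ e1
  rw [map_mul, map_mul, e, mul_one] at e2
  have e3 : φ (uu (-t)) = 1 := mul_eq_right.1 e2.symm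
  have := P.P_inj e3
  simpa using this

/-- The lower left entry of an element mapping to the Borel subgroup. -/
theorem entry_zero {g : SL2 ↥(Sb f (dd i))} (hg : φ g ∈ D.borelSubgroup F) :
    (g : Matrix (Fin 2) (Fin 2) ↥(Sb f (dd i))) 1 0 = 0 := by
  by_contra hc
  have hdet := det_entries g
  have e : g = uu (((g : Matrix (Fin 2) (Fin 2) ↥(Sb f (dd i))) 0 0 - 1) / (g : Matrix (Fin 2) (Fin 2) ↥(Sb f (dd i))) 1 0) *
      ll ((g : Matrix (Fin 2) (Fin 2) ↥(Sb f (dd i))) 1 0) *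
      uu (((g : Matrix (Fin 2) (Fin 2) ↥(Sb f (dd i))) 1 1 - 1) / (g : Matrix (Fin 2) (Fin 2) ↥(Sb f (dd i))) 1 0) := by
    apply sl2_ext <;> simp [mul_apply2] <;> field_simp <;>
      first | ring1 | linear_combination hdet | linear_combination (-1 : ↥(Sb f (dd i))) * hdet
  set a := ((g : Matrix (Fin 2) (Fin 2) ↥(Sb f (dd i))) 0 0 - 1) / (g : Matrix (Fin 2) (Fin 2) ↥(Sb f (dd i))) 1 0
  set b := ((g : Matrix (Fin 2) (Fin 2) ↥(Sb f (dd i))) 1 1 - 1) / (g : Matrix (Fin 2) (Fin 2) ↥(Sb f (dd i))) 1 0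
  set c := (g : Matrix (Fin 2) (Fin 2) ↥(Sb f (dd i))) 1 0
  have h1 : φ (ll c) = (φ (uu a))⁻¹ * φ g * (φ (uu b))⁻¹ := by
    rw [e, map_mul, map_mul]
    group
  have h2 : φ (ll c) ∈ D.borelSubgroup F := by
    rw [h1]
    exact Subgroup.mul_mem _ (Subgroup.mul_mem _ (Subgroup.inv_mem _ (hF.c.posUnipotent_le_borel (P.P_mem a))) hg)
      (Subgroup.inv_mem _ (hF.c.posUnipotent_le_borel (P.P_mem b)))
  have h3 : φ (ll c) ∈ D.borelSubgroup F ⊓ D.negUnipotent F := ⟨h2, P.M_mem c⟩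
  rw [hF.B_inf_V, Subgroup.mem_bot] at h3
  exact hc (P.M_inj h3)

/-- An element mapping to the torus is diagonal. -/
theorem diag_of {g : SL2 ↥(Sb f (dd i))} (hg : φ g ∈ D.diagonalSubgroup F) :
    ∃ a : ↥(Sb f (dd i)), a ≠ 0 ∧ g = wd a * wd (-1) := by
  have hb : φ g ∈ D.borelSubgroup F := Subgroup.mem_sup_right hg
  have h0 := P.entry_zero hb
  have hdet := det_entries g
  rw [h0, mul_zero, sub_zero] at hdet
  set a := (g : Matrix (Fin 2) (Fin 2) ↥(Sb f (dd i))) 0 0 with ha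
  have ha0 : a ≠ 0 := left_ne_zero_of_mul_eq_one hdet
  set d := (g : Matrix (Fin 2) (Fin 2) ↥(Sb f (dd i))) 1 1 with hd
  set b := (g : Matrix (Fin 2) (Fin 2) ↥(Sb f (dd i))) 0 1 with hbb
  have hda : d = a⁻¹ := eq_inv_of_mul_eq_one_right hdet
  have e : g = (wd a * wd (-1)) * uu (b / a) := by
    apply sl2_ext <;> simp [mul_apply2, wd, h0, ← ha, ← hd, ← hbb, hda] <;> field_simp <;> first | ring1 | simp
  have h1 : φ (uu (b / a)) = (φ (wd a * wd (-1)))⁻¹ * φ g := by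
    rw [e, map_mul (f := φ) (wd a * wd (-1)) (uu (b / a))]
    group
  have h2 : φ (uu (b / a)) ∈ D.posUnipotent F ⊓ D.diagonalSubgroup F := by
    refine ⟨P.P_mem _, ?_⟩
    rw [h1]
    exact Subgroup.mul_mem _ (Subgroup.inv_mem _ (P.D_diag ha0)) hg
  rw [hF.U_inf_H, Subgroup.mem_bot] at h2
  have h3 := P.P_inj h2
  refine ⟨a, ha0, ?_⟩
  rw [e, h3]
  simp [uu_zero']

/-- Injectivity. -/
theorem inj (hker : ∀ a : ↥(Sb f (dd i)), a ≠ 0 → φ (wd a * wd (-1)) = 1 → a = 1) : Function.Injective φ := by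
  rw [injective_iff_map_eq_one]
  intro g hg
  have h1 : φ g ∈ D.diagonalSubgroup F := by
    rw [hg]
    exact Subgroup.one_mem _
  obtain ⟨a, ha, rfl⟩ := P.diag_of h1
  rw [hker a ha hg, wd1_eq]

/-- A conjugation in `SL₂`. -/
theorem wd_uu (t : ↥(Sb f (dd i))) : φ (wd 1) * φ (uu t) * (φ (wd 1))⁻¹ = φ (ll (-t)) := by
  have e : wd (1 : ↥(Sb f (dd i))) * uu t = ll (-t) * wd 1 := by
    apply sl2_ext <;> simp [mul_apply2, wd]
  have := congrArg φ e
  rw [map_mul, map_mul] at this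
  rw [this]
  group

theorem wd_ll (t : ↥(Sb f (dd i))) : φ (wd 1) * φ (ll t) * (φ (wd 1))⁻¹ = φ (uu (-t)) := by
  have e := wd_mul_ll t
  have := congrArg φ e
  rw [map_mul, map_mul] at this
  rw [this]
  group

end ClassHom

end Cfsg.Agent.Lib.TwStem
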