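import Mathlib

/-!
# Lifting root subgroups to a central extension, at the level of subgroups

`σ : Γ → G` is a central extension, `T` an abelian subgroup of `G`, `X` a finite subgroup normalised by `T`.  The
canonical lift of `X` is the subgroup generated by the commutators of lifts of `T` and of `X`.  When the lifts of `X`
commute and some element of `T` acts on `X` without fixed points, it maps isomorphically to `X`.
-/

set_option autoImplicit false
set_option linter.unusedSectionVars false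
set_option linter.unusedVariables false

namespace Cfsg.Agent.Lib.TwStem

open scoped commutatorElement

variable {Γ G : Type*} [Group Γ] [Group G]

/-- A central extension. -/
structure CE (σ : Γ →* G) : Prop where
  surj : Function.Surjective σ
  cen : ∀ z, σ z = 1 → ∀ x, z * x = x * z

namespace CE

variable {σ : Γ →* G} (hE : CE σ)

include hE

theorem comm_eq {a a' b b' : Γ} (ha : σ a = σ a') (hb : σ b = σ b') : ⁅a, b⁆ = ⁅a', b'⁆ := by
  have h1 : σ (a⁻¹ * a') = 1 := by rw [map_mul, map_inv, ha, inv_mul_cancel]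
  have h2 : σ (b⁻¹ * b') = 1 := by rw [map_mul, map_inv, hb, inv_mul_cancel]
  obtain ⟨z, hz⟩ : ∃ z, a' = a * z := ⟨a⁻¹ * a', by group⟩
  obtain ⟨w, hw⟩ : ∃ w, b' = b * w := ⟨b⁻¹ * b', by group⟩
  have hz1 : σ z = 1 := by
    have : z = a⁻¹ * a' := by rw [hz]; group
    rw [this]; exact h1
  have hw1 : σ w = 1 := by
    have : w = b⁻¹ * b' := by rw [hw]; group
    rw [this]; exact h2
  subst hz hw
  have c1 : z * (b * w) = (b * w) * z := hE.cen z hz1 _
  have c2 : w * a⁻¹ = a⁻¹ * w := hE.cen w hw1 _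
  symm
  calc ⁅a * z, b * w⁆ = a * (z * (b * w)) * z⁻¹ * a⁻¹ * w⁻¹ * b⁻¹ := by
        rw [commutatorElement_def]; group
    _ = a * b * (w * a⁻¹) * w⁻¹ * b⁻¹ := by rw [c1]; group
    _ = ⁅a, b⁆ := by rw [c2, commutatorElement_def]; group

/-- A commutator of lifts of commuting elements is central. -/
theorem comm_cen {a b : Γ} (h : σ a * σ b = σ b * σ a) (x : Γ) : ⁅a, b⁆ * x = x * ⁅a, b⁆ := by
  apply hE.cen
  rw [commutatorElement_def, map_mul, map_mul, map_mul, map_inv, map_inv, h]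
  group

/-- Conjugation by a lift depends only on the image, on central commutators. -/
theorem conj_comm_self {x a b : Γ} (h1 : σ x * σ a = σ a * σ x) (h2 : σ x * σ b = σ b * σ x) : x * ⁅a, b⁆ = ⁅a, b⁆ * x := by
  have e1 : σ (x * a * x⁻¹) = σ a := by
    rw [map_mul, map_mul, map_inv, h1]
    group
  have e2 : σ (x * b * x⁻¹) = σ b := by
    rw [map_mul, map_mul, map_inv, h2]
    group
  have := hE.comm_eq e1 e2
  have e3 : ⁅x * a * x⁻¹, x * b * x⁻¹⁆ = x * ⁅a, b⁆ * x⁻¹ := by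
    rw [commutatorElement_def, commutatorElement_def]
    group
  rw [e3] at this
  calc x * ⁅a, b⁆ = x * ⁅a, b⁆ * x⁻¹ * x := by group
    _ = _ := by rw [this]

end CE

/-- The canonical lift of `X`. -/
def LS (σ : Γ →* G) (T X : Subgroup G) : Subgroup Γ :=
  Subgroup.closure {g | ∃ h x : Γ, σ h ∈ T ∧ σ x ∈ X ∧ g = ⁅h, x⁆}

/-- The hypotheses on a root subgroup. -/
structure Good (σ : Γ →* G) (T X : Subgroup G) : Prop where
  /-- the torus is abelian -/
  ab : ∀ t ∈ T, ∀ t' ∈ T, t * t' = t' * t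
  /-- it normalises -/
  nrm : ∀ t ∈ T, ∀ x ∈ X, t * x * t⁻¹ ∈ X
  /-- lifts commute -/
  lc : ∀ a b : Γ, σ a ∈ X → σ b ∈ X → a * b = b * a
  /-- a fixed point free element -/
  fpf : ∃ h ∈ T, ∀ x ∈ X, h * x * h⁻¹ = x → x = 1

namespace Good

variable {σ : Γ →* G} {T X : Subgroup G} (h : Good σ T X) (hE : CE σ)

include h hE

/-- The image of the commutator map by a fixed point free element of `T`. -/
theorem main [Finite X] :
    (∀ u ∈ LS σ T X, σ u ∈ X) ∧ (∀ x ∈ X, ∃ u ∈ LS σ T X, σ u = x) ∧ (∀ u ∈ LS σ T X, σ u = 1 → u = 1) := by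
  classical
  obtain ⟨h0, h0T, hfpf⟩ := h.fpf
  obtain ⟨H, rfl⟩ := hE.surj h0
  -- the map on `X`
  have hcomm : ∀ x ∈ X, ∀ y ∈ X, x * y = y * x := by
    intro x hx y hy
    obtain ⟨a, rfl⟩ := hE.surj x
    obtain ⟨b, rfl⟩ := hE.surj y
    rw [← map_mul, ← map_mul, h.lc a b hx hy]
  have hmem : ∀ u ∈ LS σ T X, σ u ∈ X := by
    intro u hu
    unfold LS at hu
    induction hu using Subgroup.closure_induction with
    | mem g hg =>
      obtain ⟨a, x, ha, hx, rfl⟩ := hg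
      rw [commutatorElement_def, map_mul, map_mul, map_mul, map_inv, map_inv]
      exact X.mul_mem (h.nrm _ ha _ hx) (X.inv_mem hx)
    | one => simp
    | mul a b _ _ ha hb => rw [map_mul]; exact X.mul_mem ha hb
    | inv a _ ha => rw [map_inv]; exact X.inv_mem ha
  -- the commutator map on the preimage
  let P : Subgroup Γ := X.comap σ
  have hPc : ∀ a ∈ P, ∀ b ∈ P, a * b = b * a := fun a ha b hb => h.lc a b ha hb
  have hPn : ∀ a ∈ P, H * a * H⁻¹ ∈ P := by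
    intro a ha
    show σ _ ∈ X
    rw [map_mul, map_mul, map_inv]
    exact h.nrm _ h0T _ ha
  -- the map is a homomorphism on `P`
  let φ : P →* P :=
    { toFun := fun a => ⟨H * a.1 * H⁻¹ * a.1⁻¹, P.mul_mem (hPn _ a.2) (P.inv_mem a.2)⟩
      map_one' := by
        apply Subtype.ext
        simp
      map_mul' := by
        rintro ⟨a, ha⟩ ⟨b, hb⟩
        apply Subtype.ext
        show H * (a * b) * H⁻¹ * (a * b)⁻¹ = H * a * H⁻¹ * a⁻¹ * (H * b * H⁻¹ * b⁻¹)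
        have e1 := hPc (H * b * H⁻¹) (hPn b hb) a⁻¹ (P.inv_mem ha)
        have e2 : b⁻¹ * a⁻¹ = a⁻¹ * b⁻¹ := hPc _ (P.inv_mem hb) _ (P.inv_mem ha)
        calc H * (a * b) * H⁻¹ * (a * b)⁻¹ = H * a * b * H⁻¹ * (b⁻¹ * a⁻¹) := by group
          _ = H * a * H⁻¹ * ((H * b * H⁻¹) * a⁻¹) * b⁻¹ := by rw [e2]; group
          _ = _ := by rw [e1]; group }
  have hφv : ∀ a : P, ((φ a : P) : Γ) = ⁅H, a.1⁆ := fun a => rfl
  -- injectivity on `X`
  have hinjX : ∀ a ∈ P, σ (H * a * H⁻¹ * a⁻¹) = 1 → σ a = 1 := by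
    intro a ha e
    apply hfpf _ ha
    rw [map_mul, map_mul, map_mul, map_inv, map_inv] at e
    rw [← mul_inv_eq_one]
    exact e
  -- surjectivity on `X`
  let ψ : X →* X :=
    { toFun := fun x => ⟨σ H * x.1 * (σ H)⁻¹ * x.1⁻¹, X.mul_mem (h.nrm _ h0T _ x.2) (X.inv_mem x.2)⟩
      map_one' := by
        apply Subtype.ext
        simp
      map_mul' := by
        rintro ⟨a, ha⟩ ⟨b, hb⟩
        apply Subtype.ext
        show σ H * (a * b) * (σ H)⁻¹ * (a * b)⁻¹ = σ H * a * (σ H)⁻¹ * a⁻¹ * (σ H * b * (σ H)⁻¹ * b⁻¹)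
        have e1 := hcomm (σ H * b * (σ H)⁻¹) (h.nrm _ h0T _ hb) a⁻¹ (X.inv_mem ha)
        have e2 : b⁻¹ * a⁻¹ = a⁻¹ * b⁻¹ := hcomm _ (X.inv_mem hb) _ (X.inv_mem ha)
        calc σ H * (a * b) * (σ H)⁻¹ * (a * b)⁻¹ = σ H * a * b * (σ H)⁻¹ * (b⁻¹ * a⁻¹) := by group
          _ = σ H * a * (σ H)⁻¹ * ((σ H * b * (σ H)⁻¹) * a⁻¹) * b⁻¹ := by rw [e2]; group
          _ = _ := by rw [e1]; group }
  have hψinj : Function.Injective ψ := by
    rw [injective_iff_map_eq_one]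
    rintro ⟨x, hx⟩ e
    apply Subtype.ext
    have e' : σ H * x * (σ H)⁻¹ * x⁻¹ = 1 := congrArg Subtype.val e
    exact hfpf x hx (mul_inv_eq_one.mp e')
  have hψsurj : Function.Surjective ψ := Finite.injective_iff_surjective.1 hψinj
  -- the image `I` of `φ`, a subgroup of the commutators
  have hIT : ∀ (k a : Γ), σ k ∈ T → a ∈ P → ∃ b ∈ P, k * ⁅H, a⁆ * k⁻¹ = ⁅H, b⁆ := by
    intro k a hk ha
    refine ⟨k * a * k⁻¹, ?_, ?_⟩
    · show σ _ ∈ X
      rw [map_mul, map_mul, map_inv]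
      exact h.nrm _ hk _ ha
    · have e1 : σ (k * H * k⁻¹) = σ H := by
        rw [map_mul, map_mul, map_inv, h.ab _ hk _ h0T]
        group
      have e2 := hE.comm_eq e1 (rfl : σ (k * a * k⁻¹) = σ (k * a * k⁻¹))
      rw [← e2]
      rw [commutatorElement_def, commutatorElement_def]
      group
  -- every element of `P` is a central element times an element of the image
  have hdec : ∀ a ∈ P, ∃ b ∈ P, ∃ z, σ z = 1 ∧ a = z * ⁅H, b⁆ := by
    intro a ha
    obtain ⟨⟨x, hx⟩, e⟩ := hψsurj ⟨σ a, ha⟩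
    obtain ⟨b, rfl⟩ := hE.surj x
    have e' : σ H * σ b * (σ H)⁻¹ * (σ b)⁻¹ = σ a := congrArg Subtype.val e
    refine ⟨b, hx, a * ⁅H, b⁆⁻¹, ?_, by group⟩
    rw [map_mul, map_inv, commutatorElement_def, map_mul, map_mul, map_mul, map_inv, map_inv, e']
    group
  -- commutators are in the image
  have hcI : ∀ (k a : Γ), σ k ∈ T → a ∈ P → ∃ b ∈ P, ⁅k, a⁆ = ⁅H, b⁆ := by
    intro k a hk ha
    obtain ⟨b, hb, z, hz, rfl⟩ := hdec a ha
    have hcz := hE.cen z hz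
    have e1 : ⁅k, z * ⁅H, b⁆⁆ = ⁅k, ⁅H, b⁆⁆ := by
      apply hE.comm_eq rfl
      rw [map_mul, hz, one_mul]
    rw [e1]
    obtain ⟨c, hc, e2⟩ := hIT k b hk hb
    refine ⟨c * b⁻¹, P.mul_mem hc (P.inv_mem hb), ?_⟩
    have e3 : ⁅k, ⁅H, b⁆⁆ = ⁅H, c⁆ * ⁅H, b⁆⁻¹ := by
      rw [← e2]
      conv_lhs => rw [commutatorElement_def k]
    rw [e3]
    have e4 := map_mul φ ⟨c, hc⟩ ⟨b⁻¹, P.inv_mem hb⟩
    have e5 := map_inv φ ⟨b, hb⟩
    have e6 : ((φ ⟨c, hc⟩ * φ ⟨b⁻¹, P.inv_mem hb⟩ : P) : Γ) = ⁅H, c⁆ * ⁅H, b⁻¹⁆ := rfl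
    have e7 : ⁅H, b⁻¹⁆ = ⁅H, b⁆⁻¹ := by
      have := congrArg Subtype.val e5
      exact this
    have e8 : ((φ (⟨c, hc⟩ * ⟨b⁻¹, P.inv_mem hb⟩) : P) : Γ) = ⁅H, c * b⁻¹⁆ := rfl
    rw [← e7, ← e6, ← e4, e8]
  -- elements of the lift
  have hLS : ∀ u ∈ LS σ T X, ∃ b ∈ P, u = ⁅H, b⁆ := by
    intro u hu
    unfold LS at hu
    induction hu using Subgroup.closure_induction with
    | mem g hg =>
      obtain ⟨k, a, hk, ha, rfl⟩ := hg
      exact hcI k a hk ha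
    | one => exact ⟨1, P.one_mem, by simp⟩
    | mul a b _ _ ha hb =>
      obtain ⟨c, hc, rfl⟩ := ha
      obtain ⟨d, hd, rfl⟩ := hb
      refine ⟨c * d, P.mul_mem hc hd, ?_⟩
      exact (congrArg Subtype.val (map_mul φ ⟨c, hc⟩ ⟨d, hd⟩)).symm
    | inv a _ ha =>
      obtain ⟨c, hc, rfl⟩ := ha
      refine ⟨c⁻¹, P.inv_mem hc, ?_⟩
      exact (congrArg Subtype.val (map_inv φ ⟨c, hc⟩)).symm
  refine ⟨hmem, ?_, ?_⟩
  · intro x hx
    obtain ⟨⟨y, hy⟩, e⟩ := hψsurj ⟨x, hx⟩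
    obtain ⟨b, rfl⟩ := hE.surj y
    refine ⟨⁅H, b⁆, Subgroup.subset_closure ⟨H, b, h0T, hy, rfl⟩, ?_⟩
    have e' : σ H * σ b * (σ H)⁻¹ * (σ b)⁻¹ = x := congrArg Subtype.val e
    rw [commutatorElement_def, map_mul, map_mul, map_mul, map_inv, map_inv, e']
  · intro u hu e
    obtain ⟨b, hb, rfl⟩ := hLS u hu
    have h1 : σ (H * b * H⁻¹ * b⁻¹) = 1 := by
      rw [← commutatorElement_def]
      exact e
    have h2 := hinjX b hb h1
    have e3 : ⁅H, b⁆ = ⁅H, (1 : Γ)⁆ := hE.comm_eq rfl (by rw [h2, map_one])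
    rw [e3]
    simp

end Good

/-- Equivariance of the lift. -/
theorem LS_conj {σ : Γ →* G} {T X X' : Subgroup G} (g : Γ) (hT : ∀ t ∈ T, σ g * t * (σ g)⁻¹ ∈ T)
    (hX : ∀ x ∈ X, σ g * x * (σ g)⁻¹ ∈ X') {u : Γ} (hu : u ∈ LS σ T X) : g * u * g⁻¹ ∈ LS σ T X' := by
  unfold LS at hu
  induction hu using Subgroup.closure_induction with
  | mem a ha =>
    obtain ⟨k, x, hk, hx, rfl⟩ := ha
    have e : g * ⁅k, x⁆ * g⁻¹ = ⁅g * k * g⁻¹, g * x * g⁻¹⁆ := by
      rw [commutatorElement_def, commutatorElement_def]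
      group
    rw [e]
    apply Subgroup.subset_closure
    refine ⟨_, _, ?_, ?_, rfl⟩
    · rw [map_mul, map_mul, map_inv]
      exact hT _ hk
    · rw [map_mul, map_mul, map_inv]
      exact hX _ hx
  | one => simp
  | mul a b _ _ ha hb =>
    have e : g * (a * b) * g⁻¹ = g * a * g⁻¹ * (g * b * g⁻¹) := by group
    rw [e]
    exact Subgroup.mul_mem _ ha hb
  | inv a _ ha =>
    have e : g * a⁻¹ * g⁻¹ = (g * a * g⁻¹)⁻¹ := by group
    rw [e]
    exact Subgroup.inv_mem _ ha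

end Cfsg.Agent.Lib.TwStem
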