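import Mathlib

/-!
# A quotient of a monomial group by a torus is a quotient of a Coxeter group
-/

set_option autoImplicit false
set_option linter.unusedSectionVars false
set_option linter.unusedVariables false

namespace Cfsg.Agent.Lib.TwStem

variable {Γ : Type*} [Group Γ]

/-- If the generators of `Nt` modulo `Tt` satisfy the Coxeter relations, and `Φ` maps `Nt` to the Coxeter group, killing
`Tt` and sending generators to generators, its kernel is `Tt`. -/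
theorem mem_of_cox {ι : Type*} (M : CoxeterMatrix ι) (Nt Tt : Subgroup Γ) (nh : ι → Γ) (hTN : Tt ≤ Nt)
    (hn : ∀ n ∈ Nt, ∀ t ∈ Tt, n * t * n⁻¹ ∈ Tt) (hnh : ∀ a, nh a ∈ Nt)
    (hgen : Nt ≤ Subgroup.closure ((Tt : Set Γ) ∪ Set.range nh))
    (hbr : ∀ a b, (nh a * nh b) ^ M a b ∈ Tt)
    (Φ : ↥Nt →* M.Group) (hΦT : ∀ t (ht : t ∈ Tt), Φ ⟨t, hTN ht⟩ = 1) (hΦn : ∀ a, Φ ⟨nh a, hnh a⟩ = M.simple a)
    {z : Γ} (hz : z ∈ Nt) (e : Φ ⟨z, hz⟩ = 1) : z ∈ Tt := by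
  classical
  have hnorm : (Tt.subgroupOf Nt).Normal := by
    constructor
    intro t ht g
    rw [Subgroup.mem_subgroupOf] at ht ⊢
    exact hn g.1 g.2 t.1 ht
  let cs := M.toCoxeterSystem
  let sQ : ι → ↥Nt ⧸ Tt.subgroupOf Nt := fun a => QuotientGroup.mk ⟨nh a, hnh a⟩
  have hlift : M.IsLiftable sQ := by
    intro a b
    show (sQ a * sQ b) ^ M a b = 1
    simp only [sQ]
    rw [← QuotientGroup.mk_mul, ← QuotientGroup.mk_pow, QuotientGroup.eq_one_iff, Subgroup.mem_subgroupOf]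
    exact hbr a b
  let L : M.Group →* ↥Nt ⧸ Tt.subgroupOf Nt := cs.lift ⟨sQ, hlift⟩
  have hL : ∀ a, L (M.simple a) = sQ a := fun a => cs.lift_apply_simple hlift a
  have key : ∀ g (hg : g ∈ Subgroup.closure ((Tt : Set Γ) ∪ Set.range nh)), ∃ h : g ∈ Nt,
      L (Φ ⟨g, h⟩) = QuotientGroup.mk ⟨g, h⟩ := by
    intro g hg
    induction hg using Subgroup.closure_induction with
    | mem g hg =>
      rcases hg with hg | ⟨a, rfl⟩
      · refine ⟨hTN hg, ?_⟩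
        rw [hΦT g hg, map_one]
        symm
        rw [QuotientGroup.eq_one_iff, Subgroup.mem_subgroupOf]
        exact hg
      · refine ⟨hnh a, ?_⟩
        rw [hΦn, hL]
    | one =>
      refine ⟨Nt.one_mem, ?_⟩
      have : Φ ⟨1, Nt.one_mem⟩ = 1 := map_one Φ
      rw [this, map_one]
      rfl
    | mul a b _ _ ha hb =>
      obtain ⟨h1, e1⟩ := ha
      obtain ⟨h2, e2⟩ := hb
      refine ⟨Nt.mul_mem h1 h2, ?_⟩
      have : Φ ⟨a * b, Nt.mul_mem h1 h2⟩ = Φ ⟨a, h1⟩ * Φ ⟨b, h2⟩ := map_mul Φ ⟨a, h1⟩ ⟨b, h2⟩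
      rw [this, map_mul, e1, e2]
      rfl
    | inv a _ ha =>
      obtain ⟨h1, e1⟩ := ha
      refine ⟨Nt.inv_mem h1, ?_⟩
      have : Φ ⟨a⁻¹, Nt.inv_mem h1⟩ = (Φ ⟨a, h1⟩)⁻¹ := map_inv Φ ⟨a, h1⟩
      rw [this, map_inv, e1]
      rfl
  obtain ⟨h1, e1⟩ := key z (hgen hz)
  have e2 : Φ ⟨z, h1⟩ = 1 := e
  rw [e2, map_one] at e1
  have e3 := e1.symm
  rw [QuotientGroup.eq_one_iff, Subgroup.mem_subgroupOf] at e3
  exact e3

/-- The word expressing the Coxeter relation. -/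
theorem word2 {Q : Type*} [Group Q] {a b : Q} (ha : a * a = 1) (hb : b * b = 1) : a * b * a⁻¹ * b⁻¹ = (a * b) ^ 2 := by
  have ia : a⁻¹ = a := inv_eq_of_mul_eq_one_left ha
  have ib : b⁻¹ = b := inv_eq_of_mul_eq_one_left hb
  rw [ia, ib]
  simp only [pow_succ, pow_zero, one_mul, mul_assoc]

theorem word3 {Q : Type*} [Group Q] {a b : Q} (ha : a * a = 1) (hb : b * b = 1) :
    (a * b) * a * (a * b)⁻¹ * b⁻¹ = (a * b) ^ 3 := by
  have ia : a⁻¹ = a := inv_eq_of_mul_eq_one_left ha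
  have ib : b⁻¹ = b := inv_eq_of_mul_eq_one_left hb
  rw [mul_inv_rev, ia, ib]
  simp only [pow_succ, pow_zero, one_mul, mul_assoc]

theorem word4 {Q : Type*} [Group Q] {a b : Q} (ha : a * a = 1) (hb : b * b = 1) :
    (a * b * a) * b * (a * b * a)⁻¹ * b⁻¹ = (a * b) ^ 4 := by
  have ia : a⁻¹ = a := inv_eq_of_mul_eq_one_left ha
  have ib : b⁻¹ = b := inv_eq_of_mul_eq_one_left hb
  simp only [mul_inv_rev, ia, ib]
  simp only [pow_succ, pow_zero, one_mul, mul_assoc]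

theorem word6 {Q : Type*} [Group Q] {a b : Q} (ha : a * a = 1) (hb : b * b = 1) :
    (a * b * a * b * a) * b * (a * b * a * b * a)⁻¹ * b⁻¹ = (a * b) ^ 6 := by
  have ia : a⁻¹ = a := inv_eq_of_mul_eq_one_left ha
  have ib : b⁻¹ = b := inv_eq_of_mul_eq_one_left hb
  simp only [mul_inv_rev, ia, ib]
  simp only [pow_succ, pow_zero, one_mul, mul_assoc]

end Cfsg.Agent.Lib.TwStem
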