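import Cfsg.Agent.Lib.TwStem.D4Tor

/-!
# `³D₄`: lifts of root groups
-/

set_option autoImplicit false
set_option linter.unusedSectionVars false
set_option linter.unusedVariables false

namespace Cfsg.Agent.Lib.TwStem.D4

open scoped commutatorElement
open Cfsg Cfsg.Lie Cfsg.Agent.Lib.Chev Cfsg.Agent.Lib.Chev.TwD4 Equiv
open Cfsg.Agent.Lib.SL2Core Cfsg.Agent.Lib.SL2Bor Cfsg.Agent.Lib.StK Cfsg.Agent.Lib.ChevLift Cfsg.Agent.Lib.ChevLift.RD

variable {K : Type*} [Field K] [Fintype K] {f : K ≃+* K}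

/-! ### Norms -/

theorem uf_pow {q : ℕ} (hf : ∀ t, f t = t ^ q) (z : Kˣ) : unitsF f z = z ^ q := by
  apply Units.ext
  simp [hf]

/-- The norm. -/
noncomputable def NN (f : K ≃+* K) (z : Kˣ) : Kˣ := z * unitsF f z * unitsF f (unitsF f z)

theorem NN_fix (hf3 : ∀ t, f^[3] t = t) (z : Kˣ) : unitsF f (NN f z) = NN f z := by
  unfold NN
  simp only [map_mul, unitsF3 hf3]
  ac_rfl

theorem NN_pow {q : ℕ} (hf : ∀ t, f t = t ^ q) (z : Kˣ) : NN f z = z ^ (1 + q + q ^ 2) := by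
  unfold NN
  rw [uf_pow hf, uf_pow hf, ← pow_mul, pow_add, pow_add, pow_one, sq]

theorem exists_z3 {q : ℕ} (hq : IsPrimePow q) (hK : Fintype.card K = q ^ 3) (hf : ∀ t, f t = t ^ q) :
    ∃ z : Kˣ, NN f z = 1 ∧ z * z ≠ 1 := by
  classical
  have hq2 := hq.two_le
  have hd : 1 + q + q ^ 2 ∣ Fintype.card K - 1 := by
    rw [hK]
    refine ⟨q - 1, ?_⟩
    obtain ⟨k, rfl⟩ : ∃ k, q = k + 1 := ⟨q - 1, by omega⟩
    simp only [Nat.add_sub_cancel]
    have : (k + 1) ^ 3 = (1 + (k + 1) + (k + 1) ^ 2) * k + 1 := by ring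
    omega
  have h1 := card_units_pow_eq_one (K := K) (1 + q + q ^ 2)
  rw [Nat.gcd_eq_right hd] at h1
  have h2 : 1 < Nat.card {u : Kˣ // u ^ (1 + q + q ^ 2) = 1} := by
    rw [h1]
    nlinarith
  haveI : Finite {u : Kˣ // u ^ (1 + q + q ^ 2) = 1} := inferInstance
  obtain ⟨⟨a, ha⟩, ⟨b, hb⟩, hne⟩ := (Finite.one_lt_card_iff_nontrivial.1 h2).exists_pair_ne
  obtain ⟨z, hz, hz1⟩ : ∃ z : Kˣ, z ^ (1 + q + q ^ 2) = 1 ∧ z ≠ 1 := by
    by_cases ha1 : a = 1
    · refine ⟨b, hb, ?_⟩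
      rintro rfl
      exact hne (Subtype.ext ha1)
    · exact ⟨a, ha, ha1⟩
  refine ⟨z, by rw [NN_pow hf, hz], ?_⟩
  intro e
  apply hz1
  obtain ⟨m, hm⟩ : ∃ m, 1 + q + q ^ 2 = 2 * m + 1 := by
    have : Even (q + q ^ 2) := by
      have h3 : q + q ^ 2 = q * (q + 1) := by ring
      rw [h3]
      exact Nat.even_mul_succ_self q
    obtain ⟨m, hm⟩ := this
    exact ⟨m, by omega⟩
  rw [hm, pow_succ, pow_mul, sq, e, one_pow, one_mul] at hz
  exact hz

theorem exists_z0 {q : ℕ} (hq : IsPrimePow q) (hq3 : 3 ≤ q) (hK : Fintype.card K = q ^ 3) (hf : ∀ t, f t = t ^ q) :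
    ∃ z : Kˣ, NN f z ≠ 1 := by
  classical
  by_contra hcon
  push Not at hcon
  have hd : 1 + q + q ^ 2 ∣ Fintype.card K - 1 := by
    rw [hK]
    refine ⟨q - 1, ?_⟩
    obtain ⟨k, rfl⟩ : ∃ k, q = k + 1 := ⟨q - 1, by omega⟩
    simp only [Nat.add_sub_cancel]
    have : (k + 1) ^ 3 = (1 + (k + 1) + (k + 1) ^ 2) * k + 1 := by ring
    omega
  have h1 := card_units_pow_eq_one (K := K) (1 + q + q ^ 2)
  rw [Nat.gcd_eq_right hd] at h1
  have h2 : Nat.card {u : Kˣ // u ^ (1 + q + q ^ 2) = 1} = Nat.card Kˣ := by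
    apply Nat.card_congr
    exact Equiv.subtypeUnivEquiv (fun u => by rw [← NN_pow hf, hcon])
  rw [h1, Nat.card_eq_fintype_card, Fintype.card_units, hK] at h2
  obtain ⟨k, rfl⟩ : ∃ k, q = k + 3 := ⟨q - 3, by omega⟩
  have h3 : (k + 3) ^ 3 = 1 + (1 + (k + 3) + (k + 3) ^ 2) := by
    have : 1 ≤ (k + 3) ^ 3 := Nat.one_le_pow _ _ (by omega)
    omega
  nlinarith [sq_nonneg k]

/-- The element scaling the short root by a given factor. -/
theorem exists_scale {q : ℕ} (hf : ∀ t, f t = t ^ q) (hf3 : ∀ t, f^[3] t = t) (l : Kˣ) :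
    ∃ z y : Kˣ, unitsF f y = y ∧ z * z * y⁻¹ = l := by
  refine ⟨l ^ ((q ^ 2 + q + 2) / 2), NN f l, NN_fix hf3 l, ?_⟩
  have h2 : 2 ∣ q ^ 2 + q + 2 := by
    have : Even (q + q ^ 2) := by
      have h3 : q + q ^ 2 = q * (q + 1) := by ring
      rw [h3]
      exact Nat.even_mul_succ_self q
    obtain ⟨m, hm⟩ := this
    exact ⟨m + 1, by omega⟩
  have e : l ^ ((q ^ 2 + q + 2) / 2) * l ^ ((q ^ 2 + q + 2) / 2) = l ^ (q ^ 2 + q + 2) := by
    rw [← pow_add]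
    congr 1
    omega
  rw [e, NN_pow hf, mul_inv_eq_iff_eq_mul, ← pow_succ']
  congr 1
  ring

theorem exists_rho {E : Type*} [Field E] [Fintype E] (hc : 5 ≤ Fintype.card E) : ∃ r : E, r ≠ 0 ∧ r ≠ 1 ∧ r * (1 - r) - 1 ≠ 0 := by
  classical
  by_contra hcon
  push Not at hcon
  have key : ∀ r : E, r ≠ 0 → r ≠ 1 → r * (1 - r) - 1 = 0 := fun r h1 h2 => hcon r h1 h2
  -- the roots of the polynomial
  by_cases hr : ∃ r₀ : E, r₀ ≠ 0 ∧ r₀ ≠ 1
  · obtain ⟨r₀, h1, h2⟩ := hr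
    have h0 := key r₀ h1 h2
    have hall : ∀ x : E, x ∈ ({0, 1, r₀, 1 - r₀} : Finset E) := by
      intro x
      simp only [Finset.mem_insert, Finset.mem_singleton]
      by_cases x0 : x = 0
      · exact Or.inl x0
      by_cases x1 : x = 1
      · exact Or.inr (Or.inl x1)
      have hx := key x x0 x1
      have h3 : (x - r₀) * (x - (1 - r₀)) = 0 := by linear_combination r₀ * 0 - hx + h0
      rcases mul_eq_zero.1 h3 with h4 | h4
      · exact Or.inr (Or.inr (Or.inl (sub_eq_zero.1 h4)))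
      · exact Or.inr (Or.inr (Or.inr (sub_eq_zero.1 h4)))
    have h5 : Fintype.card E ≤ 4 := by
      calc Fintype.card E = (Finset.univ : Finset E).card := rfl
        _ ≤ ({0, 1, r₀, 1 - r₀} : Finset E).card := Finset.card_le_card (fun x _ => hall x)
        _ ≤ 4 := Finset.card_le_four
    omega
  · push Not at hr
    have hall : ∀ x : E, x ∈ ({0, 1} : Finset E) := by
      intro x
      simp only [Finset.mem_insert, Finset.mem_singleton]
      by_cases x0 : x = 0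
      · exact Or.inl x0
      · exact Or.inr (hr x x0)
    have h5 : Fintype.card E ≤ 2 := by
      calc Fintype.card E = (Finset.univ : Finset E).card := rfl
        _ ≤ ({0, 1} : Finset E).card := Finset.card_le_card (fun x _ => hall x)
        _ ≤ 2 := Finset.card_le_two
    omega

/-! ### The classes -/

/-- The units of the fixed subfield. -/
noncomputable def uS {d : ℕ} (c : ↥(Sb f d)) (hc : c ≠ 0) : Kˣ := Units.mk0 c.1 (fun e => hc (Subtype.ext e))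

theorem simple_vals : chevD4.simple 0 = 18 ∧ chevD4.simple 1 = 14 ∧ chevD4.simple 2 = 13 ∧ chevD4.simple 3 = 12 := by decide +kernel

theorem hG_single (i : Fin chevD4.rank) (u : Kˣ) : hF.c.hG (chevD4.simple i) (u : K) = tor RootD4T.R chevD4 (Pi.mulSingle i u) :=
  hF.hSimple_eq_tor i u

theorem D_class0 (hf3 : ∀ t, f^[3] t = t) {φ : SL2 ↥(Sb f (dd 0)) →* GL chevD4.Idx K} (P : ClassHom (sc f) 0 φ)
    (c : ↥(Sb f (dd 0))) (hc : c ≠ 0) : φ (wd c * wd (-1)) = tor RootD4T.R chevD4 (cc f (uS c hc) 1) := by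
  rw [P.hd]
  have e0 : TwTabD4.S.p 0 = 2 ∧ TwTabD4.S.p 2 = 3 := by decide +kernel
  show ((List.range 3).map fun k => hF.c.hG (chevD4.simple (TwTabD4.S.p^[k] 0)) (f^[k] c.1)).prod = _
  have e1 : (List.range 3) = [0, 1, 2] := rfl
  rw [e1]
  simp only [List.map_cons, List.map_nil, List.prod_cons, List.prod_nil, mul_one, Function.iterate_zero, id, Function.iterate_succ, Function.comp]
  rw [e0.1, e0.2]
  have h0 := hG_single (K := K) ⟨0, by decide⟩ (uS c hc)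
  have h2 := hG_single (K := K) ⟨2, by decide⟩ (unitsF f (uS c hc))
  have h3 := hG_single (K := K) ⟨3, by decide⟩ (unitsF f (unitsF f (uS c hc)))
  refine (congrArg₂ (· * ·) h0 (congrArg₂ (· * ·) h2 h3)).trans ?_
  rw [tor_mul, tor_mul]
  congr 1
  funext j
  revert j
  refine fin4_cases ?_ ?_ ?_ ?_ <;> simp [cc, Pi.mulSingle_apply, Fin.ext_iff]

theorem D_class1 {φ : SL2 ↥(Sb f (dd 1)) →* GL chevD4.Idx K} (P : ClassHom (sc f) 1 φ)
    (c : ↥(Sb f (dd 1))) (hc : c ≠ 0) : φ (wd c * wd (-1)) = tor RootD4T.R chevD4 (cc f 1 (uS c hc)) := by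
  rw [P.hd]
  show ((List.range 1).map fun k => hF.c.hG (chevD4.simple (TwTabD4.S.p^[k] 1)) (f^[k] c.1)).prod = _
  have e1 : (List.range 1) = [0] := rfl
  rw [e1]
  simp only [List.map_cons, List.map_nil, List.prod_cons, List.prod_nil, mul_one, Function.iterate_zero, id]
  refine (hG_single (K := K) ⟨1, by decide⟩ (uS c hc)).trans ?_
  congr 1
  funext j
  revert j
  refine fin4_cases ?_ ?_ ?_ ?_ <;> simp [cc, Pi.mulSingle_apply, Fin.ext_iff]

theorem cc_one (hf3 : ∀ t, f^[3] t = t) {z y : Kˣ} (hy : unitsF f y = y) (h1 : tor RootD4T.R chevD4 (cc f z y) = (1 : GL chevD4.Idx K)) :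
    z = 1 ∧ y = 1 := by
  have e := ker_one hf3 _ (cc_fixed hf3 z hy) h1
  have e0 := congrFun e ⟨0, by decide⟩
  have e1 := congrFun e ⟨1, by decide⟩
  simp only [cc, Pi.one_apply] at e0 e1
  exact ⟨by simpa using e0, by simpa using e1⟩

theorem hker0 (hf3 : ∀ t, f^[3] t = t) {φ : SL2 ↥(Sb f (dd 0)) →* GL chevD4.Idx K} (P : ClassHom (sc f) 0 φ)
    (c : ↥(Sb f (dd 0))) (hc : c ≠ 0) (e : φ (wd c * wd (-1)) = 1) : c = 1 := by
  rw [D_class0 hf3 P c hc] at e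
  have := (cc_one hf3 (map_one _) e).1
  apply Subtype.ext
  exact congrArg Units.val this

theorem uS_fix {c : ↥(Sb f 1)} (hc : c ≠ 0) : unitsF f (uS c hc) = uS c hc := by
  apply Units.ext
  exact mem_Sb.1 c.2

theorem hker1 (hf3 : ∀ t, f^[3] t = t) {φ : SL2 ↥(Sb f (dd 1)) →* GL chevD4.Idx K} (P : ClassHom (sc f) 1 φ)
    (c : ↥(Sb f (dd 1))) (hc : c ≠ 0) (e : φ (wd c * wd (-1)) = 1) : c = 1 := by
  rw [D_class1 P c hc] at e
  have := (cc_one hf3 (uS_fix hc) e).2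
  apply Subtype.ext
  exact congrArg Units.val this

/-! ### The short roots -/

theorem r_iter_lt (k r : ℕ) (hr : r < chevD4.nroots) : TwTabD4.S.r^[k] r < chevD4.nroots := by
  induction k with
  | zero => exact hr
  | succ k ih =>
    rw [Function.iterate_succ_apply']
    exact TwTabD4.ok.r_lt _ ih

theorem chi_iter (hf3 : ∀ t, f^[3] t = t) (z : Kˣ) {y : Kˣ} (hy : unitsF f y = y) (k : ℕ) {r : ℕ} (hr : r < chevD4.nroots) :
    ((chiT chevD4 (cc f z y) (TwTabD4.S.r^[k] r) : Kˣ) : K) = f^[k] (chiT chevD4 (cc f z y) r : Kˣ) := by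
  induction k with
  | zero => rfl
  | succ k ih =>
    rw [Function.iterate_succ_apply', Function.iterate_succ_apply', chi_rho hf3 z hy (r_iter_lt k r hr), unitsF_val, ih]

variable {Γ : Type*} [Group Γ] {σ : Γ →* ↥(sc f).twG.G1}

theorem good0 [Finite Γ] (hE : CE σ) {q : ℕ} (hq : IsPrimePow q) (hK : Fintype.card K = q ^ 3) (hf : ∀ t, f t = t ^ q)
    (hf3 : ∀ t, f^[3] t = t) {φ : SL2 ↥(Sb f (dd 0)) →* GL chevD4.Idx K} (P : ClassHom (sc f) 0 φ) :
    Good σ (GT (sc f).twG) (GX (sc f).twG rel 0) := by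
  have t := rtab f
  have hc5 : 5 ≤ Fintype.card K := by
    rw [hK]
    have := hq.two_le
    nlinarith [Nat.pow_le_pow_left this 3]
  obtain ⟨r, h0, h1, h2⟩ := exists_rho hc5
  let r' : ↥(Sb f (dd 0)) := ⟨r, mem_Sb.2 (hf3 r)⟩
  have hr0 : r' ≠ 0 := fun e => h0 (congrArg Subtype.val e)
  have hr1 : r' ≠ 1 := fun e => h1 (congrArg Subtype.val e)
  have hr2 : r' * (1 - r') - 1 ≠ 0 := fun e => h2 (congrArg Subtype.val e)
  obtain ⟨z3, hz1, hz2⟩ := exists_z3 hq hK hf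
  refine ⟨GT_ab, fun t ht x hx => GT_act ht hx, ?_, ?_⟩
  · refine lc_of_scale hE (fun s => RTab.phi0 P (uu s)) ?_ (t.ontoP (a := 0) (by decide) P) hr0 hr1 hr2 ?_ ?_
    · intro s s'
      show RTab.phi0 P (uu (s + s')) = _
      rw [uu_add', map_mul]
    · intro s s'
      show RTab.phi0 P (uu s) * RTab.phi0 P (uu s') = RTab.phi0 P (uu s') * RTab.phi0 P (uu s)
      rw [← map_mul, ← map_mul, ← uu_add', ← uu_add', add_comm]
    · intro c hc
      obtain ⟨z, y, hy, e⟩ := exists_scale hf hf3 (uS c hc)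
      refine ⟨⟨_, cc_mem hf3 z hy⟩, fun s => Subtype.ext ?_⟩
      show tor RootD4T.R chevD4 (cc f z y) * φ (uu s) * (tor RootD4T.R chevD4 (cc f z y))⁻¹ = φ (uu (c * s))
      rw [P.hu, P.hu]
      refine (sc f).tor_conj_cw (cc f z y) (fun k _ => r_iter_lt k _ (by decide +kernel)) (v := c.1) (fun k _ => ?_) s.1
      rw [chi_iter hf3 z hy k (by decide +kernel)]
      congr 1
      have e0 : chevD4.simple (TwD4.A 0) = 18 := by decide +kernel
      rw [e0, chi0, e]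
      rfl
  · refine ⟨_, t.tor_mem_GT (cc_mem hf3 z3 (map_one _)), fun x hx e => ?_⟩
    refine t.tor_fpf _ (by decide) (chi_ne hf3 z3 (map_one _) (by decide) ?_) hx e
    show chiT chevD4 (cc f z3 1) 18 ≠ 1
    rw [chi0]
    simpa using hz2

/-! ### The long roots -/

theorem s_fix {r : ℕ} (hr : r < chevD4.nroots) (h1 : TwTabD4.S.r r = r) (h2 : Trie.find (Int.ofNat 1) TwTabD4.g r = 1) (t : K) :
    (τ f).s (hF.c.xG r t) = hF.c.xG r (f t) := by
  rw [TwTabD4.ok.signTw_s hF TwTabD4.sign_ok TwTabD4.sq_ok TwTabD4.unit_ok TwTabD4.neg_ok f hr, h1, h2]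
  simp

/-- Fixed root elements are in the group. -/
theorem el_mem {r j : ℕ} (hr : r < chevD4.nroots) (h1 : TwTabD4.S.r r = r) (h2 : Trie.find (Int.ofNat 1) TwTabD4.g r = 1)
    (hj : rel r = j) (hjm : j < 6) {a : K} (ha : f a = a) :
    ∃ hm : hF.c.xG r a ∈ (sc f).twG.G1, (⟨_, hm⟩ : ↥(sc f).twG.G1) ∈ GX (sc f).twG rel j := by
  have h3 : hF.c.xG r a ∈ XF (τ f) rel j := by
    refine ⟨⟨hF.c.xG_mem_group hr a, ?_⟩, hF.xG_mem_rootClosure ⟨hr, hj⟩ a⟩
    rw [s_fix hr h1 h2, ha]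
  have hm := XF_le (A := (sc f).twG) (relT f) hjm h3
  exact ⟨hm, mem_GX.2 ⟨h3.1, h3.2⟩⟩

theorem orb5 : OrbL chevD4 rel 5 = [23] := by decide +kernel

theorem x5_form {x : ↥(sc f).twG.G1} (hx : x ∈ GX (sc f).twG rel 5) : ∃ w : K, f w = w ∧ x.1 = hF.c.xG 23 w := by
  obtain ⟨h1, h2⟩ := mem_GX.1 hx
  obtain ⟨u, hu⟩ := (rtab f).exists_wL (j := 5) (by decide) h2
  rw [orb5] at hu
  have e : hF.wL [23] u = hF.c.xG 23 (u 23) := by
    rw [Full.wL_cons, Full.wL_nil, mul_one]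
  rw [e] at hu
  refine ⟨u 23, ?_, hu⟩
  have h3 := h1.2
  rw [hu, s_fix (by decide +kernel) (by decide +kernel) (by decide +kernel)] at h3
  exact hF.xG_param_inj (by decide +kernel) h3

theorem comm_terms : chevD4.commTerms 14 22 = [(23, 1, 1, 1)] := by decide +kernel

theorem comm_GL (t u : K) : ⁅hF.c.xG 22 u, hF.c.xG 14 t⁆ = hF.c.xG 23 (-t * u) := by
  have h1 := hF.xG_comm (F := K) (r := 14) (s := 22) (by decide +kernel) (by decide +kernel) (by decide) (by decide +kernel) t u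
  have h2 : hF.c.wordG (chevD4.commWord K 14 22 t u) = hF.c.xG 23 (-t * u) := by
    unfold ChevalleyDatum.commWord
    rw [comm_terms]
    simp [Checks.wordG_cons, Checks.wordG_nil]
  rw [h2] at h1
  have c1 : Commute (hF.c.xG 23 (-t * u)) (hF.c.xG 22 u) :=
    (Full.xG_commute_of_nil (hF := hF) (r := 22) (s := 23) (by decide +kernel) (by decide +kernel) (by decide) (by decide +kernel)
      (by decide +kernel) _ _).symm
  have c2 : Commute (hF.c.xG 23 (-t * u)) (hF.c.xG 14 t) :=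
    (Full.xG_commute_of_nil (hF := hF) (r := 14) (s := 23) (by decide +kernel) (by decide +kernel) (by decide) (by decide +kernel)
      (by decide +kernel) _ _).symm
  rw [commutatorElement_def, h1]
  generalize hF.c.xG 14 t = A at c2 ⊢
  generalize hF.c.xG 22 u = B at c1 ⊢
  generalize hF.c.xG 23 (-t * u) = C at c1 c2 ⊢
  calc A * B * C * B⁻¹ * A⁻¹ = A * (B * (C * B⁻¹)) * A⁻¹ := by group
    _ = A * (B * (B⁻¹ * C)) * A⁻¹ := by rw [c1.inv_right.eq]
    _ = A * C * A⁻¹ := by group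
    _ = C * A * A⁻¹ := by rw [← c2.eq]
    _ = C := by group

theorem x5_comm {x : ↥(sc f).twG.G1} (hx : x ∈ GX (sc f).twG rel 5) :
    ∃ x4 ∈ GX (sc f).twG rel 4, ∃ x1 ∈ GX (sc f).twG rel 1, x = ⁅x4, x1⁆ := by
  obtain ⟨w, hw, e⟩ := x5_form hx
  obtain ⟨m4, h4⟩ := el_mem (f := f) (r := 22) (j := 4) (by decide +kernel) (by decide +kernel) (by decide +kernel) (by decide +kernel) (by decide) hw
  have h11 : f (-1 : K) = -1 := by simp
  obtain ⟨m1, h1⟩ := el_mem (f := f) (r := 14) (j := 1) (by decide +kernel) (by decide +kernel) (by decide +kernel) (by decide +kernel) (by decide) h11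
  refine ⟨_, h4, _, h1, Subtype.ext ?_⟩
  show x.1 = ⁅hF.c.xG 22 w, hF.c.xG 14 (-1 : K)⁆
  rw [comm_GL, e]
  simp

theorem cen5 {k : ℕ} (hk : k < 5) {x y : ↥(sc f).twG.G1} (hy : y ∈ GX (sc f).twG rel k) (hx : x ∈ GX (sc f).twG rel 5) : y * x = x * y := by
  have h1 := GX_comm (relT f) (A := (sc f).twG) hk (by decide) hy hx
  rw [UF_of_ge (by omega), Subgroup.mem_bot] at h1
  exact commutatorElement_eq_one_iff_mul_comm.1 h1

theorem good5_lc (hE : CE σ) : ∀ a b : Γ, σ a ∈ GX (sc f).twG rel 5 → σ b ∈ GX (sc f).twG rel 5 → a * b = b * a := by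
  intro a b ha hb
  obtain ⟨x4, h4, x1, h1, e⟩ := x5_comm hb
  obtain ⟨H4, rfl⟩ := hE.surj x4
  obtain ⟨H1, rfl⟩ := hE.surj x1
  have e1 : σ (b * ⁅H4, H1⁆⁻¹) = 1 := by
    rw [map_mul, map_inv, map_commutatorElement, e, mul_inv_cancel]
  have c1 := hE.cen _ e1
  have c2 : a * ⁅H4, H1⁆ = ⁅H4, H1⁆ * a :=
    hE.conj_comm_self (cen5 (k := 4) (by decide) h4 ha).symm (cen5 (k := 1) (by decide) h1 ha).symm
  have e2 : b = (b * ⁅H4, H1⁆⁻¹) * ⁅H4, H1⁆ := by group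
  rw [e2]
  generalize b * ⁅H4, H1⁆⁻¹ = z at c1
  calc a * (z * ⁅H4, H1⁆) = (a * z) * ⁅H4, H1⁆ := by group
    _ = (z * a) * ⁅H4, H1⁆ := by rw [c1 a]
    _ = z * (a * ⁅H4, H1⁆) := by group
    _ = z * (⁅H4, H1⁆ * a) := by rw [c2]
    _ = _ := by group

theorem good5 (hE : CE σ) {q : ℕ} (hq : IsPrimePow q) (hq3 : 3 ≤ q) (hK : Fintype.card K = q ^ 3) (hf : ∀ t, f t = t ^ q)
    (hf3 : ∀ t, f^[3] t = t) : Good σ (GT (sc f).twG) (GX (sc f).twG rel 5) := by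
  have t := rtab f
  obtain ⟨z0, hz0⟩ := exists_z0 hq hq3 hK hf
  refine ⟨GT_ab, fun t ht x hx => GT_act ht hx, good5_lc hE, ?_⟩
  refine ⟨_, t.tor_mem_GT (cc_mem hf3 1 (NN_fix hf3 z0)), fun x hx e => ?_⟩
  refine t.tor_fpf _ (by decide) (chi_ne hf3 1 (NN_fix hf3 z0) (by decide) ?_) hx e
  show chiT chevD4 (cc f 1 (NN f z0)) 23 ≠ 1
  rw [chi5]
  exact hz0

end Cfsg.Agent.Lib.TwStem.D4
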