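import Cfsg.Agent.Lib.TwStem.D4Good

/-!
# The Schur multiplier of `³D₄(q)`, for `q ≥ 3`
-/

set_option autoImplicit false
set_option linter.unusedSectionVars false
set_option linter.unusedVariables false

namespace Cfsg.Agent.Lib.TwStem.D4

open scoped commutatorElement
open Cfsg Cfsg.Lie Cfsg.Agent.Lib.Chev Cfsg.Agent.Lib.Chev.TwD4 Equiv
open Cfsg.Agent.Lib.SL2Core Cfsg.Agent.Lib.SL2Bor Cfsg.Agent.Lib.StK Cfsg.Agent.Lib.ChevLift Cfsg.Agent.Lib.ChevLift.RD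

variable {K : Type*} [Field K] [Fintype K] {f : K ≃+* K}

/-- A word to a base root. -/
def tabW (r : ℕ) : ℕ × List ℕ :=
  [(0, []), (5, [0, 1]), (0, [1]), (0, [0, 1]), (5, [1]), (5, []), (0, [0]), (5, [1, 0, 1]), (0, [1, 0]), (0, [0, 1, 0]),
    (5, [0, 1, 0, 1]), (5, [1, 0, 1, 0, 1])].getD r (0, [])

theorem tabW_ok : ∀ r < 12, ((tabW r).1 = 0 ∨ (tabW r).1 = 5) ∧ (∀ i ∈ (tabW r).2, i < 2) ∧
    sL (ss TabD4.X J rel rp (fun a => a)) (tabW r).2 (tabW r).1 = r := by decide +kernel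

variable {Γ : Type*} [Group Γ] {σ : Γ →* ↥(sc f).twG.G1}

theorem good_all (hE : CE σ) (h0 : Good σ (GT (sc f).twG) (GX (sc f).twG rel 0)) (h5 : Good σ (GT (sc f).twG) (GX (sc f).twG rel 5)) :
    ∀ r < 2 * 6, Good σ (GT (sc f).twG) (GX (sc f).twG rel r) := by
  intro r hr
  obtain ⟨h1, h2, h3⟩ := tabW_ok r hr
  have h4 : (tabW r).1 < 2 * 6 ∧ Good σ (GT (sc f).twG) (GX (sc f).twG rel (tabW r).1) := by
    rcases h1 with e | e <;> rw [e]
    · exact ⟨by decide, h0⟩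
    · exact ⟨by decide, h5⟩
  have h5 := ((rtab f).good_word hE h2 h4.1 h4.2).2
  rw [h3] at h5
  exact h5

/-! ### The witnesses -/

theorem chiA (z y : Kˣ) :
    chiT chevD4 (cc f z y) (rp 0) = z * z * y⁻¹ ∧ chiT chevD4 (cc f z y) (rp 1) = y * y * (NN f z)⁻¹ ∧
    chiT chevD4 (cc f z y) (rp 2) = z * z * y * (NN f z)⁻¹ ∧
    chiT chevD4 (cc f z y) (rp 3) = NN f z * (unitsF f (unitsF f z) * unitsF f (unitsF f z))⁻¹ ∧
    chiT chevD4 (cc f z y) (rp 4) = NN f z * y⁻¹ ∧ chiT chevD4 (cc f z y) (rp 5) = y := by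
  have e0 : rp 0 = 18 ∧ rp 1 = 14 ∧ rp 2 = 19 ∧ rp 3 = 21 ∧ rp 4 = 22 ∧ rp 5 = 23 := by decide
  obtain ⟨e0, e1, e2, e3, e4, e5⟩ := e0
  rw [e0, e1, e2, e3, e4, e5]
  refine ⟨chi0 z y, ?_, ?_, ?_, ?_, chi5 z y⟩
  · rw [chi1]
    rfl
  · rw [chi2]
    unfold NN
    apply Units.ext
    have h1 := (z : Kˣ).ne_zero
    have h2 := (unitsF f z : Kˣ).ne_zero
    have h3 := (unitsF f (unitsF f z) : Kˣ).ne_zero
    simp only [Units.val_mul, Units.val_inv_eq_inv_val]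
    field_simp
  · rw [chi3]
    unfold NN
    apply Units.ext
    have h1 := (z : Kˣ).ne_zero
    have h2 := (unitsF f z : Kˣ).ne_zero
    have h3 := (unitsF f (unitsF f z) : Kˣ).ne_zero
    simp only [Units.val_mul, Units.val_inv_eq_inv_val]
    field_simp
  · rw [chi4]
    rfl

theorem NN_one : NN f (1 : Kˣ) = 1 := by
  simp [NN]

theorem ff_ne {z : Kˣ} (h : z * z ≠ 1) : unitsF f (unitsF f z) * unitsF f (unitsF f z) ≠ 1 := by
  rw [← map_mul, ← map_mul]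
  exact unitsF_ne (unitsF_ne h)

/-- All the witnesses. -/
theorem wit_all {q : ℕ} (hq : IsPrimePow q) (hq3 : 3 ≤ q) (hK : Fintype.card K = q ^ 3) (hf : ∀ t, f t = t ^ q)
    (hf3 : ∀ t, f^[3] t = t) : ∀ k s, k < s → s < 6 → Wit (sc f) rel k s := by
  obtain ⟨z3, hz1, hz2⟩ := exists_z3 hq hK hf
  obtain ⟨z0, hz0⟩ := exists_z0 hq hq3 hK hf
  have hy0 := NN_fix hf3 z0
  set y0 := NN f z0 with hy0d
  have hone : unitsF f (1 : Kˣ) = 1 := map_one _
  -- W3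
  obtain ⟨a0, a1, a2, a3, a4, a5⟩ := chiA (f := f) z3 1
  have w3 : (chiT chevD4 (cc f z3 1) (rp 0) ≠ 1) ∧ (chiT chevD4 (cc f z3 1) (rp 1) = 1) ∧ (chiT chevD4 (cc f z3 1) (rp 2) ≠ 1) ∧
      (chiT chevD4 (cc f z3 1) (rp 3) ≠ 1) ∧ (chiT chevD4 (cc f z3 1) (rp 4) = 1) ∧ (chiT chevD4 (cc f z3 1) (rp 5) = 1) := by
    rw [a0, a1, a2, a3, a4, a5, hz1]
    have := ff_ne (f := f) hz2
    refine ⟨by simpa using hz2, by simp, by simpa using hz2, ?_, by simp, rfl⟩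
    rw [one_mul, Ne, inv_eq_one]
    exact this
  obtain ⟨b0, b1, b2, b3, b4, b5⟩ := chiA (f := f) 1 y0
  have w1 : (chiT chevD4 (cc f 1 y0) (rp 0) ≠ 1) ∧ (chiT chevD4 (cc f 1 y0) (rp 2) ≠ 1) ∧ (chiT chevD4 (cc f 1 y0) (rp 3) = 1) := by
    rw [b0, b2, b3, NN_one]
    simpa [hone] using hz0
  have hN5 : NN f y0 = y0 * y0 * y0 := by
    unfold NN
    rw [hy0, hy0]
  obtain ⟨c0, c1, c2, c3, c4, c5⟩ := chiA (f := f) y0 (y0 * y0)
  have w5 : (chiT chevD4 (cc f y0 (y0 * y0)) (rp 0) = 1) ∧ (chiT chevD4 (cc f y0 (y0 * y0)) (rp 2) ≠ 1) := by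
    rw [c0, c2, hN5]
    constructor
    · simp
    · have e : y0 * y0 * (y0 * y0) * (y0 * y0 * y0)⁻¹ = y0 := by
        rw [mul_inv_eq_iff_eq_mul]
        ac_rfl
      rw [e]
      exact hz0
  obtain ⟨d0, d1, d2, d3, d4, d5⟩ := chiA (f := f) z0 y0
  have w6 : (chiT chevD4 (cc f z0 y0) (rp 1) ≠ 1) ∧ (chiT chevD4 (cc f z0 y0) (rp 4) = 1) := by
    rw [d1, d4, ← hy0d]
    constructor
    · simpa using hz0
    · simp
  obtain ⟨e0, e1, e2, e3, e4, e5⟩ := chiA (f := f) z0 1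
  have w7 : (chiT chevD4 (cc f z0 1) (rp 1) ≠ 1) ∧ (chiT chevD4 (cc f z0 1) (rp 4) ≠ 1) ∧ (chiT chevD4 (cc f z0 1) (rp 5) = 1) := by
    rw [e1, e4, e5, ← hy0d]
    simpa using hz0
  have huu : unitsF f (y0 * y0) = y0 * y0 := by rw [map_mul, hy0]
  intro k s hks hs
  have hk6 : k < 6 := by omega
  obtain ⟨w30, w31, w32, w33, w34, w35⟩ := w3
  interval_cases k <;> interval_cases s
  · exact wit_r hf3 z3 hone (by decide) (by decide) w31 w30
  · exact wit_l hf3 y0 huu (by decide) (by decide) w5.1 w5.2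
  · exact wit_r hf3 1 hy0 (by decide) (by decide) w1.2.2 w1.1
  · exact wit_r hf3 z3 hone (by decide) (by decide) w34 w30
  · exact wit_r hf3 z3 hone (by decide) (by decide) w35 w30
  · exact wit_l hf3 z3 hone (by decide) (by decide) w31 w32
  · exact wit_l hf3 z3 hone (by decide) (by decide) w31 w33
  · exact wit_r hf3 z0 hy0 (by decide) (by decide) w6.2 w6.1
  · exact wit_r hf3 z0 hone (by decide) (by decide) w7.2.2 w7.1
  · exact wit_r hf3 1 hy0 (by decide) (by decide) w1.2.2 w1.2.1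
  · exact wit_r hf3 z3 hone (by decide) (by decide) w34 w32
  · exact wit_r hf3 z3 hone (by decide) (by decide) w35 w32
  · exact wit_r hf3 z3 hone (by decide) (by decide) w34 w33
  · exact wit_r hf3 z3 hone (by decide) (by decide) w35 w33
  · exact wit_r hf3 z0 hone (by decide) (by decide) w7.2.2 w7.2.1

/-! ### Coxeter relations -/

theorem pow_mem_GT {a b : ℕ} (ha : a < 2) (hb : b < 2) {c : ℕ}
    (hrel : ∀ r, r < chevD4.nroots → (fun s => wAct TabD4.X (J a) (wAct TabD4.X (J b) s))^[c] r = r) :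
    (nn (sc f) (fun a => a) a * nn (sc f) (fun a => a) b) ^ c ∈ GT (sc f).twG := by
  have t := rtab f
  have m1 := t.nn_mono ha
  have m2 := t.nn_mono hb
  set na : ↥(chevD4.monomialSubgroup K) := ⟨_, m1⟩ with hna
  set nb : ↥(chevD4.monomialSubgroup K) := ⟨_, m2⟩ with hnb
  have e1 : ((nn (sc f) (fun a => a) a * nn (sc f) (fun a => a) b) ^ c : ↥(sc f).twG.G1).1 = (((na * nb) ^ c : ↥(chevD4.monomialSubgroup K)) : GL chevD4.Idx K) := by
    simp [hna, hnb]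
  rw [mem_GT, e1]
  apply hF.mem_diagonal_of_rhoN_eq_one
  ext r
  have key : ∀ k : ℕ, ((hF.rhoN K ((na * nb) ^ k) r : Fin chevD4.nroots) : ℕ) = (fun s => wAct TabD4.X (J a) (wAct TabD4.X (J b) s))^[k] r := by
    intro k
    induction k with
    | zero => simp
    | succ k ih =>
      rw [pow_succ', map_mul, map_mul, Perm.mul_apply, Perm.mul_apply, Function.iterate_succ_apply', ← ih]
      show (((hF.rhoN K na) ((hF.rhoN K nb) _) : Fin chevD4.nroots) : ℕ) = _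
      rw [t.rho_nn ha, t.rho_nn hb]
  rw [key, hrel r r.2]
  rfl

theorem brOK_table : ∀ a b : Fin 2, a ≠ b → TSys.brOK (ss TabD4.X J rel rp (fun a => a)) 6 a b (CoxeterMatrix.G₂ a b) = true := by
  decide +kernel

/-! ### The main theorem -/

theorem ker_eq_bot {q : ℕ} (hq : IsPrimePow q) (hq3 : 3 ≤ q) (hK : Fintype.card K = q ^ 3) (hf : ∀ t, f t = t ^ q)
    (hf3 : ∀ t, f^[3] t = t) [Finite Γ] (hσ : IsStemExtension σ) : σ.ker = ⊥ := by
  classical
  have t := rtab f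
  have hE : CE σ := ⟨hσ.1, fun z hz x => by
    have h1 : z ∈ σ.ker := hz
    have h2 := hσ.2.1 h1
    exact (Subgroup.mem_center_iff.1 h2 x).symm⟩
  obtain ⟨φ0, P0⟩ := Cfsg.Agent.Lib.TwStem.SCOK.exists_classHom (sc f) (i := 0) (by decide)
  obtain ⟨φ1, P1⟩ := Cfsg.Agent.Lib.TwStem.SCOK.exists_classHom (sc f) (i := 1) (by decide)
  have hgood := good_all hE (good0 hE hq hK hf hf3 P0) (good5 hE hq hq3 hK hf hf3)
  have hcl : ∀ a < 2, ∃ φ : SL2 ↥(Sb f (dd a)) →* GL chevD4.Idx K, ClassHom (sc f) a φ ∧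
      ∀ c : ↥(Sb f (dd a)), c ≠ 0 → φ (wd c * wd (-1)) = 1 → c = 1 := by
    intro a ha
    interval_cases a
    · exact ⟨φ0, P0, hker0 hf3 P0⟩
    · exact ⟨φ1, P1, hker1 hf3 P1⟩
  obtain ⟨nh, S⟩ := t.exists_tsys hE hgood (wit_all hq hq3 hK hf hf3) hcl
  have : Finite (CoxeterMatrix.G₂).Group := Cfsg.Agent.Lib.CoxG2.main.1
  obtain ⟨Φ, hΦ1, hΦ2⟩ := exists_phi (sc f) CoxeterMatrix.G₂ repG (by decide +kernel) hrelG (by
      intro i hi
      have hi' : i < 4 := hi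
      interval_cases i
      · exact ⟨0, rfl⟩
      · exact ⟨1, rfl⟩
      · exact ⟨0, by decide +kernel⟩
      · exact ⟨0, by decide +kernel⟩) TwWD4.gen_inv TwWD4.gm_ok TwWD4.w_ok (by
      rw [Cfsg.Agent.Lib.CoxG2.main.2.1]
      decide +kernel)
  refine S.ker_eq_bot hσ CoxeterMatrix.G₂ Φ (fun t ht => hΦ1 t ht) ?_ ?_ ?_
  · intro a
    have e : (⟨nn (sc f) (fun a => a) a, S.n_mem a a.2⟩ : ↥(GN (sc f).twG)) =
        ⟨⟨((sc f).twG.nC (repG a)).1, (sc f).twG.nC_mem _ (by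
          have := a.2
          show a.1 < 4
          omega)⟩, mem_GN.2 ((sc f).twG.nC (repG a)).2⟩ :=
      Subtype.ext (Subtype.ext (t.nn_val a.2))
    rw [e]
    exact hΦ2 a
  · intro a b
    by_cases hab : a = b
    · subst hab
      rw [CoxeterMatrix.diagonal, pow_one]
      exact S.TL_le_Tt a.2 (S.nh_sq a.2)
    · refine S.hbr_of a.2 b.2 (brOK_table a b hab) ?_
      exact pow_mem_GT a.2 b.2 (hrelG a b)
  · -- the lifted torus
    intro x hx e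
    have hrk0 := t.rank1 hE (a := 0) (by decide) (hgood 0 (by decide)) (hgood 6 (by decide)) P0 (hker0 hf3 P0)
    have hrk1 := t.rank1 hE (a := 1) (by decide) (hgood 1 (by decide)) (hgood 7 (by decide)) P1 (hker1 hf3 P1)
    obtain ⟨-, -, -, -, -, r0⟩ := hrk0
    obtain ⟨-, -, -, -, -, r1⟩ := hrk1
    have key : ∃ t0 ∈ TL σ (GT (sc f).twG) (RTab.VV (sc f) rel σ) 6 0, ∃ t1 ∈ TL σ (GT (sc f).twG) (RTab.VV (sc f) rel σ) 6 1, x = t0 * t1 := by
      clear e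
      unfold Tt at hx
      induction hx using Subgroup.closure_induction with
      | mem y hy =>
        obtain ⟨i, hi, hy⟩ := hy
        interval_cases i
        · exact ⟨y, hy, 1, Subgroup.one_mem _, by simp⟩
        · exact ⟨1, Subgroup.one_mem _, y, hy, by simp⟩
      | one => exact ⟨1, Subgroup.one_mem _, 1, Subgroup.one_mem _, by simp⟩
      | mul a b _ _ ha hb =>
        obtain ⟨a0, ha0, a1, ha1, rfl⟩ := ha
        obtain ⟨b0, hb0, b1, hb1, rfl⟩ := hb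
        refine ⟨a0 * b0, Subgroup.mul_mem _ ha0 hb0, a1 * b1, Subgroup.mul_mem _ ha1 hb1, ?_⟩
        have e1 := S.TL_comm (by decide : 1 < 2) (by decide : 0 < 2) ha1 hb0
        calc a0 * a1 * (b0 * b1) = a0 * (a1 * b0) * b1 := by group
          _ = a0 * (b0 * a1) * b1 := by rw [e1]
          _ = _ := by group
      | inv a _ ha =>
        obtain ⟨a0, ha0, a1, ha1, rfl⟩ := ha
        refine ⟨a0⁻¹, Subgroup.inv_mem _ ha0, a1⁻¹, Subgroup.inv_mem _ ha1, ?_⟩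
        have e1 := S.TL_comm (by decide : 1 < 2) (by decide : 0 < 2) (Subgroup.inv_mem _ ha1) (Subgroup.inv_mem _ ha0)
        rw [mul_inv_rev, e1]
    obtain ⟨t0, ht0, t1, ht1, rfl⟩ := key
    obtain ⟨c0, hc0, e0⟩ := r0 t0 ht0
    obtain ⟨c1, hc1, e1⟩ := r1 t1 ht1
    have e0' : ((σ t0 : ↥(sc f).twG.G1) : GL chevD4.Idx K) = tor RootD4T.R chevD4 (cc f (uS c0 hc0) 1) := by
      rw [e0]
      exact D_class0 hf3 P0 c0 hc0
    have e1' : ((σ t1 : ↥(sc f).twG.G1) : GL chevD4.Idx K) = tor RootD4T.R chevD4 (cc f 1 (uS c1 hc1)) := by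
      rw [e1]
      exact D_class1 P1 c1 hc1
    have hmul : cc f (uS c0 hc0) 1 * cc f 1 (uS c1 hc1) = cc f (uS c0 hc0) (uS c1 hc1) := by
      funext j
      revert j
      refine fin4_cases ?_ ?_ ?_ ?_ <;> simp [cc]
    have e2 : tor RootD4T.R chevD4 (cc f (uS c0 hc0) (uS c1 hc1)) = (1 : GL chevD4.Idx K) := by
      rw [← hmul, ← tor_mul, ← e0', ← e1']
      have := congrArg Subtype.val e
      rw [map_mul] at this
      exact this
    obtain ⟨u0, u1⟩ := cc_one hf3 (uS_fix hc1) e2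
    have s0 : σ t0 = 1 := by
      apply Subtype.ext
      rw [e0', u0]
      show tor RootD4T.R chevD4 (cc f 1 1) = 1
      have : cc f (1 : Kˣ) (1 : Kˣ) = 1 := by
        funext j
        revert j
        refine fin4_cases ?_ ?_ ?_ ?_ <;> simp [cc]
      rw [this, tor_one]
    have s1 : σ t1 = 1 := by
      rw [map_mul, s0, one_mul] at e
      exact e
    rw [S.inj_L 0 (by decide) t0 ht0.1 s0, S.inj_L 1 (by decide) t1 ht1.1 s1, one_mul]

/-- The main theorem for `q ≥ 3`. -/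
theorem main_q3 {q : ℕ} (hq : IsPrimePow q) (hq3 : 3 ≤ q) (hK : Fintype.card K = q ^ 3) :
    HasCyclicSchurMultiplier ↥(twistedD4 K q) 1 := by
  obtain ⟨f, hf, hf3⟩ := exists_frob3 hq hK
  rw [← G1_eq f hf hf3]
  show HasCyclicSchurMultiplier ↥(sc f).twG.G1 1
  apply Cfsg.Agent.Lib.ChevStem.multiplier_one
  intro Γ _ _ σ hσ
  exact ker_eq_bot hq hq3 hK hf hf3 hσ

end Cfsg.Agent.Lib.TwStem.D4
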