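import Cfsg.Agent.Lib.TwStem.Asm3
import Cfsg.Agent.Lib.Chev.TwD4BN
import Cfsg.Agent.Lib.Chev.TwD4P

/-!
# The relative root system of `³D₄`
-/

set_option autoImplicit false
set_option linter.unusedSectionVars false
set_option linter.unusedVariables false

namespace Cfsg.Agent.Lib.TwStem.D4

open Cfsg Cfsg.Lie Cfsg.Agent.Lib.Chev Cfsg.Agent.Lib.Chev.TwD4 Equiv

/-- The relative root of a root. -/
def rel (r : ℕ) : ℕ := [11, 10, 9, 9, 8, 6, 9, 8, 8, 7, 6, 6, 0, 0, 1, 2, 2, 3, 0, 2, 3, 3, 4, 5].getD r 0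

/-- A representative of a relative root. -/
def rp (r : ℕ) : ℕ := [18, 14, 19, 21, 22, 23, 5, 9, 4, 2, 1, 0].getD r 0

variable {K : Type*} [Field K] [Fintype K] (f : K ≃+* K)

theorem rho_val (r : Fin chevD4.nroots) : (((τ f).ρ r : Fin chevD4.nroots) : ℕ) = TwTabD4.S.r r := rfl

theorem rho_pow_val (k : ℕ) (r : Fin chevD4.nroots) : ((((τ f).ρ ^ k) r : Fin chevD4.nroots) : ℕ) = TwTabD4.S.r^[k] r := by
  induction k with
  | zero => rfl
  | succ k ih =>
    rw [pow_succ', Perm.mul_apply, Function.iterate_succ_apply', rho_val, ih]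

theorem orb_table : ∀ r < chevD4.nroots, ∀ r' < chevD4.nroots, rel r = rel r' →
    r' = r ∨ r' = TwTabD4.S.r r ∨ r' = TwTabD4.S.r (TwTabD4.S.r r) := by decide +kernel

set_option synthInstance.maxSize 10000 in
set_option synthInstance.maxHeartbeats 2000000 in
theorem relT : RelT (τ f) rel 6 where
  lt := by decide +kernel
  pos := by decide +kernel
  neg := by decide +kernel
  rho := by
    have h : ∀ r < chevD4.nroots, rel (TwTabD4.S.r r) = rel r := by decide +kernel
    exact fun r => h r r.2
  orb := by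
    intro r r' e
    rcases orb_table r r.2 r' r'.2 e with h | h | h
    · exact ⟨0, Fin.ext h.symm⟩
    · exact ⟨1, Fin.ext (by rw [rho_pow_val]; exact h.symm)⟩
    · exact ⟨2, Fin.ext (by rw [rho_pow_val]; exact h.symm)⟩
  comm1 := by decide +kernel
  comm2 := by decide +kernel

theorem rtab : RTab (sc f) rel rp 2 6 (fun a => a) where
  R := relT f
  lm := by decide
  rp_lt := by decide +kernel
  rp_rel := by decide +kernel
  B_lt := by decide +kernel
  cl_pos := by
    have h1 : ∀ a < 2, ∀ r < chevD4.nroots, rel r = a → r ∈ (J a).map chevD4.simple := by decide +kernel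
    have h2 : ∀ a < 2, ∀ r ∈ (J a).map chevD4.simple, r < chevD4.nroots ∧ rel r = a := by decide +kernel
    intro a ha r
    exact ⟨fun h => h1 a ha r h.1 h.2, h2 a ha r⟩
  cls := by decide +kernel
  swap1 := by decide +kernel
  swap2 := by decide +kernel
  pos := by decide +kernel

end Cfsg.Agent.Lib.TwStem.D4
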