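import Cfsg.Agent.Lib.TwStem.D4Tab
import Cfsg.Agent.Lib.TwStem.Tor

/-!
# The torus of `³D₄`
-/

set_option autoImplicit false
set_option linter.unusedSectionVars false
set_option linter.unusedVariables false

namespace Cfsg.Agent.Lib.TwStem.D4

open Cfsg Cfsg.Lie Cfsg.Agent.Lib.Chev Cfsg.Agent.Lib.Chev.TwD4 Equiv

variable {K : Type*} [Field K] [Fintype K] (f : K ≃+* K)

/-- The torus elements. -/
noncomputable def cc (z y : Kˣ) : Fin chevD4.rank → Kˣ := fun j =>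
  if (j : ℕ) = 0 then z else if (j : ℕ) = 1 then y else if (j : ℕ) = 2 then unitsF f z else unitsF f (unitsF f z)

variable {f}

theorem cc_fixed (hf3 : ∀ t, f^[3] t = t) (z : Kˣ) {y : Kˣ} (hy : unitsF f y = y) : (sc f).FTh (cc f z y) = cc f z y := by
  rw [fixed_iff]
  refine ⟨?_, ?_, ?_, ?_⟩
  · simp [cc]
  · simp [cc, hy]
  · simp [cc]
  · simp [cc, unitsF3 hf3]

theorem cc_mem (hf3 : ∀ t, f^[3] t = t) (z : Kˣ) {y : Kˣ} (hy : unitsF f y = y) : tor RootD4T.R chevD4 (cc f z y) ∈ (sc f).twG.G1 :=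
  hmem f _ (cc_fixed hf3 z hy)

theorem chi_expand (c : Fin chevD4.rank → Kˣ) (s : ℕ) : chiT chevD4 c s =
    c ⟨0, by decide⟩ ^ chevD4.cartan 0 s * c ⟨1, by decide⟩ ^ chevD4.cartan 1 s *
      c ⟨2, by decide⟩ ^ chevD4.cartan 2 s * c ⟨3, by decide⟩ ^ chevD4.cartan 3 s :=
  Fin.prod_univ_four (fun i : Fin 4 => c i ^ chevD4.cartan i s)

theorem chi_cc (z y : Kˣ) (s : ℕ) : chiT chevD4 (cc f z y) s =
    z ^ chevD4.cartan 0 s * y ^ chevD4.cartan 1 s * (unitsF f z) ^ chevD4.cartan 2 s * (unitsF f (unitsF f z)) ^ chevD4.cartan 3 s := by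
  rw [chi_expand]
  simp [cc]

theorem cartan_rho : ∀ r < chevD4.nroots, chevD4.cartan 0 (TwTabD4.S.r r) = chevD4.cartan 3 r ∧
    chevD4.cartan 1 (TwTabD4.S.r r) = chevD4.cartan 1 r ∧ chevD4.cartan 2 (TwTabD4.S.r r) = chevD4.cartan 0 r ∧
    chevD4.cartan 3 (TwTabD4.S.r r) = chevD4.cartan 2 r := by decide +kernel

theorem chi_rho (hf3 : ∀ t, f^[3] t = t) (z : Kˣ) {y : Kˣ} (hy : unitsF f y = y) {r : ℕ} (hr : r < chevD4.nroots) :
    chiT chevD4 (cc f z y) (TwTabD4.S.r r) = unitsF f (chiT chevD4 (cc f z y) r) := by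
  obtain ⟨h0, h1, h2, h3⟩ := cartan_rho r hr
  rw [chi_cc, chi_cc, h0, h1, h2, h3]
  simp only [map_mul, map_zpow, hy, unitsF3 hf3]
  ac_rfl

theorem cartan_reps :
    (chevD4.cartan 0 18 = 2 ∧ chevD4.cartan 1 18 = -1 ∧ chevD4.cartan 2 18 = 0 ∧ chevD4.cartan 3 18 = 0) ∧
    (chevD4.cartan 0 14 = -1 ∧ chevD4.cartan 1 14 = 2 ∧ chevD4.cartan 2 14 = -1 ∧ chevD4.cartan 3 14 = -1) ∧
    (chevD4.cartan 0 19 = 1 ∧ chevD4.cartan 1 19 = 1 ∧ chevD4.cartan 2 19 = -1 ∧ chevD4.cartan 3 19 = -1) ∧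
    (chevD4.cartan 0 21 = 1 ∧ chevD4.cartan 1 21 = 0 ∧ chevD4.cartan 2 21 = 1 ∧ chevD4.cartan 3 21 = -1) ∧
    (chevD4.cartan 0 22 = 1 ∧ chevD4.cartan 1 22 = -1 ∧ chevD4.cartan 2 22 = 1 ∧ chevD4.cartan 3 22 = 1) ∧
    (chevD4.cartan 0 23 = 0 ∧ chevD4.cartan 1 23 = 1 ∧ chevD4.cartan 2 23 = 0 ∧ chevD4.cartan 3 23 = 0) := by
  decide +kernel

theorem chi0 (z y : Kˣ) : chiT chevD4 (cc f z y) 18 = z * z * y⁻¹ := by
  obtain ⟨⟨a, b, c, d⟩, -⟩ := cartan_reps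
  rw [chi_cc, a, b, c, d]
  simp [zpow_ofNat, sq]

theorem chi1 (z y : Kˣ) : chiT chevD4 (cc f z y) 14 = y * y * (z * unitsF f z * unitsF f (unitsF f z))⁻¹ := by
  obtain ⟨-, ⟨a, b, c, d⟩, -⟩ := cartan_reps
  rw [chi_cc, a, b, c, d]
  simp only [zpow_neg, zpow_one, zpow_ofNat, sq, mul_inv, pow_one]
  ac_rfl

theorem chi2 (z y : Kˣ) : chiT chevD4 (cc f z y) 19 = z * y * (unitsF f z * unitsF f (unitsF f z))⁻¹ := by
  obtain ⟨-, -, ⟨a, b, c, d⟩, -⟩ := cartan_reps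
  rw [chi_cc, a, b, c, d]
  simp only [zpow_neg, zpow_one, zpow_zero, mul_one, one_mul, mul_inv]
  ac_rfl

theorem chi3 (z y : Kˣ) : chiT chevD4 (cc f z y) 21 = z * unitsF f z * (unitsF f (unitsF f z))⁻¹ := by
  obtain ⟨-, -, -, ⟨a, b, c, d⟩, -⟩ := cartan_reps
  rw [chi_cc, a, b, c, d]
  simp

theorem chi4 (z y : Kˣ) : chiT chevD4 (cc f z y) 22 = z * unitsF f z * unitsF f (unitsF f z) * y⁻¹ := by
  obtain ⟨-, -, -, -, ⟨a, b, c, d⟩, -⟩ := cartan_reps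
  rw [chi_cc, a, b, c, d]
  simp only [zpow_neg, zpow_one, zpow_zero, mul_one, one_mul, mul_inv]
  ac_rfl

theorem chi5 (z y : Kˣ) : chiT chevD4 (cc f z y) 23 = y := by
  obtain ⟨-, -, -, -, -, a, b, c, d⟩ := cartan_reps
  rw [chi_cc, a, b, c, d]
  simp

/-- All the roots of a relative root. -/
theorem rel_cases : ∀ j < 6, ∀ q < chevD4.nroots, rel q = j →
    q = rp j ∨ q = TwTabD4.S.r (rp j) ∨ q = TwTabD4.S.r (TwTabD4.S.r (rp j)) := by decide +kernel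

theorem rp_lt_table : ∀ j < 6, rp j < chevD4.nroots ∧ TwTabD4.S.r (rp j) < chevD4.nroots := by decide +kernel

theorem chi_fix (hf3 : ∀ t, f^[3] t = t) (z : Kˣ) {y : Kˣ} (hy : unitsF f y = y) {j : ℕ} (hj : j < 6)
    (h1 : chiT chevD4 (cc f z y) (rp j) = 1) : ∀ q < chevD4.nroots, rel q = j → chiT chevD4 (cc f z y) q = 1 := by
  intro q hq e
  obtain ⟨l1, l2⟩ := rp_lt_table j hj
  rcases rel_cases j hj q hq e with rfl | rfl | rfl
  · exact h1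
  · rw [chi_rho hf3 z hy l1, h1, map_one]
  · rw [chi_rho hf3 z hy l2, chi_rho hf3 z hy l1, h1, map_one, map_one]

theorem unitsF_ne {u : Kˣ} (hu : u ≠ 1) : unitsF f u ≠ 1 := by
  intro e
  apply hu
  apply Units.ext
  have h1 : f (u : K) = 1 := congrArg Units.val e
  have h2 : f (u : K) = f 1 := by rw [h1, map_one]
  exact f.injective h2

theorem chi_ne (hf3 : ∀ t, f^[3] t = t) (z : Kˣ) {y : Kˣ} (hy : unitsF f y = y) {j : ℕ} (hj : j < 6)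
    (h1 : chiT chevD4 (cc f z y) (rp j) ≠ 1) : ∀ q < chevD4.nroots, rel q = j → chiT chevD4 (cc f z y) q ≠ 1 := by
  intro q hq e
  obtain ⟨l1, l2⟩ := rp_lt_table j hj
  rcases rel_cases j hj q hq e with rfl | rfl | rfl
  · exact h1
  · rw [chi_rho hf3 z hy l1]
    exact unitsF_ne h1
  · rw [chi_rho hf3 z hy l2, chi_rho hf3 z hy l1]
    exact unitsF_ne (unitsF_ne h1)

theorem rtab' (f : K ≃+* K) : RTab (sc f) rel rp 2 6 (fun a => a) := rtab f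

/-- Witnesses from the torus. -/
theorem wit_l (hf3 : ∀ t, f^[3] t = t) (z : Kˣ) {y : Kˣ} (hy : unitsF f y = y) {k s : ℕ} (hk : k < 6) (hs : s < 6)
    (h1 : chiT chevD4 (cc f z y) (rp k) = 1) (h2 : chiT chevD4 (cc f z y) (rp s) ≠ 1) : Wit (sc f) rel k s :=
  (rtab f).wit_l (cc_mem hf3 z hy) hk hs (chi_fix hf3 z hy hk h1) (chi_ne hf3 z hy hs h2)

theorem wit_r (hf3 : ∀ t, f^[3] t = t) (z : Kˣ) {y : Kˣ} (hy : unitsF f y = y) {k s : ℕ} (hk : k < 6) (hs : s < 6)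
    (h1 : chiT chevD4 (cc f z y) (rp s) = 1) (h2 : chiT chevD4 (cc f z y) (rp k) ≠ 1) : Wit (sc f) rel k s :=
  (rtab f).wit_r (cc_mem hf3 z hy) hk hs (chi_fix hf3 z hy hs h1) (chi_ne hf3 z hy hk h2)

end Cfsg.Agent.Lib.TwStem.D4
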