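import Cfsg.Agent.Lib.TwStem.D4Main
import Cfsg.Agent.Lib.TwStem.AsmV

/-!
# `³D₄(2)`: facts about the group
-/

set_option autoImplicit false
set_option linter.unusedSectionVars false
set_option linter.unusedVariables false

namespace Cfsg.Agent.Lib.TwStem.D4

open scoped commutatorElement
open Cfsg Cfsg.Lie Cfsg.Agent.Lib.Chev Cfsg.Agent.Lib.Chev.TwD4 Equiv
open Cfsg.Agent.Lib.SL2Core Cfsg.Agent.Lib.SL2Bor Cfsg.Agent.Lib.StK Cfsg.Agent.Lib.ChevLift Cfsg.Agent.Lib.ChevLift.RD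

variable {K : Type*} [Field K] [Fintype K] {f : K ≃+* K}

/-! ### Characteristic two -/

theorem neg_two (h2 : (2 : K) = 0) (a : K) : -a = a := by
  linear_combination (-a) * h2

theorem two_of_frob (hf : ∀ t, f t = t ^ 2) : (2 : K) = 0 := by
  have h1 : f (1 + 1) = (1 + 1) ^ 2 := hf _
  rw [map_add, map_one] at h1
  have h3 : (1 + 1 : K) * ((1 + 1) - 1) = 0 := by linear_combination -h1
  rcases mul_eq_zero.1 h3 with h | h
  · linear_combination h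
  · exact absurd (by linear_combination h) (one_ne_zero (α := K))

theorem fix_cases (hf : ∀ t, f t = t ^ 2) {w : K} (h : f w = w) : w = 0 ∨ w = 1 := by
  rw [hf] at h
  have h3 : w * (w - 1) = 0 := by linear_combination h
  rcases mul_eq_zero.1 h3 with h | h
  · exact Or.inl h
  · exact Or.inr (sub_eq_zero.1 h)

theorem g_sign : ∀ r < chevD4.nroots, Trie.find (Int.ofNat 1) TwTabD4.g r = 1 ∨ Trie.find (Int.ofNat 1) TwTabD4.g r = -1 := by
  decide +kernel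

theorem s_two (h2 : (2 : K) = 0) {r : ℕ} (hr : r < chevD4.nroots) (t : K) :
    (τ f).s (hF.c.xG r t) = hF.c.xG (TwTabD4.S.r r) (f t) := by
  rw [TwTabD4.ok.signTw_s hF TwTabD4.sign_ok TwTabD4.sq_ok TwTabD4.unit_ok TwTabD4.neg_ok f hr]
  rcases g_sign r hr with e | e <;> rw [e]
  · simp
  · simp [neg_two h2]

/-! ### The elements of the short root groups -/

/-- The elements of the short root groups. -/
noncomputable def EE (f : K ≃+* K) (r : ℕ) (t : K) : GL chevD4.Idx K := hF.c.wordG (cw TwTabD4.S.r f r 3 t)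

theorem orb_tab : ∀ r ∈ [18, 19, 21], TwTabD4.S.r^[3] r = r ∧ (∀ q ∈ rsOf TwTabD4.S.r r 3, RootD4T.R.N ≤ q ∧ q < chevD4.nroots) ∧
    (rsOf TwTabD4.S.r r 3).Nodup ∧ (∀ q ∈ rsOf TwTabD4.S.r r 3, ∀ s ∈ rsOf TwTabD4.S.r r 3, s ≠ q → s ≠ chevD4.neg q ∧ chevD4.commTerms q s = []) ∧
    (∀ q < chevD4.nroots, rel q = rel r → q ∈ rsOf TwTabD4.S.r r 3) ∧ (∀ q ∈ rsOf TwTabD4.S.r r 3, rel q = rel r) ∧ rel r < 6 := by
  decide +kernel

theorem EE_fixed (h2 : (2 : K) = 0) (hf3 : ∀ t, f^[3] t = t) {r : ℕ} (hr : r ∈ [18, 19, 21]) (t : K) :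
    (τ f).s (EE f r t) = EE f r t := by
  obtain ⟨h1, h3, h4, h5, -, -, -⟩ := orb_tab r hr
  exact (τ f).cw_fixed f h1 (fun q hq => (h3 q hq).2) (hF.commL_of_nil (fun q hq => (h3 q hq).2) h5)
    (fun q hq a => s_two h2 (h3 q hq).2 a) (hf3 t)

theorem EE_mem (h2 : (2 : K) = 0) (hf3 : ∀ t, f^[3] t = t) {r : ℕ} (hr : r ∈ [18, 19, 21]) (t : K) :
    ∃ hm : EE f r t ∈ (sc f).twG.G1, (⟨_, hm⟩ : ↥(sc f).twG.G1) ∈ GX (sc f).twG rel (rel r) := by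
  obtain ⟨-, h3, -, -, -, h6, h7⟩ := orb_tab r hr
  have h8 : EE f r t ∈ RO chevD4 K rel (rel r) := by
    apply hF.c.wordG_mem
    intro p hp
    simp only [cw, List.mem_map] at hp
    obtain ⟨k, hk, rfl⟩ := hp
    have hk' := mem_rsOf (ρ' := TwTabD4.S.r) (r₀ := r) (List.mem_range.1 hk)
    exact hF.xG_mem_rootClosure ⟨(h3 _ hk').2, h6 _ hk'⟩ _
  have h9 : EE f r t ∈ XF (τ f) rel (rel r) := ⟨⟨(relT f).O_group h8, EE_fixed h2 hf3 hr t⟩, h8⟩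
  exact ⟨XF_le (A := (sc f).twG) (relT f) h7 h9, mem_GX.2 ⟨h9.1, h9.2⟩⟩

theorem EE_form (h2 : (2 : K) = 0) {r : ℕ} (hr : r ∈ [18, 19, 21]) {x : ↥(sc f).twG.G1} (hx : x ∈ GX (sc f).twG rel (rel r)) :
    ∃ t : K, x.1 = EE f r t := by
  obtain ⟨h1, h3, h4, h5, h6, h7, -⟩ := orb_tab r hr
  obtain ⟨h8, h9⟩ := mem_GX.1 hx
  obtain ⟨t, -, e⟩ := (τ f).of_fixed f (d := 3) (by decide) h1 h3 h4 (hF.commL_of_nil (fun q hq => (h3 q hq).2) h5)
    (fun q hq a => s_two h2 (h3 q hq).2 a) (Q := fun s => s < chevD4.nroots ∧ rel s = rel r)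
    (fun q => ⟨fun hq => h6 q hq.1 hq.2, fun hq => ⟨(h3 q hq).2, h7 q hq⟩⟩) h9 h8.2
  exact ⟨t, e⟩

/-! ### The long root groups -/

/-- The long roots. -/
def LR : List ℕ := [0, 1, 9, 14, 22, 23]

theorem LR_tab : ∀ q ∈ LR, q < chevD4.nroots ∧ TwTabD4.S.r q = q ∧ (∀ s < chevD4.nroots, rel s = rel q → s = q) := by decide +kernel

theorem long_form (h2 : (2 : K) = 0) (hf : ∀ t, f t = t ^ 2) {q : ℕ} (hq : q ∈ LR) {x : ↥(sc f).twG.G1} (hx : x ∈ GX (sc f).twG rel (rel q)) :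
    x = 1 ∨ x.1 = hF.c.xG q 1 := by
  obtain ⟨h1, h3, h4⟩ := LR_tab q hq
  obtain ⟨h5, h6⟩ := mem_GX.1 hx
  obtain ⟨u, hu⟩ := hF.exists_wL_of_mem (L := [q]) (Q := fun s => s < chevD4.nroots ∧ rel s = rel q)
    (hF.commL_of_nil (fun s hs => by
      rw [List.mem_singleton] at hs
      rw [hs]
      exact h1) (fun r hr s hs hne => by
      rw [List.mem_singleton] at hr hs
      exact absurd (hs.trans hr.symm) hne)) (List.nodup_singleton q) (fun s => ⟨fun hs => List.mem_singleton.2 (h4 s hs.1 hs.2), fun hs => by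
      rw [List.mem_singleton] at hs
      rw [hs]
      exact ⟨h1, rfl⟩⟩) h6
  have e : hF.wL [q] u = hF.c.xG q (u q) := by
    rw [Full.wL_cons, Full.wL_nil, mul_one]
  rw [e] at hu
  have h7 := h5.2
  rw [hu, s_two h2 h1, h3] at h7
  have h8 : f (u q) = u q := hF.xG_param_inj h1 h7
  rcases fix_cases hf h8 with h9 | h9
  · left
    apply Subtype.ext
    rw [hu, h9]
    simp
  · right
    rw [hu, h9]

set_option synthInstance.maxSize 10000 in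
set_option synthInstance.maxHeartbeats 2000000 in
/-- The commutator of two long roots. -/
theorem long_tab : ∀ q₁ ∈ LR, ∀ q₂ ∈ LR, q₂ ≠ q₁ → q₂ ≠ chevD4.neg q₁ →
    chevD4.commTerms q₁ q₂ = [] ∨ ∃ k ∈ LR, ∃ c ∈ ([1, -1] : List ℤ), chevD4.commTerms q₁ q₂ = [(k, c, 1, 1)] ∧
      (k ≠ q₁ ∧ k ≠ chevD4.neg q₁ ∧ chevD4.commTerms q₁ k = []) ∧ (k ≠ q₂ ∧ k ≠ chevD4.neg q₂ ∧ chevD4.commTerms q₂ k = []) ∧
      (k = 23 → (q₁ = 14 ∧ q₂ = 22) ∨ (q₁ = 22 ∧ q₂ = 14)) := by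
  decide +kernel

theorem comm_long (h2 : (2 : K) = 0) {q₁ q₂ : ℕ} (h1 : q₁ ∈ LR) (h3 : q₂ ∈ LR) (h4 : q₂ ≠ q₁) (h5 : q₂ ≠ chevD4.neg q₁) :
    ⁅hF.c.xG q₂ (1 : K), hF.c.xG q₁ (1 : K)⁆ = 1 ∨ ∃ k ∈ LR, ⁅hF.c.xG q₂ (1 : K), hF.c.xG q₁ (1 : K)⁆ = hF.c.xG k (1 : K) ∧
      (k = 23 → (q₁ = 14 ∧ q₂ = 22) ∨ (q₁ = 22 ∧ q₂ = 14)) := by
  have l1 := (LR_tab q₁ h1).1
  have l2 := (LR_tab q₂ h3).1
  have e0 := hF.xG_comm (F := K) l1 l2 h4 h5 1 1
  rcases long_tab q₁ h1 q₂ h3 h4 h5 with e | ⟨k, hk, c, hc, e, ⟨k1, k2, k3⟩, ⟨k4, k5, k6⟩, k7⟩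
  · left
    have e1 : hF.c.wordG (chevD4.commWord K q₁ q₂ 1 1) = 1 := by
      unfold ChevalleyDatum.commWord
      rw [e]
      simp [Checks.wordG_nil]
    rw [e1, mul_one] at e0
    rw [commutatorElement_def, e0]
    group
  · right
    refine ⟨k, hk, ?_, k7⟩
    have l3 := (LR_tab k hk).1
    have e2 : hF.c.wordG (chevD4.commWord K q₁ q₂ 1 1) = hF.c.xG k (1 : K) := by
      unfold ChevalleyDatum.commWord
      rw [e]
      have e3 : ((c : ℤ) : K) = 1 := by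
        simp only [List.mem_cons, List.not_mem_nil, or_false] at hc
        rcases hc with rfl | rfl
        · simp
        · simp [neg_two h2]
      simp [Checks.wordG_cons, Checks.wordG_nil, e3, neg_two h2]
    rw [e2] at e0
    have c1 : Commute (hF.c.xG q₁ (1 : K)) (hF.c.xG k (1 : K)) := Full.xG_commute_of_nil (hF := hF) l1 l3 k1 k2 k3 _ _
    have c2 : Commute (hF.c.xG q₂ (1 : K)) (hF.c.xG k (1 : K)) := Full.xG_commute_of_nil (hF := hF) l2 l3 k4 k5 k6 _ _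
    rw [commutatorElement_def, e0]
    generalize hF.c.xG q₁ (1 : K) = A at c1 ⊢
    generalize hF.c.xG q₂ (1 : K) = B at c2 ⊢
    generalize hF.c.xG k (1 : K) = C at c1 c2 ⊢
    calc A * B * C * B⁻¹ * A⁻¹ = A * (B * (C * B⁻¹)) * A⁻¹ := by group
      _ = A * (B * (B⁻¹ * C)) * A⁻¹ := by rw [c2.symm.inv_right.eq]
      _ = A * C * A⁻¹ := by group
      _ = C * A * A⁻¹ := by rw [c1.eq]
      _ = C := by group

/-! ### Disjointness -/

theorem RO_pos_neg (f : K ≃+* K) {j j' : ℕ} (hj : j < 6) (hj' : 6 ≤ j') {g : GL chevD4.Idx K} (h1 : g ∈ RO chevD4 K rel j) (h2 : g ∈ RO chevD4 K rel j') :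
    g = 1 := by
  have h3 : g ∈ chevD4.posUnipotent K := (relT f).O_le_U hj h1
  have h4 : g ∈ chevD4.negUnipotent K := by
    unfold RO Full.rootClosure at h2
    unfold ChevalleyDatum.negUnipotent
    refine Subgroup.closure_mono ?_ h2
    rintro x ⟨s, t, ⟨h5, h6⟩, e⟩
    refine ⟨s, t, ?_, e⟩
    refine (hF.isNeg_iff).2 ?_
    by_contra h7
    have h8 := ((relT f).pos s h5).1 (not_lt.1 h7)
    omega
  have h5 : g ∈ chevD4.borelSubgroup K ⊓ chevD4.negUnipotent K := ⟨hF.c.posUnipotent_le_borel h3, h4⟩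
  rw [hF.B_inf_V, Subgroup.mem_bot] at h5
  exact h5

end Cfsg.Agent.Lib.TwStem.D4
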