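import Cfsg.Agent.Lib.TwStem.D4TwoA
import Cfsg.Agent.Lib.TwStem.D4TwoCol

/-!
# `³D₄(2)`: facts about the group, continued
-/

set_option autoImplicit false
set_option linter.unusedSectionVars false
set_option linter.unusedVariables false

namespace Cfsg.Agent.Lib.TwStem.D4

open scoped commutatorElement
open Cfsg Cfsg.Lie Cfsg.Agent.Lib.Chev Cfsg.Agent.Lib.Chev.TwD4 Equiv
open Cfsg.Agent.Lib.SL2Core Cfsg.Agent.Lib.SL2Bor Cfsg.Agent.Lib.StK Cfsg.Agent.Lib.ChevLift Cfsg.Agent.Lib.ChevLift.RD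

variable {K : Type*} [Field K] [Fintype K] {f : K ≃+* K}

theorem r_vals : TwTabD4.S.r 18 = 13 ∧ TwTabD4.S.r 13 = 12 ∧ TwTabD4.S.r 19 = 16 ∧ TwTabD4.S.r 16 = 15 ∧ TwTabD4.S.r 21 = 17 ∧ TwTabD4.S.r 17 = 20 := by
  decide +kernel

theorem EE_18 (t : K) : EE f 18 t = hF.c.xG 18 t * (hF.c.xG 13 (f t) * hF.c.xG 12 (f (f t))) := by
  obtain ⟨h1, h2, -⟩ := r_vals
  show hF.c.wordG ((List.range 3).map fun k => (TwTabD4.S.r^[k] 18, f^[k] t)) = _
  rw [show List.range 3 = [0, 1, 2] from rfl]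
  simp [Checks.wordG_cons, Checks.wordG_nil, h1, h2]

theorem EE_19 (t : K) : EE f 19 t = hF.c.xG 19 t * (hF.c.xG 16 (f t) * hF.c.xG 15 (f (f t))) := by
  obtain ⟨-, -, h1, h2, -⟩ := r_vals
  show hF.c.wordG ((List.range 3).map fun k => (TwTabD4.S.r^[k] 19, f^[k] t)) = _
  rw [show List.range 3 = [0, 1, 2] from rfl]
  simp [Checks.wordG_cons, Checks.wordG_nil, h1, h2]

theorem EE_21 (t : K) : EE f 21 t = hF.c.xG 21 t * (hF.c.xG 17 (f t) * hF.c.xG 20 (f (f t))) := by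
  obtain ⟨-, -, -, -, h1, h2⟩ := r_vals
  show hF.c.wordG ((List.range 3).map fun k => (TwTabD4.S.r^[k] 21, f^[k] t)) = _
  rw [show List.range 3 = [0, 1, 2] from rfl]
  simp [Checks.wordG_cons, Checks.wordG_nil, h1, h2]

theorem EE_add0 (h2 : (2 : K) = 0) (s t : K) : EE f 18 (s + t) = EE f 18 s * EE f 18 t := by
  rw [EE_18, EE_18, EE_18, mul_assoc, mul_assoc, Col2.id_add0 h2]
  simp

theorem EE_add2 (h2 : (2 : K) = 0) (s t : K) : EE f 19 (s + t) = EE f 19 s * EE f 19 t := by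
  rw [EE_19, EE_19, EE_19, mul_assoc, mul_assoc, Col2.id_add2 h2]
  simp

theorem xG_inv_two (h2 : (2 : K) = 0) (r : ℕ) (t : K) : (hF.c.xG r t)⁻¹ = hF.c.xG r t := by
  rw [hF.c.xG_inv, neg_two h2]

/-- Root elements of fixed long roots, for the positive roots. -/
theorem el_one {r j : ℕ} (hr : r ∈ [14, 22, 23]) (hj : rel r = j) :
    ∃ hm : hF.c.xG r (1 : K) ∈ (sc f).twG.G1, (⟨_, hm⟩ : ↥(sc f).twG.G1) ∈ GX (sc f).twG rel j := by
  have h1 : ∀ r ∈ [14, 22, 23], r < chevD4.nroots ∧ TwTabD4.S.r r = r ∧ Trie.find (Int.ofNat 1) TwTabD4.g r = 1 ∧ rel r < 6 := by decide +kernel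
  obtain ⟨a, b, c, d⟩ := h1 r hr
  exact el_mem a b c hj (hj ▸ d) (map_one f)

theorem rel_vals : rel 18 = 0 ∧ rel 14 = 1 ∧ rel 19 = 2 ∧ rel 21 = 3 ∧ rel 22 = 4 ∧ rel 23 = 5 := by decide +kernel

/-- The relation between the short roots and the first long root. -/
theorem I2_gp (h2 : (2 : K) = 0) (hf3 : ∀ t, f^[3] t = t) {x₁ : ↥(sc f).twG.G1} (hx₁ : x₁.1 = hF.c.xG 14 1)
    {y : ↥(sc f).twG.G1} (hy : y ∈ GX (sc f).twG rel 2) :
    ∃ A ∈ GX (sc f).twG rel 0, ∃ Q ∈ UF (GX (sc f).twG rel) 6 3, ⁅A, x₁⁆ = y * Q := by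
  obtain ⟨r0, r1, r2, r3, r4, r5⟩ := rel_vals
  obtain ⟨t, ht⟩ := EE_form (f := f) h2 (r := 19) (by decide) (x := y) (by rw [r2]; exact hy)
  obtain ⟨m0, hA⟩ := EE_mem (f := f) h2 hf3 (r := 18) (by decide) t
  rw [r0] at hA
  obtain ⟨m3, h3⟩ := EE_mem (f := f) h2 hf3 (r := 21) (by decide) (t * f t)
  rw [r3] at h3
  have hN : f (t * (f t * f (f t))) = t * (f t * f (f t)) := by
    have e3 : f (f (f t)) = t := hf3 t
    rw [map_mul, map_mul, e3]
    ring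
  have e4 : rel 22 < 6 := by decide
  have hr22 : (22 : ℕ) < chevD4.nroots := by decide +kernel
  obtain ⟨m4, h4⟩ := el_mem (f := f) (r := 22) (j := 4) hr22 (by decide +kernel) (by decide +kernel) r4 (by decide) hN
  refine ⟨_, hA, _, Subgroup.mul_mem _ (mem_UF (by decide) (by decide) h3) (mem_UF (by decide) (by decide) h4), ?_⟩
  apply Subtype.ext
  show ⁅EE f 18 t, x₁.1⁆ = y.1 * (EE f 21 (t * f t) * hF.c.xG 22 (t * (f t * f (f t))))
  rw [hx₁, ht, commutatorElement_def, EE_18, EE_19, EE_21]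
  have e5 := Col2.id_I2 h2 t (f t) (f (f t))
  have e6 : f (f (t * f t)) = t * f (f t) := by
    have e3 : f (f (f t)) = t := hf3 t
    rw [map_mul, map_mul, e3]
    ring
  rw [e6, map_mul]
  simp only [mul_inv_rev, xG_inv_two h2]
  simp only [mul_assoc] at e5 ⊢
  exact e5

/-- The highest long root element as a commutator of short root elements. -/
theorem I1_gp (h2 : (2 : K) = 0) (hf3 : ∀ t, f^[3] t = t) :
    ∃ a ∈ GX (sc f).twG rel 2, ∃ b ∈ GX (sc f).twG rel 3, (⁅a, b⁆ : ↥(sc f).twG.G1).1 = hF.c.xG 23 1 := by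
  obtain ⟨r0, r1, r2, r3, r4, r5⟩ := rel_vals
  obtain ⟨m0, hA⟩ := EE_mem (f := f) h2 hf3 (r := 19) (by decide) 1
  rw [r2] at hA
  obtain ⟨m3, h3⟩ := EE_mem (f := f) h2 hf3 (r := 21) (by decide) 1
  rw [r3] at h3
  refine ⟨_, hA, _, h3, ?_⟩
  show ⁅EE f 19 1, EE f 21 1⁆ = _
  rw [commutatorElement_def, EE_19, EE_21]
  simp only [map_one, mul_inv_rev, xG_inv_two h2]
  have e5 := Col2.id_I1 h2 (1 : K) 1 1 1 1 1
  have e6 : (1 * 1 + (1 * 1 + 1 * 1) : K) = 1 := by linear_combination h2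
  rw [e6] at e5
  simp only [mul_assoc] at e5 ⊢
  exact e5

/-! ### Commuting root groups -/

theorem comm_closure {Γ : Type*} [Group Γ] {A B : Set Γ} (h : ∀ a ∈ A, ∀ b ∈ B, a * b = b * a) {x y : Γ}
    (hx : x ∈ Subgroup.closure A) (hy : y ∈ Subgroup.closure B) : x * y = y * x := by
  have h1 : ∀ a ∈ A, a * y = y * a := by
    intro a ha
    induction hy using Subgroup.closure_induction with
    | mem b hb => exact h a ha b hb
    | one => simp
    | mul u v _ _ hu hv => rw [← mul_assoc, hu, mul_assoc, hv, mul_assoc]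
    | inv u _ hu =>
      calc a * u⁻¹ = u⁻¹ * (u * a) * u⁻¹ := by group
        _ = u⁻¹ * (a * u) * u⁻¹ := by rw [hu]
        _ = u⁻¹ * a := by group
  induction hx using Subgroup.closure_induction with
  | mem a ha => exact h1 a ha
  | one => simp
  | mul u v _ _ hu hv => rw [mul_assoc, hv, ← mul_assoc, hu, mul_assoc]
  | inv u _ hu =>
    calc u⁻¹ * y = u⁻¹ * (y * u) * u⁻¹ := by group
      _ = u⁻¹ * (u * y) * u⁻¹ := by rw [hu]
      _ = y * u⁻¹ := by group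

theorem comm_tab : ∀ p ∈ ([(0, 4), (0, 5), (1, 2), (1, 3), (2, 4), (2, 5), (3, 4), (3, 5)] : List (ℕ × ℕ)), ∀ r < chevD4.nroots, rel r = p.1 →
    ∀ s < chevD4.nroots, rel s = p.2 → s ≠ r ∧ s ≠ chevD4.neg r ∧ chevD4.commTerms r s = [] := by decide +kernel

/-- Pairs of root groups which commute. -/
theorem X_comm {k s : ℕ} (hp : (k, s) ∈ ([(0, 4), (0, 5), (1, 2), (1, 3), (2, 4), (2, 5), (3, 4), (3, 5)] : List (ℕ × ℕ)))
    {x y : ↥(sc f).twG.G1} (hx : x ∈ GX (sc f).twG rel k) (hy : y ∈ GX (sc f).twG rel s) : x * y = y * x := by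
  apply Subtype.ext
  show x.1 * y.1 = y.1 * x.1
  refine comm_closure ?_ (mem_GX.1 hx).2 (mem_GX.1 hy).2
  rintro a ⟨r, t, ⟨h1, h2⟩, e⟩ b ⟨r', u, ⟨h3, h4⟩, e'⟩
  rw [hF.c.eq_xG e, hF.c.eq_xG e']
  obtain ⟨h5, h6, h7⟩ := comm_tab _ hp r h1 h2 r' h3 h4
  exact Full.xG_commute_of_nil (hF := hF) h1 h3 h5 h6 h7 _ _

/-! ### Words in the Weyl elements -/

/-- A product of Weyl elements. -/
noncomputable def nW (f : K ≃+* K) (L : List ℕ) : ↥(sc f).twG.G1 := (L.map (nn (sc f) fun a => a)).prod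

theorem nW_GN {L : List ℕ} (hL : ∀ i ∈ L, i < 2) : nW f L ∈ GN (sc f).twG := by
  induction L with
  | nil => exact Subgroup.one_mem _
  | cons a L ih =>
    have e : nW f (a :: L) = nn (sc f) (fun a => a) a * nW f L := by
      simp [nW]
    rw [e]
    exact Subgroup.mul_mem _ (mem_GN.2 ((rtab f).nn_mono (hL a List.mem_cons_self))) (ih fun i hi => hL i (List.mem_cons_of_mem _ hi))

theorem act_word {L : List ℕ} (hL : ∀ i ∈ L, i < 2) {r : ℕ} (hr : r < 12) :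
    sL (ss TabD4.X J rel rp fun a => a) L r < 12 ∧ ∀ x ∈ GX (sc f).twG rel r,
      nW f L * x * (nW f L)⁻¹ ∈ GX (sc f).twG rel (sL (ss TabD4.X J rel rp fun a => a) L r) := by
  induction L with
  | nil =>
    refine ⟨hr, fun x hx => ?_⟩
    have e : nW f [] = 1 := rfl
    rw [e]
    simpa [sL] using hx
  | cons a L ih =>
    obtain ⟨h1, h2⟩ := ih fun i hi => hL i (List.mem_cons_of_mem _ hi)
    obtain ⟨h3, h4⟩ := (rtab f).act (hL a List.mem_cons_self) (r := sL (ss TabD4.X J rel rp fun a => a) L r) h1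
    refine ⟨h3, fun x hx => ?_⟩
    have e : nW f (a :: L) = nn (sc f) (fun a => a) a * nW f L := by
      simp [nW]
    have e2 : nW f (a :: L) * x * (nW f (a :: L))⁻¹ = nn (sc f) (fun a => a) a * (nW f L * x * (nW f L)⁻¹) * (nn (sc f) (fun a => a) a)⁻¹ := by
      rw [e]
      group
    rw [e2]
    exact h4 _ (h2 x hx)

theorem w0_table : ∀ r < 12, 6 ≤ r → sL (ss TabD4.X J rel rp fun a => a) [0, 1, 0, 1, 0, 1] r = r - 6 := by decide +kernel

/-- The relative root groups are disjoint. -/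
theorem X_disj {j j' : ℕ} (hj : j < 12) (hj' : j' < 12) (hne : j ≠ j') {x : ↥(sc f).twG.G1} (h1 : x ∈ GX (sc f).twG rel j)
    (h2 : x ∈ GX (sc f).twG rel j') : x = 1 := by
  have pos : ∀ {a b : ℕ} {y : ↥(sc f).twG.G1}, a < b → b < 6 → y ∈ GX (sc f).twG rel a → y ∈ GX (sc f).twG rel b → y = 1 := by
    intro a b y hab hb h3 h4
    apply Subtype.ext
    exact (relT f).disj (by omega) (mem_GX.1 h3).2 ((relT f).O_le_GE (by omega) hb (mem_GX.1 h4).2)
  have mix : ∀ {a b : ℕ} {y : ↥(sc f).twG.G1}, a < 6 → 6 ≤ b → y ∈ GX (sc f).twG rel a → y ∈ GX (sc f).twG rel b → y = 1 := by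
    intro a b y ha hb h3 h4
    apply Subtype.ext
    exact RO_pos_neg f ha hb (mem_GX.1 h3).2 (mem_GX.1 h4).2
  by_cases c1 : j < 6
  · by_cases c2 : j' < 6
    · rcases lt_or_gt_of_ne hne with h | h
      · exact pos h c2 h1 h2
      · exact pos h c1 h2 h1
    · exact mix c1 (by omega) h1 h2
  · by_cases c2 : j' < 6
    · exact mix c2 (by omega) h2 h1
    · have hL : ∀ i ∈ [0, 1, 0, 1, 0, 1], i < 2 := by decide
      have h3 := (act_word (f := f) hL hj).2 x h1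
      have h4 := (act_word (f := f) hL hj').2 x h2
      rw [w0_table j hj (by omega)] at h3
      rw [w0_table j' hj' (by omega)] at h4
      have h5 : nW f [0, 1, 0, 1, 0, 1] * x * (nW f [0, 1, 0, 1, 0, 1])⁻¹ = 1 := by
        rcases lt_or_gt_of_ne hne with h | h
        · exact pos (by omega) (by omega) h3 h4
        · exact pos (by omega) (by omega) h4 h3
      have h6 : x = (nW f [0, 1, 0, 1, 0, 1])⁻¹ * (nW f [0, 1, 0, 1, 0, 1] * x * (nW f [0, 1, 0, 1, 0, 1])⁻¹) * nW f [0, 1, 0, 1, 0, 1] := by group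
      rw [h6, h5]
      group

/-! ### The torus -/

theorem NN_two (hf : ∀ t, f t = t ^ 2) (hf3 : ∀ t, f^[3] t = t) (z : Kˣ) : NN f z = 1 := by
  have h1 := NN_fix hf3 z
  have h2 : f (NN f z : K) = (NN f z : K) := congrArg Units.val h1
  rcases fix_cases hf h2 with h | h
  · exact absurd h (Units.ne_zero _)
  · exact Units.ext h

/-- The torus element. -/
noncomputable def tz (hf3 : ∀ t, f^[3] t = t) (z : Kˣ) : ↥(sc f).twG.G1 := ⟨_, cc_mem hf3 z (map_one (unitsF f))⟩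

theorem tz_GT (hf3 : ∀ t, f^[3] t = t) (z : Kˣ) : tz hf3 z ∈ GT (sc f).twG := (rtab f).tor_mem_GT _

theorem chi_two (hf : ∀ t, f t = t ^ 2) (hf3 : ∀ t, f^[3] t = t) (z : Kˣ) :
    chiT chevD4 (cc f z 1) (rp 0) = z * z ∧ chiT chevD4 (cc f z 1) (rp 1) = 1 ∧ chiT chevD4 (cc f z 1) (rp 2) = z * z ∧
    chiT chevD4 (cc f z 1) (rp 3) = (unitsF f (unitsF f z) * unitsF f (unitsF f z))⁻¹ ∧
    chiT chevD4 (cc f z 1) (rp 4) = 1 ∧ chiT chevD4 (cc f z 1) (rp 5) = 1 := by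
  obtain ⟨a0, a1, a2, a3, a4, a5⟩ := chiA (f := f) z 1
  rw [NN_two hf hf3 z] at a1 a2 a3 a4
  refine ⟨by simpa using a0, by simpa using a1, by simpa using a2, by simpa using a3, by simpa using a4, a5⟩

/-- The long root groups are fixed. -/
theorem tz_fix (hf : ∀ t, f t = t ^ 2) (hf3 : ∀ t, f^[3] t = t) (z : Kˣ) {j : ℕ} (hj : j = 1 ∨ j = 4 ∨ j = 5) {x : ↥(sc f).twG.G1}
    (hx : x ∈ GX (sc f).twG rel j) : tz hf3 z * x * (tz hf3 z)⁻¹ = x := by
  obtain ⟨-, a1, -, -, a4, a5⟩ := chi_two hf hf3 z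
  have hj6 : j < 6 := by omega
  refine (rtab f).tor_fix _ hj6 (chi_fix hf3 z (map_one _) hj6 ?_) hx
  rcases hj with rfl | rfl | rfl
  · exact a1
  · exact a4
  · exact a5

/-- The short root groups have no fixed points. -/
theorem tz_fpf (hf : ∀ t, f t = t ^ 2) (hf3 : ∀ t, f^[3] t = t) {z : Kˣ} (hz : z * z ≠ 1) {j : ℕ} (hj : j = 0 ∨ j = 2 ∨ j = 3) {x : ↥(sc f).twG.G1}
    (hx : x ∈ GX (sc f).twG rel j) (e : tz hf3 z * x * (tz hf3 z)⁻¹ = x) : x = 1 := by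
  obtain ⟨a0, -, a2, a3, -, -⟩ := chi_two hf hf3 z
  have hj6 : j < 6 := by omega
  refine (rtab f).tor_fpf _ hj6 (chi_ne hf3 z (map_one _) hj6 ?_) hx e
  rcases hj with rfl | rfl | rfl
  · rw [a0]
    exact hz
  · rw [a2]
    exact hz
  · rw [a3, Ne, inv_eq_one]
    exact ff_ne hz

/-- Scaling of the short root groups. -/
theorem tz_scale (hf : ∀ t, f t = t ^ 2) (hf3 : ∀ t, f^[3] t = t) (z : Kˣ) {r : ℕ} (hr : r = 18 ∨ r = 19) (s : K) :
    tor RootD4T.R chevD4 (cc f z 1) * EE f r s * (tor RootD4T.R chevD4 (cc f z 1))⁻¹ = EE f r ((z * z : Kˣ) * s) := by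
  obtain ⟨a0, -, a2, -, -, -⟩ := chi_two hf hf3 z
  have e : chiT chevD4 (cc f z 1) r = z * z := by
    rcases hr with rfl | rfl
    · exact a0
    · exact a2
  have hlt : r < chevD4.nroots := by
    rcases hr with rfl | rfl <;> decide +kernel
  refine (sc f).tor_conj_cw (cc f z 1) (fun k _ => r_iter_lt k _ hlt) (v := ((z * z : Kˣ) : K)) (fun k _ => ?_) s
  rw [chi_iter hf3 z (map_one _) k hlt, e]

theorem exists_sq (hf : ∀ t, f t = t ^ 2) (c : Kˣ) : ∃ z : Kˣ, z * z = c := by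
  refine ⟨unitsF f.symm c, Units.ext ?_⟩
  have h1 : f ((unitsF f.symm c : Kˣ) : K) = c := by
    show f (f.symm (c : K)) = c
    simp
  rw [hf] at h1
  rw [Units.val_mul, ← sq, h1]

end Cfsg.Agent.Lib.TwStem.D4
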