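import Cfsg.Agent.Lib.TwStem.D4TwoB

/-!
# `³D₄(2)`: the lifted long root groups
-/

set_option autoImplicit false
set_option linter.unusedSectionVars false
set_option linter.unusedVariables false

namespace Cfsg.Agent.Lib.TwStem.D4

open scoped commutatorElement
open Cfsg Cfsg.Lie Cfsg.Agent.Lib.Chev Cfsg.Agent.Lib.Chev.TwD4 Equiv
open Cfsg.Agent.Lib.SL2Core Cfsg.Agent.Lib.SL2Bor Cfsg.Agent.Lib.StK Cfsg.Agent.Lib.ChevLift Cfsg.Agent.Lib.ChevLift.RD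

variable {K : Type*} [Field K] [Fintype K] {f : K ≃+* K}

/-- The relative roots which are long. -/
def isL (r : ℕ) : Prop := r ∈ [1, 4, 5, 7, 10, 11]

instance (r : ℕ) : Decidable (isL r) := by unfold isL; infer_instance

theorem LR_of_fix : ∀ q < chevD4.nroots, TwTabD4.S.r q = q → q ∈ LR := by decide +kernel

theorem isL_tab : ∀ q < chevD4.nroots, (q ∈ LR ↔ isL (rel q)) := by decide +kernel

theorem neg_tab : ∀ q₁ ∈ LR, ∀ q₂ ∈ LR, q₂ ≠ chevD4.neg q₁ → q₁ ≠ chevD4.neg q₂ := by decide +kernel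

theorem rho_fix {c : ↥(sc f).twG.G1} (hc : c.1 ∈ chevD4.monomialSubgroup K) (q : Fin chevD4.nroots) :
    TwTabD4.S.r (hF.rhoN K ⟨c.1, hc⟩ q) = hF.rhoN K ⟨c.1, hc⟩ (⟨TwTabD4.S.r q, TwTabD4.ok.r_lt _ q.2⟩ : Fin chevD4.nroots) := by
  have hfix : (τ f).s (⟨c.1, hc⟩ : ↥(chevD4.monomialSubgroup K)).1 = (⟨c.1, hc⟩ : ↥(chevD4.monomialSubgroup K)).1 := (sc f).twG.G1_fix _ c.2
  have h1 := (τ f).rhoN_comm_of_fix hfix q
  have h2 : (τ f).ρ q = ⟨TwTabD4.S.r q, TwTabD4.ok.r_lt _ q.2⟩ := Fin.ext (rho_val f q)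
  rw [h2] at h1
  rw [h1]
  exact (rho_val f _).symm

theorem rho_long {c : ↥(sc f).twG.G1} (hc : c.1 ∈ chevD4.monomialSubgroup K) {q : ℕ} (hq : q ∈ LR) (hlt : q < chevD4.nroots) :
    ((hF.rhoN K ⟨c.1, hc⟩ ⟨q, hlt⟩ : Fin chevD4.nroots) : ℕ) ∈ LR := by
  apply LR_of_fix _ (Fin.is_lt _)
  rw [rho_fix hc]
  congr 2
  exact Fin.ext (LR_tab q hq).2.1

theorem rho_short {c : ↥(sc f).twG.G1} (hc : c.1 ∈ chevD4.monomialSubgroup K) {q : ℕ} (hq : q ∉ LR) (hlt : q < chevD4.nroots) :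
    ((hF.rhoN K ⟨c.1, hc⟩ ⟨q, hlt⟩ : Fin chevD4.nroots) : ℕ) ∉ LR := by
  intro h
  have h1 := (LR_tab _ h).2.1
  rw [rho_fix hc] at h1
  have h2 := Fin.ext h1
  have h3 := (hF.rhoN K ⟨c.1, hc⟩).injective h2
  have h4 : TwTabD4.S.r q = q := congrArg Fin.val h3
  exact hq (LR_of_fix q hlt h4)

variable {Γ : Type*} [Group Γ] {σ : Γ →* ↥(sc f).twG.G1}

/-- The generators of a lifted long root group. -/
def GenL (σ : Γ →* ↥(sc f).twG.G1) (r : ℕ) : Set Γ :=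
  {u | ∃ a b : Γ, ∃ q₁ ∈ LR, ∃ q₂ ∈ LR, q₂ ≠ q₁ ∧ q₂ ≠ chevD4.neg q₁ ∧ σ a ∈ GX (sc f).twG rel (rel q₁) ∧ σ b ∈ GX (sc f).twG rel (rel q₂) ∧
    ⁅σ a, σ b⁆ ∈ GX (sc f).twG rel r ∧ ⁅σ a, σ b⁆ ≠ 1 ∧ u = ⁅a, b⁆}

/-- The lifted long root group. -/
def WW (σ : Γ →* ↥(sc f).twG.G1) (r : ℕ) : Subgroup Γ := Subgroup.closure (GenL σ r)

theorem WW_map {r : ℕ} {u : Γ} (hu : u ∈ WW σ r) : σ u ∈ GX (sc f).twG rel r := by
  unfold WW at hu
  induction hu using Subgroup.closure_induction with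
  | mem x hx =>
    obtain ⟨a, b, q₁, h1, q₂, h2, h3, h4, h5, h6, h7, h8, rfl⟩ := hx
    rw [map_commutatorElement]
    exact h7
  | one =>
    rw [map_one]
    exact Subgroup.one_mem _
  | mul x y _ _ hx hy =>
    rw [map_mul]
    exact Subgroup.mul_mem _ hx hy
  | inv x _ hx =>
    rw [map_inv]
    exact Subgroup.inv_mem _ hx

theorem WW_conj {r r' : ℕ} (g : Γ) (hg : σ g ∈ GN (sc f).twG)
    (hX : ∀ x ∈ GX (sc f).twG rel r, σ g * x * (σ g)⁻¹ ∈ GX (sc f).twG rel r') {u : Γ} (hu : u ∈ WW σ r) :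
    g * u * g⁻¹ ∈ WW σ r' := by
  have hc := mem_GN.1 hg
  unfold WW at hu
  induction hu using Subgroup.closure_induction with
  | mem x hx =>
    obtain ⟨a, b, q₁, h1, q₂, h2, h3, h4, h5, h6, h7, h8, rfl⟩ := hx
    have l1 := (LR_tab q₁ h1).1
    have l2 := (LR_tab q₂ h2).1
    have e : g * ⁅a, b⁆ * g⁻¹ = ⁅g * a * g⁻¹, g * b * g⁻¹⁆ := by
      simp only [commutatorElement_def]
      group
    rw [e]
    have e2 : ⁅σ (g * a * g⁻¹), σ (g * b * g⁻¹)⁆ = σ g * ⁅σ a, σ b⁆ * (σ g)⁻¹ := by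
      simp only [map_mul, map_inv, commutatorElement_def]
      group
    refine Subgroup.subset_closure ⟨_, _, _, rho_long hc h1 l1, _, rho_long hc h2 l2, ?_, ?_, ?_, ?_, ?_, ?_, rfl⟩
    · intro e3
      have := (hF.rhoN K ⟨(σ g).1, hc⟩).injective (Fin.ext e3)
      exact h3 (congrArg Fin.val this)
    · obtain ⟨w, hw⟩ := hF.rhoN_spec ⟨(σ g).1, hc⟩
      have e4 := hw.neg_σ (⟨q₁, l1⟩ : Fin chevD4.nroots)
      intro e3
      have e5 : hF.rhoN K ⟨(σ g).1, hc⟩ ⟨q₂, l2⟩ = hF.rhoN K ⟨(σ g).1, hc⟩ (hF.negF ⟨q₁, l1⟩) := by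
        rw [e4]
        exact Fin.ext e3
      have := (hF.rhoN K ⟨(σ g).1, hc⟩).injective e5
      exact h4 (congrArg Fin.val this)
    · rw [map_mul, map_mul, map_inv]
      exact (rtab f).conj_fwd hc ⟨q₁, l1⟩ h5
    · rw [map_mul, map_mul, map_inv]
      exact (rtab f).conj_fwd hc ⟨q₂, l2⟩ h6
    · rw [e2]
      exact hX _ h7
    · rw [e2]
      intro e3
      apply h8
      have e5 : ⁅σ a, σ b⁆ = (σ g)⁻¹ * (σ g * ⁅σ a, σ b⁆ * (σ g)⁻¹) * σ g := by group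
      rw [e5, e3]
      group
  | one =>
    have e : g * 1 * g⁻¹ = 1 := by group
    rw [e]
    exact Subgroup.one_mem _
  | mul x y _ _ hx hy =>
    have e : g * (x * y) * g⁻¹ = g * x * g⁻¹ * (g * y * g⁻¹) := by group
    rw [e]
    exact Subgroup.mul_mem _ hx hy
  | inv x _ hx =>
    have e : g * x⁻¹ * g⁻¹ = (g * x * g⁻¹)⁻¹ := by group
    rw [e]
    exact Subgroup.inv_mem _ hx

/-! ### The highest root -/

section High

variable (hf : ∀ t, f t = t ^ 2) (hf3 : ∀ t, f^[3] t = t) (hE : CE σ)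

include hf hf3 hE

/-- An element whose image commutes with the short root elements commutes with the commutator. -/
theorem w_comm {x₅ : ↥(sc f).twG.G1} (h5 : x₅.1 = hF.c.xG 23 1) {w : Γ} (hw : σ w = x₅) {x : Γ}
    (hx : σ x ∈ GX (sc f).twG rel 1 ∨ σ x ∈ GX (sc f).twG rel 4) : x * w = w * x := by
  have h2 := two_of_frob hf
  obtain ⟨a, ha, b, hb, e⟩ := I1_gp (f := f) h2 hf3
  obtain ⟨A, rfl⟩ := hE.surj a
  obtain ⟨B, rfl⟩ := hE.surj b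
  have e1 : ⁅σ A, σ B⁆ = x₅ := Subtype.ext (e.trans h5.symm)
  have c1 : x * ⁅A, B⁆ = ⁅A, B⁆ * x := by
    apply hE.conj_comm_self
    · rcases hx with hx | hx
      · exact X_comm (k := 1) (s := 2) (by decide) hx ha
      · exact (X_comm (k := 2) (s := 4) (by decide) ha hx).symm
    · rcases hx with hx | hx
      · exact X_comm (k := 1) (s := 3) (by decide) hx hb
      · exact (X_comm (k := 3) (s := 4) (by decide) hb hx).symm
  have c2 : σ (w * ⁅A, B⁆⁻¹) = 1 := by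
    rw [map_mul, map_inv, map_commutatorElement, e1, hw, mul_inv_cancel]
  have c3 := hE.cen _ c2 x
  calc x * w = x * ((w * ⁅A, B⁆⁻¹) * ⁅A, B⁆) := by group
    _ = (x * (w * ⁅A, B⁆⁻¹)) * ⁅A, B⁆ := by group
    _ = ((w * ⁅A, B⁆⁻¹) * x) * ⁅A, B⁆ := by rw [c3]
    _ = (w * ⁅A, B⁆⁻¹) * (x * ⁅A, B⁆) := by group
    _ = (w * ⁅A, B⁆⁻¹) * (⁅A, B⁆ * x) := by rw [c1]
    _ = w * x := by group

/-- The commutator has order at most two. -/
theorem w_sq {x₁ x₅ : ↥(sc f).twG.G1} (h1 : x₁.1 = hF.c.xG 14 1) (hm1 : x₁ ∈ GX (sc f).twG rel 1) (h5 : x₅.1 = hF.c.xG 23 1)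
    {B D : Γ} (hB : σ B = x₁) (hw : σ ⁅D, B⁆ = x₅) : ⁅D, B⁆ * ⁅D, B⁆ = 1 := by
  have h2 := two_of_frob hf
  have c1 : σ (B * B) = 1 := by
    rw [map_mul, hB]
    apply Subtype.ext
    show x₁.1 * x₁.1 = 1
    rw [h1, hF.c.xG_add]
    have : (1 + 1 : K) = 0 := by linear_combination h2
    rw [this]
    simp
  have c2 : ⁅D, B * B⁆ = 1 := by
    rw [commutatorElement_eq_one_iff_mul_comm]
    exact (hE.cen _ c1 D).symm
  have c3 : ⁅D, B * B⁆ = ⁅D, B⁆ * (B * ⁅D, B⁆ * B⁻¹) := by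
    simp only [commutatorElement_def]
    group
  have c4 := w_comm hf hf3 hE h5 hw (x := B) (Or.inl (by rw [hB]; exact hm1))
  rw [c3, c4] at c2
  simpa [mul_assoc] using c2

end High

end Cfsg.Agent.Lib.TwStem.D4
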