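import Cfsg.Agent.Lib.TwStem.D4TwoC

/-!
# `³D₄(2)`: the lifted root groups
-/

set_option autoImplicit false
set_option linter.unusedSectionVars false
set_option linter.unusedVariables false

namespace Cfsg.Agent.Lib.TwStem.D4

open scoped commutatorElement
open Cfsg Cfsg.Lie Cfsg.Agent.Lib.Chev Cfsg.Agent.Lib.Chev.TwD4 Equiv
open Cfsg.Agent.Lib.SL2Core Cfsg.Agent.Lib.SL2Bor Cfsg.Agent.Lib.StK Cfsg.Agent.Lib.ChevLift Cfsg.Agent.Lib.ChevLift.RD

variable {K : Type*} [Field K] [Fintype K] {f : K ≃+* K}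

variable {Γ : Type*} [Group Γ] {σ : Γ →* ↥(sc f).twG.G1}

theorem rel5_tab : ∀ k ∈ LR, rel k = 5 → k = 23 := by decide +kernel

/-- The long root elements at the top. -/
theorem long_elts (f : K ≃+* K) (hf : ∀ t, f t = t ^ 2) : ∃ x₁ ∈ GX (sc f).twG rel 1, ∃ x₄ ∈ GX (sc f).twG rel 4, ∃ x₅ ∈ GX (sc f).twG rel 5,
    x₁.1 = hF.c.xG 14 1 ∧ x₄.1 = hF.c.xG 22 1 ∧ x₅.1 = hF.c.xG 23 1 ∧ ⁅x₄, x₁⁆ = x₅ ∧ x₅ ≠ 1 := by
  have h2 := two_of_frob hf
  obtain ⟨m1, h1⟩ := el_one (K := K) (f := f) (r := 14) (j := 1) (by decide) (by decide)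
  obtain ⟨m4, h4⟩ := el_one (K := K) (f := f) (r := 22) (j := 4) (by decide) (by decide)
  obtain ⟨m5, h5⟩ := el_one (K := K) (f := f) (r := 23) (j := 5) (by decide) (by decide)
  refine ⟨_, h1, _, h4, _, h5, rfl, rfl, rfl, ?_, ?_⟩
  · apply Subtype.ext
    show ⁅hF.c.xG 22 (1 : K), hF.c.xG 14 (1 : K)⁆ = hF.c.xG 23 1
    rw [comm_GL]
    congr 1
    rw [mul_one]
    exact neg_two h2 1
  · intro e
    have e1 : hF.c.xG 23 (1 : K) = hF.c.xG 23 0 := by
      have := congrArg Subtype.val e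
      rw [Checks.xG_zero]
      exact this
    exact one_ne_zero (hF.xG_param_inj (by decide +kernel) e1)

theorem tab_L : ∀ r < 12, (isL r → (tabW r).1 = 5) ∧ (¬ isL r → (tabW r).1 = 0) := by decide +kernel

section Base

variable (hf : ∀ t, f t = t ^ 2) (hf3 : ∀ t, f^[3] t = t) (hE : CE σ)

include hf hf3 hE

theorem gen_form {x₁ x₄ x₅ : ↥(sc f).twG.G1} (h1 : x₁.1 = hF.c.xG 14 1) (hm1 : x₁ ∈ GX (sc f).twG rel 1) (h4 : x₄.1 = hF.c.xG 22 1)
    (h5 : x₅.1 = hF.c.xG 23 1) {B D : Γ} (hB : σ B = x₁) (hD : σ D = x₄) (hw : σ ⁅D, B⁆ = x₅) {u : Γ} (hu : u ∈ GenL σ 5) : u = ⁅D, B⁆ := by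
  have h2 := two_of_frob hf
  obtain ⟨a, b, q₁, l1, q₂, l2, h3, h6, h7, h8, h9, h10, rfl⟩ := hu
  have fa := long_form h2 hf l1 h7
  have fb := long_form h2 hf l2 h8
  rcases fa with fa | fa
  · exact absurd (by rw [fa, commutatorElement_one_left]) h10
  rcases fb with fb | fb
  · exact absurd (by rw [fb, commutatorElement_one_right]) h10
  have e0 : ((⁅σ a, σ b⁆ : ↥(sc f).twG.G1)).1 = ⁅hF.c.xG q₁ (1 : K), hF.c.xG q₂ (1 : K)⁆ := by
    rw [← fa, ← fb]
    rfl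
  rcases comm_long h2 l2 l1 (Ne.symm h3) (neg_tab q₁ l1 q₂ l2 h6) with e | ⟨k, hk, e, h11⟩
  · exact absurd (Subtype.ext (e0.trans e)) h10
  · have h12 : ⁅σ a, σ b⁆ ∈ GX (sc f).twG rel (rel k) := by
      refine mem_GX.2 ⟨fix_G1 _, ?_⟩
      rw [e0, e]
      exact hF.xG_mem_rootClosure ⟨(LR_tab k hk).1, rfl⟩ _
    have h13 : rel k = 5 := by
      by_contra h14
      exact h10 (X_disj ((relT f).lt _ (LR_tab k hk).1) (by decide) h14 h12 h9)
    have h14 := rel5_tab k hk h13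
    rcases h11 h14 with ⟨rfl, rfl⟩ | ⟨rfl, rfl⟩
    · have e1 : σ a = x₄ := Subtype.ext (fa.trans h4.symm)
      have e2 : σ b = x₁ := Subtype.ext (fb.trans h1.symm)
      exact hE.comm_eq (e1.trans hD.symm) (e2.trans hB.symm)
    · have e1 : σ a = x₁ := Subtype.ext (fa.trans h1.symm)
      have e2 : σ b = x₄ := Subtype.ext (fb.trans h4.symm)
      have e3 : ⁅a, b⁆ = ⁅B, D⁆ := hE.comm_eq (e1.trans hB.symm) (e2.trans hD.symm)
      rw [e3]
      have e4 := w_sq hf hf3 hE h1 hm1 h5 hB hw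
      have e5 : ⁅B, D⁆ = ⁅D, B⁆⁻¹ := (commutatorElement_inv D B).symm
      rw [e5]
      exact inv_eq_of_mul_eq_one_left e4

theorem WW5_form {x₁ x₄ x₅ : ↥(sc f).twG.G1} (h1 : x₁.1 = hF.c.xG 14 1) (hm1 : x₁ ∈ GX (sc f).twG rel 1) (h4 : x₄.1 = hF.c.xG 22 1)
    (h5 : x₅.1 = hF.c.xG 23 1) {B D : Γ} (hB : σ B = x₁) (hD : σ D = x₄) (hw : σ ⁅D, B⁆ = x₅) {u : Γ} (hu : u ∈ WW σ 5) : u = 1 ∨ u = ⁅D, B⁆ := by
  have e4 := w_sq hf hf3 hE h1 hm1 h5 hB hw
  unfold WW at hu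
  induction hu using Subgroup.closure_induction with
  | mem x hx => exact Or.inr (gen_form hf hf3 hE h1 hm1 h4 h5 hB hD hw hx)
  | one => exact Or.inl rfl
  | mul x y _ _ hx hy =>
    rcases hx with rfl | rfl <;> rcases hy with rfl | rfl
    · left
      simp
    · right
      simp
    · right
      simp
    · left
      exact e4
  | inv x _ hx =>
    rcases hx with rfl | rfl
    · left
      simp
    · right
      exact inv_eq_of_mul_eq_one_left e4

/-- The lifted highest root group. -/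
theorem WW5_all : (∀ x ∈ GX (sc f).twG rel 5, ∃ u ∈ WW σ 5, σ u = x) ∧ ∀ u ∈ WW σ 5, σ u = 1 → u = 1 := by
  have h2 := two_of_frob hf
  obtain ⟨x₁, hm1, x₄, hm4, x₅, hm5, h1, h4, h5, h6, h7⟩ := long_elts f hf
  obtain ⟨B, hB⟩ := hE.surj x₁
  obtain ⟨D, hD⟩ := hE.surj x₄
  have hw : σ ⁅D, B⁆ = x₅ := by
    rw [map_commutatorElement, hB, hD, h6]
  have hgen : ⁅D, B⁆ ∈ WW σ 5 := by
    refine Subgroup.subset_closure ⟨D, B, 22, by decide, 14, by decide, by decide, by decide +kernel, ?_, ?_, ?_, ?_, rfl⟩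
    · rw [hD]
      exact hm4
    · rw [hB]
      exact hm1
    · rw [hD, hB, h6]
      exact hm5
    · rw [hD, hB, h6]
      exact h7
  constructor
  · intro x hx
    rcases long_form (q := 23) h2 hf (by decide) (x := x) hx with e | e
    · exact ⟨1, Subgroup.one_mem _, by rw [map_one, e]⟩
    · refine ⟨_, hgen, ?_⟩
      rw [hw]
      exact Subtype.ext (h5.trans e.symm)
  · intro u hu e
    rcases WW5_form hf hf3 hE h1 hm1 h4 h5 hB hD hw hu with rfl | rfl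
    · rfl
    · rw [hw] at e
      exact absurd e h7

/-- Transport of the properties. -/
theorem WW_step {a r : ℕ} (ha : a < 2) (hr : r < 12)
    (h : (∀ x ∈ GX (sc f).twG rel r, ∃ u ∈ WW σ r, σ u = x) ∧ ∀ u ∈ WW σ r, σ u = 1 → u = 1) :
    (∀ x ∈ GX (sc f).twG rel (ss TabD4.X J rel rp (fun a => a) a r), ∃ u ∈ WW σ (ss TabD4.X J rel rp (fun a => a) a r), σ u = x) ∧
      ∀ u ∈ WW σ (ss TabD4.X J rel rp (fun a => a) a r), σ u = 1 → u = 1 := by
  have t := rtab f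
  obtain ⟨g, hg⟩ := hE.surj (nn (sc f) (fun a => a) a)
  have hN : σ g ∈ GN (sc f).twG := by
    rw [hg]
    exact mem_GN.2 (t.nn_mono ha)
  have c1 : ∀ u ∈ WW σ r, g * u * g⁻¹ ∈ WW σ (ss TabD4.X J rel rp (fun a => a) a r) := by
    intro u hu
    refine WW_conj g hN ?_ hu
    rw [hg]
    exact (t.act ha hr).2
  have c2 : ∀ u ∈ WW σ (ss TabD4.X J rel rp (fun a => a) a r), g⁻¹ * u * g ∈ WW σ r := by
    intro u hu
    have := WW_conj (r := ss TabD4.X J rel rp (fun a => a) a r) (r' := r) (σ := σ) g⁻¹ (by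
      rw [map_inv]
      exact Subgroup.inv_mem _ hN) (by
      rw [map_inv, hg, inv_inv]
      exact t.act_inv ha hr) hu
    simpa using this
  constructor
  · intro x hx
    obtain ⟨u, hu, e⟩ := h.1 _ (t.act_inv ha hr x hx)
    refine ⟨_, c1 u hu, ?_⟩
    rw [map_mul, map_mul, map_inv, e, hg]
    group
  · intro u hu e
    have h3 := h.2 _ (c2 u hu) (by rw [map_mul, map_mul, map_inv, e]; group)
    have h4 : u = g * (g⁻¹ * u * g) * g⁻¹ := by group
    rw [h4, h3]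
    group

theorem WW_word {L : List ℕ} (hL : ∀ i ∈ L, i < 2) {r : ℕ} (hr : r < 12)
    (h : (∀ x ∈ GX (sc f).twG rel r, ∃ u ∈ WW σ r, σ u = x) ∧ ∀ u ∈ WW σ r, σ u = 1 → u = 1) :
    sL (ss TabD4.X J rel rp fun a => a) L r < 12 ∧
    (∀ x ∈ GX (sc f).twG rel (sL (ss TabD4.X J rel rp fun a => a) L r), ∃ u ∈ WW σ (sL (ss TabD4.X J rel rp fun a => a) L r), σ u = x) ∧
      ∀ u ∈ WW σ (sL (ss TabD4.X J rel rp fun a => a) L r), σ u = 1 → u = 1 := by
  induction L with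
  | nil => exact ⟨hr, h⟩
  | cons a L ih =>
    obtain ⟨h1, h3⟩ := ih fun i hi => hL i (List.mem_cons_of_mem _ hi)
    have ha := hL a List.mem_cons_self
    exact ⟨((rtab f).act ha h1).1, WW_step hf hf3 hE ha h1 h3⟩

theorem WW_long {r : ℕ} (hr : r < 12) (hL : isL r) :
    (∀ x ∈ GX (sc f).twG rel r, ∃ u ∈ WW σ r, σ u = x) ∧ ∀ u ∈ WW σ r, σ u = 1 → u = 1 := by
  obtain ⟨-, h3, h4⟩ := tabW_ok r hr
  have e : (tabW r).1 = 5 := (tab_L r hr).1 hL
  have h5 := (WW_word hf hf3 hE h3 (r := 5) (by decide) (WW5_all hf hf3 hE)).2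
  rw [← e, h4] at h5
  exact h5

theorem good_short (h0 : Good σ (GT (sc f).twG) (GX (sc f).twG rel 0)) {r : ℕ} (hr : r < 12) (hL : ¬ isL r) :
    Good σ (GT (sc f).twG) (GX (sc f).twG rel r) := by
  obtain ⟨-, h3, h4⟩ := tabW_ok r hr
  have e : (tabW r).1 = 0 := (tab_L r hr).2 hL
  have h5 := ((rtab f).good_word hE h3 (r := 0) (by decide) h0).2
  rw [← e, h4] at h5
  exact h5

end Base

/-! ### The relative root groups are not trivial -/

theorem X0_ne (f : K ≃+* K) (hf : ∀ t, f t = t ^ 2) (hf3 : ∀ t, f^[3] t = t) : ∃ x ∈ GX (sc f).twG rel 0, x ≠ 1 := by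
  have h2 := two_of_frob hf
  obtain ⟨m, h⟩ := EE_mem (f := f) h2 hf3 (r := 18) (by decide) 1
  refine ⟨_, h, fun e => ?_⟩
  have e1 : EE f 18 (1 : K) = 1 := congrArg Subtype.val e
  rw [EE_18] at e1
  simp only [map_one] at e1
  have h3 : hF.wL [18, 13, 12] (fun _ => (1 : K)) = hF.wL [18, 13, 12] (fun _ => (0 : K)) := by
    rw [hF.wL_zero]
    simpa [Full.wL_cons, Full.wL_nil] using e1
  have h4 := hF.wL_inj (F := K) (L := [18, 13, 12]) (hF.commL_of_nil (by decide +kernel) (by decide +kernel)) (by decide) (by decide +kernel) h3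
  exact one_ne_zero (h4 18 (by decide))

theorem X_ne (f : K ≃+* K) (hf : ∀ t, f t = t ^ 2) (hf3 : ∀ t, f^[3] t = t) {r : ℕ} (hr : r < 12) : ∃ x ∈ GX (sc f).twG rel r, x ≠ 1 := by
  obtain ⟨h1, h3, h4⟩ := tabW_ok r hr
  have hb : (tabW r).1 < 12 ∧ ∃ x ∈ GX (sc f).twG rel (tabW r).1, x ≠ 1 := by
    rcases h1 with e | e <;> rw [e]
    · exact ⟨by decide, X0_ne f hf hf3⟩
    · obtain ⟨x₁, hm1, x₄, hm4, x₅, hm5, -, -, -, -, h7⟩ := long_elts f hf
      exact ⟨by decide, x₅, hm5, h7⟩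
  obtain ⟨x, hx, hne⟩ := hb.2
  have h5 := (act_word (f := f) h3 hb.1).2 x hx
  rw [h4] at h5
  refine ⟨_, h5, fun e => hne ?_⟩
  have h6 : x = (nW f (tabW r).2)⁻¹ * (nW f (tabW r).2 * x * (nW f (tabW r).2)⁻¹) * nW f (tabW r).2 := by group
  rw [h6, e]
  group

/-- Monomial elements preserve the type of the relative roots. -/
theorem isL_conj (hf : ∀ t, f t = t ^ 2) (hf3 : ∀ t, f^[3] t = t) {c : ↥(sc f).twG.G1} (hc : c ∈ GN (sc f).twG) {r r' : ℕ} (hr : r < 12) (hr' : r' < 12)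
    (hX : ∀ x ∈ GX (sc f).twG rel r, c * x * c⁻¹ ∈ GX (sc f).twG rel r') : isL r ↔ isL r' := by
  have t := rtab f
  have hc' := mem_GN.1 hc
  obtain ⟨x, hx, hne⟩ := X_ne f hf hf3 hr
  have l1 := t.rp_lt r hr
  have e1 := t.rp_rel r hr
  have h3 := t.conj_fwd hc' ⟨rp r, l1⟩ (x := x) (by rw [show rel ((⟨rp r, l1⟩ : Fin chevD4.nroots) : ℕ) = r from e1]; exact hx)
  have h4 := hX x hx
  have hne' : c * x * c⁻¹ ≠ 1 := by
    intro e
    apply hne
    have h6 : x = c⁻¹ * (c * x * c⁻¹) * c := by group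
    rw [h6, e]
    group
  have h5 : r' = rel (hF.rhoN K ⟨c.1, hc'⟩ ⟨rp r, l1⟩) := by
    by_contra h7
    exact hne' (X_disj hr' ((relT f).lt _ (Fin.is_lt _)) h7 h4 h3)
  rw [h5, ← isL_tab _ (Fin.is_lt _)]
  have h8 : isL r ↔ rp r ∈ LR := by
    rw [isL_tab _ l1, e1]
  rw [h8]
  constructor
  · intro h9
    exact rho_long hc' h9 l1
  · intro h9
    by_contra h10
    exact rho_short hc' h10 l1 h9

/-! ### The lifted root groups -/

/-- The lifted root groups. -/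
noncomputable def VW (σ : Γ →* ↥(sc f).twG.G1) (r : ℕ) : Subgroup Γ := if isL r then WW σ r else RTab.VV (sc f) rel σ r

theorem VW_long {r : ℕ} (h : isL r) : VW σ r = WW σ r := if_pos h

theorem VW_short {r : ℕ} (h : ¬ isL r) : VW σ r = RTab.VV (sc f) rel σ r := if_neg h

theorem lc_long (hf : ∀ t, f t = t ^ 2) (hE : CE σ) {r : ℕ} (hr : r < 12) (hL : isL r) {a b : Γ} (ha : σ a ∈ GX (sc f).twG rel r)
    (hb : σ b ∈ GX (sc f).twG rel r) : a * b = b * a := by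
  have h2 := two_of_frob hf
  have e1 := (rtab f).rp_rel r hr
  have hq : rp r ∈ LR := by
    rw [isL_tab _ ((rtab f).rp_lt r hr), e1]
    exact hL
  rw [← e1] at ha hb
  rcases long_form h2 hf hq ha with e | e
  · exact hE.cen a e b
  rcases long_form h2 hf hq hb with e' | e'
  · exact (hE.cen b e' a).symm
  have e2 : σ a = σ b := Subtype.ext (e.trans e'.symm)
  have e3 : σ (b⁻¹ * a) = 1 := by
    rw [map_mul, map_inv, e2, inv_mul_cancel]
  have e4 := hE.cen _ e3 b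
  calc a * b = b * (b⁻¹ * a) * b := by group
    _ = b * ((b⁻¹ * a) * b) := by group
    _ = b * (b * (b⁻¹ * a)) := by rw [e4]
    _ = b * a := by group

theorem vd [Finite Γ] (hf : ∀ t, f t = t ^ 2) (hf3 : ∀ t, f^[3] t = t) (hE : CE σ) (h0 : Good σ (GT (sc f).twG) (GX (sc f).twG rel 0)) :
    VD (sc f) rel σ (VW σ) 6 := by
  have t := rtab f
  refine ⟨?_, ?_, ?_, ?_, ?_⟩
  · intro r hr u hu
    by_cases hL : isL r
    · rw [VW_long hL] at hu
      exact WW_map hu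
    · rw [VW_short hL] at hu
      exact (t.hmain hE (good_short hf hf3 hE h0 hr hL)).1 u hu
  · intro r hr x hx
    by_cases hL : isL r
    · rw [VW_long hL]
      exact (WW_long hf hf3 hE hr hL).1 x hx
    · rw [VW_short hL]
      exact (t.hmain hE (good_short hf hf3 hE h0 hr hL)).2.1 x hx
  · intro r hr u hu
    by_cases hL : isL r
    · rw [VW_long hL] at hu
      exact (WW_long hf hf3 hE hr hL).2 u hu
    · rw [VW_short hL] at hu
      exact (t.hmain hE (good_short hf hf3 hE h0 hr hL)).2.2 u hu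
  · intro g hg r hr r' hr' hX u hu
    have hi := isL_conj hf hf3 hg hr hr' hX
    by_cases hL : isL r
    · rw [VW_long hL] at hu
      rw [VW_long (hi.1 hL)]
      exact WW_conj g hg hX hu
    · rw [VW_short hL] at hu
      rw [VW_short (fun h => hL (hi.2 h))]
      exact t.conj_VV g hg hX hu
  · intro r hr a b ha hb
    by_cases hL : isL r
    · exact lc_long hf hE hr hL ha hb
    · exact (good_short hf hf3 hE h0 hr hL).lc a b ha hb

end Cfsg.Agent.Lib.TwStem.D4
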