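import Cfsg.Agent.Lib.TwStem.D4TwoD

/-!
# `³D₄(2)`: the commutator relations of the lifted root groups
-/

set_option autoImplicit false
set_option linter.unusedSectionVars false
set_option linter.unusedVariables false

namespace Cfsg.Agent.Lib.TwStem.D4

open scoped commutatorElement
open Cfsg Cfsg.Lie Cfsg.Agent.Lib.Chev Cfsg.Agent.Lib.Chev.TwD4 Equiv
open Cfsg.Agent.Lib.SL2Core Cfsg.Agent.Lib.SL2Bor Cfsg.Agent.Lib.StK Cfsg.Agent.Lib.ChevLift Cfsg.Agent.Lib.ChevLift.RD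

/-- A biadditive scale invariant map is trivial. -/
theorem biadd_trivial {E A : Type*} [Field E] [Group A] (B : E → E → A)
    (hl : ∀ s s' t, B (s + s') t = B s t * B s' t) (hr : ∀ s t t', B s (t + t') = B s t * B s t')
    (hsc : ∀ c : E, c ≠ 0 → ∀ s t, B (c * s) (c * t) = B s t)
    {ρ : E} (hρ0 : ρ ≠ 0) (hρ1 : ρ ≠ 1) (hρ2 : ρ * (1 - ρ) - 1 ≠ 0) : ∀ s t, B s t = 1 := by
  let g : E → A := fun r => B 1 r
  have hg_add : ∀ r r', g (r + r') = g r * g r' := fun r r' => hr 1 r r'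
  have hg0 : g 0 = 1 := by
    have := hg_add 0 0
    rw [add_zero] at this
    exact mul_eq_right.1 this.symm
  have hg_neg : ∀ r, g (-r) = (g r)⁻¹ := by
    intro r
    have := hg_add r (-r)
    rw [add_neg_cancel, hg0] at this
    exact eq_inv_of_mul_eq_one_right this.symm
  have hB1 : ∀ s, s ≠ 0 → ∀ t, B s t = g (t / s) := by
    intro s hs t
    have := hsc s⁻¹ (inv_ne_zero hs) s t
    rw [inv_mul_cancel₀ hs] at this
    rw [← this, div_eq_inv_mul]
  have h1ρ : 1 - ρ ≠ 0 := sub_ne_zero.2 (Ne.symm hρ1)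
  have key : ∀ S : E, S ≠ 0 → g (S * (ρ * (1 - ρ))) = g S := by
    intro S hS
    have hu : S * (1 - ρ) ≠ 0 := mul_ne_zero hS h1ρ
    have hv : S * ρ ≠ 0 := mul_ne_zero hS hρ0
    have hs1 : (S * (1 - ρ))⁻¹ ≠ 0 := inv_ne_zero hu
    have hs2 : (S * ρ)⁻¹ ≠ 0 := inv_ne_zero hv
    have hs3 : (S * (1 - ρ))⁻¹ + (S * ρ)⁻¹ = (S * (ρ * (1 - ρ)))⁻¹ := by
      field_simp
      ring
    have e := hl (S * (1 - ρ))⁻¹ (S * ρ)⁻¹ 1
    rw [hs3, hB1 _ (inv_ne_zero (mul_ne_zero hS (mul_ne_zero hρ0 h1ρ))), hB1 _ hs1, hB1 _ hs2] at e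
    simp only [one_div, inv_inv] at e
    rw [e, ← hg_add]
    congr 1
    ring
  have hgS : ∀ S : E, S ≠ 0 → g (S * (ρ * (1 - ρ) - 1)) = 1 := by
    intro S hS
    have e : S * (ρ * (1 - ρ) - 1) = S * (ρ * (1 - ρ)) + -S := by ring
    rw [e, hg_add, key S hS, hg_neg, mul_inv_cancel]
  have hgall : ∀ r, g r = 1 := by
    intro r
    by_cases hr0 : r = 0
    · rw [hr0, hg0]
    · have := hgS (r / (ρ * (1 - ρ) - 1)) (div_ne_zero hr0 hρ2)
      rwa [div_mul_cancel₀ _ hρ2] at this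
  intro s t
  by_cases hs : s = 0
  · have := hl 0 0 t
    rw [add_zero] at this
    rw [hs]
    exact mul_eq_right.1 this.symm
  · rw [hB1 s hs, hgall]

/-- The group theoretic core of the relation between the two short root groups. -/
theorem hw_core {G : Type*} [Group G] {x e B a Y ω : G} (hBY : B * Y = Y * B) (heY : e * Y = Y * e) (hea : e * a = a * e)
    (heω : e * ω = ω * e) (haω : a * ω = ω * a) (hxa : x * a = a * x) (hxω : x * ω = ω * x) (hBa : B * a * B⁻¹ = ω * a)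
    (main : (x * e * B) * (a * Y) = (a * Y) * (x * e * B)) : ⁅x, Y⁆ = ω⁻¹ := by
  have h1 : B * a = ω * a * B := by
    rw [← hBa]
    group
  have h2 : x * e * ω * a * Y * B = a * Y * x * e * B := by
    calc x * e * ω * a * Y * B = x * e * ω * a * (Y * B) := by group
      _ = x * e * ω * a * (B * Y) := by rw [hBY]
      _ = x * e * (ω * a * B) * Y := by group
      _ = x * e * (B * a) * Y := by rw [h1]
      _ = (x * e * B) * (a * Y) := by group
      _ = (a * Y) * (x * e * B) := main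
      _ = _ := by group
  have h3 : x * e * ω * a * Y = a * Y * x * e := mul_right_cancel h2
  have h4 : x * ω * a * Y * e = a * Y * x * e := by
    rw [← h3]
    calc x * ω * a * Y * e = x * ω * a * (Y * e) := by group
      _ = x * ω * a * (e * Y) := by rw [heY]
      _ = x * ω * (a * e) * Y := by group
      _ = x * ω * (e * a) * Y := by rw [hea]
      _ = x * (ω * e) * a * Y := by group
      _ = x * (e * ω) * a * Y := by rw [heω]
      _ = _ := by group
  have h5 : x * ω * a * Y = a * Y * x := mul_right_cancel h4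
  have h6 : a * (ω * x * Y) = a * (Y * x) := by
    calc a * (ω * x * Y) = (a * ω) * x * Y := by group
      _ = (ω * a) * x * Y := by rw [haω]
      _ = ω * (a * x) * Y := by group
      _ = ω * (x * a) * Y := by rw [hxa]
      _ = (ω * x) * a * Y := by group
      _ = (x * ω) * a * Y := by rw [hxω]
      _ = a * Y * x := h5
      _ = _ := by group
  have h7 : ω * x * Y = Y * x := mul_left_cancel h6
  rw [commutatorElement_def]
  calc x * Y * x⁻¹ * Y⁻¹ = ω⁻¹ * (ω * x * Y) * x⁻¹ * Y⁻¹ := by group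
    _ = ω⁻¹ * (Y * x) * x⁻¹ * Y⁻¹ := by rw [h7]
    _ = ω⁻¹ := by group

variable {K : Type*} [Field K] [Fintype K] {f : K ≃+* K}

variable {Γ : Type*} [Group Γ] {σ : Γ →* ↥(sc f).twG.G1} [Finite Γ]

theorem ss_vals : ss TabD4.X J rel rp (fun a => a) 1 2 = 0 ∧ ss TabD4.X J rel rp (fun a => a) 1 3 = 3 ∧ ss TabD4.X J rel rp (fun a => a) 1 5 = 4 := by
  decide +kernel

section Rel

variable (hK : Fintype.card K = 2 ^ 3) (hf : ∀ t, f t = t ^ 2) (hf3 : ∀ t, f^[3] t = t) (hE : CE σ)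
  (h0 : Good σ (GT (sc f).twG) (GX (sc f).twG rel 0))

include hK hf hf3 hE h0

/-- Pairs of a long and a short root group with commuting images commute. -/
theorem ls_comm {j j' : ℕ} (hj : j = 1 ∨ j = 4 ∨ j = 5) (hj' : j' = 0 ∨ j' = 2 ∨ j' = 3)
    (hc : ∀ x ∈ GX (sc f).twG rel j, ∀ y ∈ GX (sc f).twG rel j', x * y = y * x) {x y : Γ} (hx : x ∈ VW σ j) (hy : y ∈ VW σ j') : x * y = y * x := by
  have v := vd hf hf3 hE h0
  have hq : IsPrimePow 2 := Nat.prime_two.isPrimePow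
  obtain ⟨z, -, hz⟩ := exists_z3 hq hK hf
  obtain ⟨H, hH⟩ := hE.surj (tz hf3 z)
  have hj1 : j < 2 * 6 := by omega
  have hj2 : j' < 2 * 6 := by omega
  have hT : σ H ∈ GT (sc f).twG := by
    rw [hH]
    exact tz_GT hf3 z
  obtain ⟨y0, hy0, rfl⟩ := surj_comm (σ := σ) (X₁ := GX (sc f).twG rel j')
    (fun a ha b hb => v.lc j' hj2 a b (v.map j' hj2 a ha) (v.map j' hj2 b hb))
    (fun u hu => v.conj H (GT_le_GN hT) j' hj2 j' hj2 (fun x hx => GT_act hT hx) u hu) (v.inj j' hj2)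
    (fun u hu e => by
      rw [hH] at e
      exact tz_fpf hf hf3 hz hj' (v.map j' hj2 u hu) e) y hy
  apply hE.conj_comm_self
  · have h1 := tz_fix hf hf3 z hj (v.map j hj1 x hx)
    rw [hH]
    exact (mul_inv_eq_iff_eq_mul.1 h1).symm
  · exact hc _ (v.map j hj1 x hx) _ (v.map j' hj2 y0 hy0)

/-- Pairs of root groups which commute. -/
theorem pair_comm {k s : ℕ} (hp : (k, s) ∈ ([(0, 4), (0, 5), (1, 2), (1, 3), (2, 4), (2, 5), (3, 4), (3, 5)] : List (ℕ × ℕ)))
    {x y : Γ} (hx : x ∈ VW σ k) (hy : y ∈ VW σ s) : x * y = y * x := by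
  have hc : ∀ a ∈ GX (sc f).twG rel k, ∀ b ∈ GX (sc f).twG rel s, a * b = b * a := fun a ha b hb => X_comm hp ha hb
  have hc' : ∀ a ∈ GX (sc f).twG rel s, ∀ b ∈ GX (sc f).twG rel k, a * b = b * a := fun a ha b hb => (X_comm hp hb ha).symm
  have e : ((k = 1 ∨ k = 4 ∨ k = 5) ∧ (s = 0 ∨ s = 2 ∨ s = 3)) ∨ ((s = 1 ∨ s = 4 ∨ s = 5) ∧ (k = 0 ∨ k = 2 ∨ k = 3)) := by
    simp only [List.mem_cons, List.not_mem_nil, or_false, Prod.mk.injEq] at hp
    omega
  rcases e with ⟨h1, h3⟩ | ⟨h1, h3⟩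
  · exact ls_comm hK hf hf3 hE h0 h1 h3 hc hx hy
  · exact (ls_comm hK hf hf3 hE h0 h1 h3 hc' hy hx).symm

theorem V5_cen {x u : Γ} (hx : σ x ∈ GX (sc f).twG rel 1 ∨ σ x ∈ GX (sc f).twG rel 4) (hu : u ∈ VW σ 5) : x * u = u * x := by
  rw [VW_long (by decide)] at hu
  obtain ⟨x₁, hm1, x₄, hm4, x₅, hm5, h1, h4, h5, h6, h7⟩ := long_elts f hf
  obtain ⟨B, hB⟩ := hE.surj x₁
  obtain ⟨D, hD⟩ := hE.surj x₄
  have hw : σ ⁅D, B⁆ = x₅ := by
    rw [map_commutatorElement, hB, hD, h6]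
  rcases WW5_form hf hf3 hE h1 hm1 h4 h5 hB hD hw hu with rfl | rfl
  · simp
  · exact w_comm hf hf3 hE h5 hw hx

theorem comm14 {x y : Γ} (hx : x ∈ VW σ 1) (hy : y ∈ VW σ 4) : ⁅x, y⁆ ∈ VW σ 5 := by
  have v := vd hf hf3 hE h0
  have h2 := two_of_frob hf
  obtain ⟨x₁, hm1, x₄, hm4, x₅, hm5, h1, h4, h5, h6, h7⟩ := long_elts f hf
  have m1 := v.map 1 (by decide) x hx
  have m4 := v.map 4 (by decide) y hy
  rcases long_form (q := 14) h2 hf (by decide) (x := σ x) m1 with e | e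
  · have : x = 1 := v.inj 1 (by decide) x hx e
    rw [this, commutatorElement_one_left]
    exact Subgroup.one_mem _
  rcases long_form (q := 22) h2 hf (by decide) (x := σ y) m4 with e' | e'
  · have : y = 1 := v.inj 4 (by decide) y hy e'
    rw [this, commutatorElement_one_right]
    exact Subgroup.one_mem _
  have e1 : σ x = x₁ := Subtype.ext (e.trans h1.symm)
  have e2 : σ y = x₄ := Subtype.ext (e'.trans h4.symm)
  have e3 : ⁅σ x, σ y⁆ = x₅⁻¹ := by
    rw [e1, e2, ← h6, commutatorElement_inv]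
  rw [VW_long (by decide)]
  refine Subgroup.subset_closure ⟨x, y, 14, by decide, 22, by decide, by decide, by decide +kernel, m1, m4, ?_, ?_, rfl⟩
  · rw [e3]
    exact Subgroup.inv_mem _ hm5
  · rw [e3, Ne, inv_eq_one]
    exact h7

/-- An element commuting with the generators. -/
theorem comm_UF {x : Γ} {j : ℕ} (h : ∀ l, j ≤ l → l < 6 → ∀ g ∈ VW σ l, x * g = g * x) {w : Γ} (hw : w ∈ UF (VW σ) 6 j) : x * w = w * x := by
  have : x ∈ Subgroup.closure ({x} : Set Γ) := Subgroup.subset_closure rfl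
  refine comm_closure (A := {x}) ?_ this hw
  rintro a rfl b ⟨l, h1, h3, h4⟩
  exact h l h1 h3 b h4

theorem V3_comm {l l' : ℕ} (h1 : 3 ≤ l) (h3 : l < 6) (h4 : 3 ≤ l') (h5 : l' < 6) {a b : Γ} (ha : a ∈ VW σ l) (hb : b ∈ VW σ l') : a * b = b * a := by
  have v := vd hf hf3 hE h0
  have key : ∀ {l l' : ℕ}, l < l' → 3 ≤ l → l' < 6 → ∀ {a b : Γ}, a ∈ VW σ l → b ∈ VW σ l' → a * b = b * a := by
    intro l l' h1 h3 h4 a b ha hb
    have e : (l = 3 ∧ l' = 4) ∨ (l = 3 ∧ l' = 5) ∨ (l = 4 ∧ l' = 5) := by omega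
    rcases e with ⟨rfl, rfl⟩ | ⟨rfl, rfl⟩ | ⟨rfl, rfl⟩
    · exact pair_comm hK hf hf3 hE h0 (by decide) ha hb
    · exact pair_comm hK hf hf3 hE h0 (by decide) ha hb
    · exact V5_cen hK hf hf3 hE h0 (Or.inr (v.map 4 (by decide) a ha)) hb
  rcases lt_trichotomy l l' with h | h | h
  · exact key h h1 h5 ha hb
  · subst h
    exact v.lc l (by omega) a b (v.map l (by omega) a ha) (v.map l (by omega) b hb)
  · exact (key h h4 h3 hb ha).symm

theorem UF3_comm {x y : Γ} (hx : x ∈ UF (VW σ) 6 3) (hy : y ∈ UF (VW σ) 6 3) : x * y = y * x := by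
  refine comm_closure ?_ hx hy
  rintro a ⟨l, h1, h3, h4⟩ b ⟨l', h5, h6, h7⟩
  exact V3_comm hK hf hf3 hE h0 h1 h3 h5 h6 h4 h7

theorem B_act {B : Γ} (hB : B ∈ VW σ 1) {a : Γ} (ha : a ∈ UF (VW σ) 6 4) : ∃ ω ∈ VW σ 5, B * a * B⁻¹ = ω * a := by
  have v := vd hf hf3 hE h0
  have hle : UF (VW σ) 6 4 ≤ UF (VW σ) 6 3 := UF_anti (by decide)
  have h5' : VW σ 5 ≤ UF (VW σ) 6 3 := fun x hx => mem_UF (by decide) (by decide) hx
  unfold UF at ha
  induction ha using Subgroup.closure_induction with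
  | mem y hy =>
    obtain ⟨l, h1, h3, h4⟩ := hy
    have e : l = 4 ∨ l = 5 := by omega
    rcases e with rfl | rfl
    · refine ⟨⁅B, y⁆, comm14 hK hf hf3 hE h0 hB h4, ?_⟩
      rw [commutatorElement_def]
      group
    · refine ⟨1, Subgroup.one_mem _, ?_⟩
      rw [V5_cen hK hf hf3 hE h0 (Or.inl (v.map 1 (by decide) B hB)) h4]
      group
  | one => exact ⟨1, Subgroup.one_mem _, by group⟩
  | mul a b ha' hb' ha hb =>
    obtain ⟨ω, hω, e⟩ := ha
    obtain ⟨ω', hω', e'⟩ := hb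
    refine ⟨ω * ω', Subgroup.mul_mem _ hω hω', ?_⟩
    have c := UF3_comm hK hf hf3 hE h0 (hle ha') (h5' hω')
    calc B * (a * b) * B⁻¹ = (B * a * B⁻¹) * (B * b * B⁻¹) := by group
      _ = ω * a * (ω' * b) := by rw [e, e']
      _ = ω * (a * ω') * b := by group
      _ = ω * (ω' * a) * b := by rw [c]
      _ = _ := by group
  | inv a ha' ha =>
    obtain ⟨ω, hω, e⟩ := ha
    refine ⟨ω⁻¹, Subgroup.inv_mem _ hω, ?_⟩
    have c := UF3_comm hK hf hf3 hE h0 (hle ha') (h5' hω)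
    have e2 : B * a⁻¹ * B⁻¹ = (B * a * B⁻¹)⁻¹ := by group
    rw [e2, e, mul_inv_rev]
    calc a⁻¹ * ω⁻¹ = (ω * a)⁻¹ := by group
      _ = (a * ω)⁻¹ := by rw [c]
      _ = _ := by group

/-- The commutator relation of the two short root groups with the highest root. -/
theorem comm23 {x Y : Γ} (hx : x ∈ VW σ 2) (hY : Y ∈ VW σ 3) : ⁅x, Y⁆ ∈ VW σ 5 := by
  have v := vd hf hf3 hE h0
  have h2 := two_of_frob hf
  obtain ⟨x₁, hm1, x₄, hm4, x₅, hm5, h1, h4, h5, h6, h7⟩ := long_elts f hf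
  obtain ⟨B, hBm, hB⟩ := v.onto 1 (by decide) x₁ hm1
  obtain ⟨A, hA, Q, hQ, e⟩ := I2_gp h2 hf3 h1 (v.map 2 (by decide) x hx)
  obtain ⟨L, hL⟩ := hE.surj A
  obtain ⟨e', he', heσ⟩ := UF_map (U := VW σ) (X := GX (sc f).twG rel) (fun l hl x hx => v.onto l (by omega) x hx) hQ
  have g3 := GX_comm (relT f) (A := (sc f).twG) (k := 0) (s := 3) (by decide) (by decide) hA (v.map 3 (by decide) Y hY)
  obtain ⟨a, ha, haσ⟩ := UF_map (U := VW σ) (X := GX (sc f).twG rel) (fun l hl x hx => v.onto l (by omega) x hx) g3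
  -- central parts
  have hz1 : σ ((x * e')⁻¹ * ⁅L, B⁆) = 1 := by
    rw [map_mul, map_inv, map_commutatorElement, hL, hB, e, map_mul, heσ, inv_mul_cancel]
  have hz2 : σ (a⁻¹ * ⁅L, Y⁆) = 1 := by
    rw [map_mul, map_inv, map_commutatorElement, hL, haσ, inv_mul_cancel]
  obtain ⟨z1, hz1', ez1⟩ : ∃ z, σ z = 1 ∧ ⁅L, B⁆ = x * e' * z := ⟨_, hz1, by group⟩
  obtain ⟨z2, hz2', ez2⟩ : ∃ z, σ z = 1 ∧ ⁅L, Y⁆ = a * z := ⟨_, hz2, by group⟩
  have c1 := hE.cen z1 hz1'
  have c2 := hE.cen z2 hz2'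
  have hBY : B * Y = Y * B := pair_comm hK hf hf3 hE h0 (by decide) hBm hY
  have e1 : L * B * L⁻¹ = x * e' * B * z1 := by
    calc L * B * L⁻¹ = ⁅L, B⁆ * B := by rw [commutatorElement_def]; group
      _ = x * e' * z1 * B := by rw [ez1]
      _ = x * e' * (z1 * B) := by group
      _ = x * e' * (B * z1) := by rw [c1]
      _ = _ := by group
  have e2 : L * Y * L⁻¹ = a * Y * z2 := by
    calc L * Y * L⁻¹ = ⁅L, Y⁆ * Y := by rw [commutatorElement_def]; group
      _ = a * z2 * Y := by rw [ez2]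
      _ = a * (z2 * Y) := by group
      _ = a * (Y * z2) := by rw [c2]
      _ = _ := by group
  have e3 : (L * B * L⁻¹) * (L * Y * L⁻¹) = (L * Y * L⁻¹) * (L * B * L⁻¹) := by
    calc (L * B * L⁻¹) * (L * Y * L⁻¹) = L * (B * Y) * L⁻¹ := by group
      _ = L * (Y * B) * L⁻¹ := by rw [hBY]
      _ = _ := by group
  rw [e1, e2] at e3
  have main : (x * e' * B) * (a * Y) = (a * Y) * (x * e' * B) := by
    have e4 : (x * e' * B) * (a * Y) * (z1 * z2) = (a * Y) * (x * e' * B) * (z1 * z2) := by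
      calc (x * e' * B) * (a * Y) * (z1 * z2) = (x * e' * B) * ((a * Y) * z1) * z2 := by group
        _ = (x * e' * B) * (z1 * (a * Y)) * z2 := by rw [c1]
        _ = (x * e' * B * z1) * (a * Y * z2) := by group
        _ = (a * Y * z2) * (x * e' * B * z1) := e3
        _ = (a * Y) * (z2 * (x * e' * B)) * z1 := by group
        _ = (a * Y) * ((x * e' * B) * z2) * z1 := by rw [c2]
        _ = (a * Y) * (x * e' * B) * (z2 * z1) := by group
        _ = (a * Y) * (x * e' * B) * (z1 * z2) := by rw [c1]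
    exact mul_right_cancel e4
  obtain ⟨ω, hω, eω⟩ := B_act hK hf hf3 hE h0 hBm ha
  have hle : UF (VW σ) 6 4 ≤ UF (VW σ) 6 3 := UF_anti (by decide)
  have h5' : VW σ 5 ≤ UF (VW σ) 6 3 := fun x hx => mem_UF (by decide) (by decide) hx
  have hY' : Y ∈ UF (VW σ) 6 3 := mem_UF (by decide) (by decide) hY
  have hxa : x * a = a * x := by
    refine comm_UF hK hf hf3 hE h0 ?_ ha
    intro l h8 h9 g hg
    have e5 : l = 4 ∨ l = 5 := by omega
    rcases e5 with rfl | rfl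
    · exact pair_comm hK hf hf3 hE h0 (by decide) hx hg
    · exact pair_comm hK hf hf3 hE h0 (by decide) hx hg
  have hr := hw_core hBY (UF3_comm hK hf hf3 hE h0 he' hY') (UF3_comm hK hf hf3 hE h0 he' (hle ha))
    (UF3_comm hK hf hf3 hE h0 he' (h5' hω)) (UF3_comm hK hf hf3 hE h0 (hle ha) (h5' hω)) hxa
    (pair_comm hK hf hf3 hE h0 (by decide) hx hω) eω main
  rw [hr]
  exact Subgroup.inv_mem _ hω

/-- The relation transported by the Weyl element of the long simple root. -/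
theorem comm03 {x y : Γ} (hx : x ∈ VW σ 0) (hy : y ∈ VW σ 3) : ⁅x, y⁆ ∈ VW σ 4 := by
  have v := vd hf hf3 hE h0
  have t := rtab f
  obtain ⟨e1, e2, e3⟩ := ss_vals
  obtain ⟨g, hg⟩ := hE.surj (nn (sc f) (fun a => a) 1)
  have hN : σ g ∈ GN (sc f).twG := by
    rw [hg]
    exact mem_GN.2 (t.nn_mono (by decide))
  have hN' : σ g⁻¹ ∈ GN (sc f).twG := by
    rw [map_inv]
    exact Subgroup.inv_mem _ hN
  have c1 : g⁻¹ * x * g ∈ VW σ 2 := by
    have := v.conj g⁻¹ hN' 0 (by decide) 2 (by decide) (by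
      intro u hu
      rw [map_inv, hg, inv_inv]
      exact t.act_inv (a := 1) (r := 2) (by decide) (by decide) u (by rw [e1]; exact hu)) x hx
    simpa using this
  have c2 : g⁻¹ * y * g ∈ VW σ 3 := by
    have := v.conj g⁻¹ hN' 3 (by decide) 3 (by decide) (by
      intro u hu
      rw [map_inv, hg, inv_inv]
      exact t.act_inv (a := 1) (r := 3) (by decide) (by decide) u (by rw [e2]; exact hu)) y hy
    simpa using this
  have c3 := comm23 hK hf hf3 hE h0 c1 c2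
  have c4 := v.conj g hN 5 (by decide) 4 (by decide) (by
    intro u hu
    rw [hg]
    have := (t.act (a := 1) (r := 5) (by decide) (by decide)).2 u hu
    rw [e3] at this
    exact this) _ c3
  have e4 : g * ⁅g⁻¹ * x * g, g⁻¹ * y * g⁆ * g⁻¹ = ⁅x, y⁆ := by
    simp only [commutatorElement_def]
    group
  rw [e4] at c4
  exact c4

/-- Injectivity on the top part. -/
theorem W_inj {u : Γ} (hu : u ∈ UF (VW σ) 6 3) (e : σ u = 1) : u = 1 := by
  have v := vd hf hf3 hE h0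
  let U : ℕ → Subgroup Γ := fun l => if 3 ≤ l then VW σ l else ⊥
  have hU1 : ∀ {l}, 3 ≤ l → U l = VW σ l := fun h => if_pos h
  have hU2 : ∀ {l}, ¬ 3 ≤ l → U l = ⊥ := fun h => if_neg h
  have hcl : UF U 6 3 = UF (VW σ) 6 3 := by
    unfold UF
    congr 1
    ext g
    constructor
    · rintro ⟨l, h1, h3, h4⟩
      exact ⟨l, h1, h3, by rwa [hU1 h1] at h4⟩
    · rintro ⟨l, h1, h3, h4⟩
      exact ⟨l, h1, h3, by rwa [hU1 h1]⟩
  have hmem : ∀ {l j}, j ≤ l → ∀ x ∈ UF U 6 j, σ x ∈ UF (GX (sc f).twG rel) 6 j := by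
    intro l j _ x hx
    unfold UF at hx
    induction hx using Subgroup.closure_induction with
    | mem a ha =>
      obtain ⟨r', h3, h4, h5⟩ := ha
      by_cases h6 : 3 ≤ r'
      · rw [hU1 h6] at h5
        exact mem_UF h3 h4 (v.map r' (by omega) a h5)
      · rw [hU2 h6, Subgroup.mem_bot] at h5
        rw [h5, map_one]
        exact Subgroup.one_mem _
    | one =>
      rw [map_one]
      exact Subgroup.one_mem _
    | mul x y _ _ hx hy =>
      rw [map_mul]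
      exact Subgroup.mul_mem _ hx hy
    | inv x _ hx =>
      rw [map_inv]
      exact Subgroup.inv_mem _ hx
  have hP : ∀ k s, k < s → s < 6 → PP U 6 k s := by
    intro k s h1 h3 x hx y hy
    by_cases h4 : 3 ≤ k
    · have h5 : 3 ≤ s := by omega
      rw [hU1 h4] at hx
      rw [hU1 h5] at hy
      have := V3_comm hK hf hf3 hE h0 h4 (by omega) h5 h3 hx hy
      rw [commutatorElement_eq_one_iff_mul_comm.2 this]
      exact Subgroup.one_mem _
    · rw [hU2 h4, Subgroup.mem_bot] at hx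
      rw [hx, commutatorElement_one_left]
      exact Subgroup.one_mem _
  refine UF_inj (U := U) hP ?_ ?_ 3 u (by rw [hcl]; exact hu) e
  · intro l hl x hx e1
    by_cases h4 : 3 ≤ l
    · rw [hU1 h4] at hx
      exact v.inj l (by omega) x hx e1
    · rw [hU2 h4, Subgroup.mem_bot] at hx
      exact hx
  · intro l hl x hx w hw e1
    by_cases h4 : 3 ≤ l
    · rw [hU1 h4] at hx
      exact GX_dis (relT f) hl (v.map l (by omega) x hx) (hmem le_rfl w hw) e1
    · rw [hU2 h4, Subgroup.mem_bot] at hx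
      rw [hx, map_one]

end Rel

end Cfsg.Agent.Lib.TwStem.D4
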