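import Cfsg.Agent.Lib.TwStem.D4TwoE

/-!
# `³D₄(2)`: the remaining relation and the main theorem
-/

set_option autoImplicit false
set_option linter.unusedSectionVars false
set_option linter.unusedVariables false

namespace Cfsg.Agent.Lib.TwStem.D4

open scoped commutatorElement
open Cfsg Cfsg.Lie Cfsg.Agent.Lib.Chev Cfsg.Agent.Lib.Chev.TwD4 Equiv
open Cfsg.Agent.Lib.SL2Core Cfsg.Agent.Lib.SL2Bor Cfsg.Agent.Lib.StK Cfsg.Agent.Lib.ChevLift Cfsg.Agent.Lib.ChevLift.RD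

theorem cen_help1 {G : Type*} [Group G] {a w w' c c' : G} (h1 : ∀ x, c * x = x * c) (h2 : ∀ x, c' * x = x * c') :
    a * (w' * c') * a⁻¹ * (w * c) * (c * c')⁻¹ = a * w' * a⁻¹ * w := by
  calc a * (w' * c') * a⁻¹ * (w * c) * (c * c')⁻¹ = a * w' * (c' * a⁻¹) * (w * c) * (c * c')⁻¹ := by group
    _ = a * w' * (a⁻¹ * c') * (w * c) * (c * c')⁻¹ := by rw [h2]
    _ = a * w' * a⁻¹ * (c' * (w * c)) * (c * c')⁻¹ := by group
    _ = a * w' * a⁻¹ * ((w * c) * c') * (c * c')⁻¹ := by rw [h2]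
    _ = _ := by group

theorem cen_help2 {G : Type*} [Group G] {y w w' c c' : G} (h1 : ∀ x, c * x = x * c) (h2 : ∀ x, c' * x = x * c') :
    (w * c) * (y * (w' * c') * y⁻¹) * (c * c')⁻¹ = w * (y * w' * y⁻¹) := by
  calc (w * c) * (y * (w' * c') * y⁻¹) * (c * c')⁻¹ = w * (c * (y * w' * (c' * y⁻¹))) * (c * c')⁻¹ := by group
    _ = w * (c * (y * w' * (y⁻¹ * c'))) * (c * c')⁻¹ := by rw [h2]
    _ = w * (c * ((y * w' * y⁻¹) * c')) * (c * c')⁻¹ := by group
    _ = w * (((y * w' * y⁻¹) * c') * c) * (c * c')⁻¹ := by rw [h1]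
    _ = w * (y * w' * y⁻¹) * (c' * c) * (c * c')⁻¹ := by group
    _ = w * (y * w' * y⁻¹) * (c * c') * (c * c')⁻¹ := by rw [h1]
    _ = _ := by group

variable {K : Type*} [Field K] [Fintype K] {f : K ≃+* K}

variable {Γ : Type*} [Group Γ] {σ : Γ →* ↥(sc f).twG.G1} [Finite Γ]

section Rel

variable (hK : Fintype.card K = 2 ^ 3) (hf : ∀ t, f t = t ^ 2) (hf3 : ∀ t, f^[3] t = t) (hE : CE σ)
  (h0 : Good σ (GT (sc f).twG) (GX (sc f).twG rel 0))

include hK hf hf3 hE h0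

theorem PP_of_comm {k s : ℕ} (h : ∀ x ∈ VW σ k, ∀ y ∈ VW σ s, x * y = y * x) : PP (VW σ) 6 k s := by
  intro x hx y hy
  rw [commutatorElement_eq_one_iff_mul_comm.2 (h x hx y hy)]
  exact Subgroup.one_mem _

theorem PP0 : ∀ s', 2 < s' → s' < 6 → PP (VW σ) 6 0 s' := by
  intro s' h1 h3
  have e : s' = 3 ∨ s' = 4 ∨ s' = 5 := by omega
  rcases e with rfl | rfl | rfl
  · intro x hx y hy
    exact mem_UF (by decide) (by decide) (comm03 hK hf hf3 hE h0 hx hy)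
  · exact PP_of_comm hK hf hf3 hE h0 fun x hx y hy => pair_comm hK hf hf3 hE h0 (by decide) hx hy
  · exact PP_of_comm hK hf hf3 hE h0 fun x hx y hy => pair_comm hK hf hf3 hE h0 (by decide) hx hy

theorem PP2 : ∀ s', 2 < s' → s' < 6 → PP (VW σ) 6 2 s' := by
  intro s' h1 h3
  have e : s' = 3 ∨ s' = 4 ∨ s' = 5 := by omega
  rcases e with rfl | rfl | rfl
  · intro x hx y hy
    exact mem_UF (by decide) (by decide) (comm23 hK hf hf3 hE h0 hx hy)
  · exact PP_of_comm hK hf hf3 hE h0 fun x hx y hy => pair_comm hK hf hf3 hE h0 (by decide) hx hy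
  · exact PP_of_comm hK hf hf3 hE h0 fun x hx y hy => pair_comm hK hf hf3 hE h0 (by decide) hx hy

/-- The relation between the two short root groups. -/
theorem comm02 : PP (VW σ) 6 0 2 := by
  classical
  have v := vd hf hf3 hE h0
  have h2 := two_of_frob hf
  obtain ⟨r0, r1, r2, r3, r4, r5⟩ := rel_vals
  have hp0 : ∀ s : K, ∃ m : EE f 18 s ∈ (sc f).twG.G1, (⟨_, m⟩ : ↥(sc f).twG.G1) ∈ GX (sc f).twG rel 0 := by
    intro s
    have := EE_mem (f := f) h2 hf3 (r := 18) (by decide) s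
    rwa [r0] at this
  have hp2 : ∀ s : K, ∃ m : EE f 19 s ∈ (sc f).twG.G1, (⟨_, m⟩ : ↥(sc f).twG.G1) ∈ GX (sc f).twG rel 2 := by
    intro s
    have := EE_mem (f := f) h2 hf3 (r := 19) (by decide) s
    rwa [r2] at this
  choose m0 hm0 using hp0
  choose m2 hm2 using hp2
  choose L₀ hL₀ hL₀' using fun s => v.onto 0 (by decide) _ (hm0 s)
  choose L₂ hL₂ hL₂' using fun s => v.onto 2 (by decide) _ (hm2 s)
  have eqV : ∀ {r : ℕ}, r < 12 → ∀ {u u' : Γ}, u ∈ VW σ r → u' ∈ VW σ r → σ u = σ u' → u = u' := by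
    intro r hr u u' hu hu' e
    have := v.inj r hr (u * u'⁻¹) (Subgroup.mul_mem _ hu (Subgroup.inv_mem _ hu')) (by rw [map_mul, map_inv, e, mul_inv_cancel])
    exact mul_inv_eq_one.1 this
  have addL₀ : ∀ s s', L₀ (s + s') = L₀ s * L₀ s' := by
    intro s s'
    refine eqV (r := 0) (by decide) (hL₀ _) (Subgroup.mul_mem _ (hL₀ _) (hL₀ _)) ?_
    rw [map_mul, hL₀', hL₀', hL₀']
    exact Subtype.ext (EE_add0 h2 s s')
  have addL₂ : ∀ s s', L₂ (s + s') = L₂ s * L₂ s' := by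
    intro s s'
    refine eqV (r := 2) (by decide) (hL₂ _) (Subgroup.mul_mem _ (hL₂ _) (hL₂ _)) ?_
    rw [map_mul, hL₂', hL₂', hL₂']
    exact Subtype.ext (EE_add2 h2 s s')
  have hex : ∀ s t, ∃ z, σ z = 1 ∧ ⁅L₀ s, L₂ t⁆ * z⁻¹ ∈ UF (VW σ) 6 3 := by
    intro s t
    have g := GX_comm (relT f) (A := (sc f).twG) (k := 0) (s := 2) (by decide) (by decide) (v.map 0 (by decide) _ (hL₀ s)) (v.map 2 (by decide) _ (hL₂ t))
    obtain ⟨w, hw, ew⟩ := UF_map (U := VW σ) (X := GX (sc f).twG rel) (fun l hl x hx => v.onto l (by omega) x hx) g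
    refine ⟨w⁻¹ * ⁅L₀ s, L₂ t⁆, ?_, ?_⟩
    · rw [map_mul, map_inv, map_commutatorElement, ew, inv_mul_cancel]
    · have e : ⁅L₀ s, L₂ t⁆ * (w⁻¹ * ⁅L₀ s, L₂ t⁆)⁻¹ = w := by group
      rw [e]
      exact hw
  choose B hB1 hB2 using hex
  have huniq : ∀ s t z, σ z = 1 → ⁅L₀ s, L₂ t⁆ * z⁻¹ ∈ UF (VW σ) 6 3 → B s t = z := by
    intro s t z hz hz'
    have h3 : (⁅L₀ s, L₂ t⁆ * z⁻¹)⁻¹ * (⁅L₀ s, L₂ t⁆ * (B s t)⁻¹) ∈ UF (VW σ) 6 3 :=
      Subgroup.mul_mem _ (Subgroup.inv_mem _ hz') (hB2 s t)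
    have e1 : (⁅L₀ s, L₂ t⁆ * z⁻¹)⁻¹ * (⁅L₀ s, L₂ t⁆ * (B s t)⁻¹) = z * (B s t)⁻¹ := by group
    rw [e1] at h3
    have h4 := W_inj hK hf hf3 hE h0 h3 (by rw [map_mul, map_inv, hz, hB1, one_mul, inv_one])
    exact (mul_inv_eq_one.1 h4).symm
  have hnorm0 : ∀ x ∈ VW σ 0, ∀ w ∈ UF (VW σ) 6 3, x * w * x⁻¹ ∈ UF (VW σ) 6 3 :=
    fun x hx w hw => norm_UF (k := 0) (s := 2) (PP0 hK hf hf3 hE h0) hx hw
  have hnorm2 : ∀ x ∈ VW σ 2, ∀ w ∈ UF (VW σ) 6 3, x * w * x⁻¹ ∈ UF (VW σ) 6 3 :=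
    fun x hx w hw => norm_UF (k := 2) (s := 2) (PP2 hK hf hf3 hE h0) hx hw
  have hl : ∀ s s' t, B (s + s') t = B s t * B s' t := by
    intro s s' t
    apply huniq
    · rw [map_mul, hB1, hB1, one_mul]
    · have e1 := hE.cen _ (hB1 s t)
      have e2 := hE.cen _ (hB1 s' t)
      have w1 := hB2 s t
      have w2 := hB2 s' t
      rw [addL₀]
      have e3 : ⁅L₀ s * L₀ s', L₂ t⁆ = L₀ s * ⁅L₀ s', L₂ t⁆ * (L₀ s)⁻¹ * ⁅L₀ s, L₂ t⁆ := by
        simp only [commutatorElement_def]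
        group
      generalize hw1 : ⁅L₀ s, L₂ t⁆ * (B s t)⁻¹ = w at w1
      generalize hw2 : ⁅L₀ s', L₂ t⁆ * (B s' t)⁻¹ = w' at w2
      have e4 : ⁅L₀ s, L₂ t⁆ = w * B s t := by rw [← hw1]; group
      have e5 : ⁅L₀ s', L₂ t⁆ = w' * B s' t := by rw [← hw2]; group
      rw [e3, e4, e5, cen_help1 e1 e2]
      exact Subgroup.mul_mem _ (hnorm0 _ (hL₀ s) _ w2) w1
  have hr : ∀ s t t', B s (t + t') = B s t * B s t' := by
    intro s t t'
    apply huniq
    · rw [map_mul, hB1, hB1, one_mul]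
    · have e1 := hE.cen _ (hB1 s t)
      have e2 := hE.cen _ (hB1 s t')
      have w1 := hB2 s t
      have w2 := hB2 s t'
      rw [addL₂]
      have e3 : ⁅L₀ s, L₂ t * L₂ t'⁆ = ⁅L₀ s, L₂ t⁆ * (L₂ t * ⁅L₀ s, L₂ t'⁆ * (L₂ t)⁻¹) := by
        simp only [commutatorElement_def]
        group
      generalize hw1 : ⁅L₀ s, L₂ t⁆ * (B s t)⁻¹ = w at w1
      generalize hw2 : ⁅L₀ s, L₂ t'⁆ * (B s t')⁻¹ = w' at w2
      have e4 : ⁅L₀ s, L₂ t⁆ = w * B s t := by rw [← hw1]; group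
      have e5 : ⁅L₀ s, L₂ t'⁆ = w' * B s t' := by rw [← hw2]; group
      rw [e3, e4, e5, cen_help2 e1 e2]
      exact Subgroup.mul_mem _ w1 (hnorm2 _ (hL₂ t) _ w2)
  have hsc : ∀ c : K, c ≠ 0 → ∀ s t, B (c * s) (c * t) = B s t := by
    intro c hc s t
    obtain ⟨z, hz⟩ := exists_sq hf (Units.mk0 c hc)
    have hzc : ((z * z : Kˣ) : K) = c := by rw [hz]; rfl
    obtain ⟨H, hH⟩ := hE.surj (tz hf3 z)
    have hT : σ H ∈ GT (sc f).twG := by
      rw [hH]
      exact tz_GT hf3 z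
    have e0 : H * L₀ s * H⁻¹ = L₀ (c * s) := by
      refine eqV (r := 0) (by decide) (v.conj H (GT_le_GN hT) 0 (by decide) 0 (by decide) (fun x hx => GT_act hT hx) _ (hL₀ s)) (hL₀ _) ?_
      rw [map_mul, map_mul, map_inv, hH, hL₀', hL₀']
      apply Subtype.ext
      have := tz_scale hf hf3 z (r := 18) (Or.inl rfl) s
      rw [hzc] at this
      exact this
    have e2 : H * L₂ t * H⁻¹ = L₂ (c * t) := by
      refine eqV (r := 2) (by decide) (v.conj H (GT_le_GN hT) 2 (by decide) 2 (by decide) (fun x hx => GT_act hT hx) _ (hL₂ t)) (hL₂ _) ?_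
      rw [map_mul, map_mul, map_inv, hH, hL₂', hL₂']
      apply Subtype.ext
      have := tz_scale hf hf3 z (r := 19) (Or.inr rfl) t
      rw [hzc] at this
      exact this
    apply huniq
    · exact hB1 s t
    · rw [← e0, ← e2]
      have e3 : ⁅H * L₀ s * H⁻¹, H * L₂ t * H⁻¹⁆ * (B s t)⁻¹ = H * (⁅L₀ s, L₂ t⁆ * (B s t)⁻¹) * H⁻¹ := by
        have c1 := hE.cen _ (hB1 s t) H⁻¹
        have e4 : ⁅H * L₀ s * H⁻¹, H * L₂ t * H⁻¹⁆ = H * ⁅L₀ s, L₂ t⁆ * H⁻¹ := by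
          simp only [commutatorElement_def]
          group
        rw [e4]
        generalize ⁅L₀ s, L₂ t⁆ = C
        have c2 : (B s t)⁻¹ * H⁻¹ = H⁻¹ * (B s t)⁻¹ := by
          calc (B s t)⁻¹ * H⁻¹ = (B s t)⁻¹ * (H⁻¹ * B s t) * (B s t)⁻¹ := by group
            _ = (B s t)⁻¹ * (B s t * H⁻¹) * (B s t)⁻¹ := by rw [c1]
            _ = _ := by group
        calc H * C * H⁻¹ * (B s t)⁻¹ = H * C * (H⁻¹ * (B s t)⁻¹) := by group
          _ = H * C * ((B s t)⁻¹ * H⁻¹) := by rw [c2]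
          _ = _ := by group
      rw [e3]
      have key : ∀ w ∈ UF (VW σ) 6 3, H * w * H⁻¹ ∈ UF (VW σ) 6 3 := by
        intro w hw
        unfold UF at hw
        induction hw using Subgroup.closure_induction with
        | mem a ha =>
          obtain ⟨l, h1, h3, h4⟩ := ha
          exact mem_UF h1 h3 (v.conj H (GT_le_GN hT) l (by omega) l (by omega) (fun x hx => GT_act hT hx) a h4)
        | one => simp [Subgroup.one_mem]
        | mul a b _ _ ha hb =>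
          have e : H * (a * b) * H⁻¹ = H * a * H⁻¹ * (H * b * H⁻¹) := by group
          rw [e]
          exact Subgroup.mul_mem _ ha hb
        | inv a _ ha =>
          have e : H * a⁻¹ * H⁻¹ = (H * a * H⁻¹)⁻¹ := by group
          rw [e]
          exact Subgroup.inv_mem _ ha
      exact key _ (hB2 s t)
  have hc5 : 5 ≤ Fintype.card K := by
    rw [hK]
    decide
  obtain ⟨ρ, h1, h3, h4⟩ := exists_rho hc5
  have hB : ∀ s t, B s t = 1 := biadd_trivial B hl hr hsc h1 h3 h4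
  intro x hx y hy
  obtain ⟨s, hs⟩ := EE_form (f := f) h2 (r := 18) (by decide) (x := σ x) (by rw [r0]; exact v.map 0 (by decide) x hx)
  obtain ⟨t, ht⟩ := EE_form (f := f) h2 (r := 19) (by decide) (x := σ y) (by rw [r2]; exact v.map 2 (by decide) y hy)
  have e1 : x = L₀ s := eqV (r := 0) (by decide) hx (hL₀ s) (by rw [hL₀']; exact Subtype.ext hs)
  have e2 : y = L₂ t := eqV (r := 2) (by decide) hy (hL₂ t) (by rw [hL₂']; exact Subtype.ext ht)
  have := hB2 s t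
  rw [hB, inv_one, mul_one] at this
  rw [e1, e2]
  exact this

/-- All the relations. -/
theorem hP_all : ∀ k s, k < s → s < 6 → PP (VW σ) 6 k s := by
  have v := vd hf hf3 hE h0
  have hpc : ∀ {k s : ℕ}, (k, s) ∈ ([(0, 4), (0, 5), (1, 2), (1, 3), (2, 4), (2, 5), (3, 4), (3, 5)] : List (ℕ × ℕ)) → PP (VW σ) 6 k s :=
    fun hp => PP_of_comm hK hf hf3 hE h0 fun x hx y hy => pair_comm hK hf hf3 hE h0 hp hx hy
  have h15 : PP (VW σ) 6 1 5 := PP_of_comm hK hf hf3 hE h0 fun x hx y hy => V5_cen hK hf hf3 hE h0 (Or.inl (v.map 1 (by decide) x hx)) hy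
  have h45 : PP (VW σ) 6 4 5 := PP_of_comm hK hf hf3 hE h0 fun x hx y hy => V5_cen hK hf hf3 hE h0 (Or.inr (v.map 4 (by decide) x hx)) hy
  have h14 : PP (VW σ) 6 1 4 := fun x hx y hy => mem_UF (by decide) (by decide) (comm14 hK hf hf3 hE h0 hx hy)
  have h23 : PP (VW σ) 6 2 3 := fun x hx y hy => mem_UF (by decide) (by decide) (comm23 hK hf hf3 hE h0 hx hy)
  have h03 : PP (VW σ) 6 0 3 := fun x hx y hy => mem_UF (by decide) (by decide) (comm03 hK hf hf3 hE h0 hx hy)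
  have h02 := comm02 hK hf hf3 hE h0
  refine all_PP ?_
  intro k s hks hs hP1 hP2
  have hk6 : k < 6 := by omega
  interval_cases k <;> interval_cases s
  · -- (0, 1)
    have hq : IsPrimePow 2 := Nat.prime_two.isPrimePow
    obtain ⟨z, -, hz⟩ := exists_z3 hq hK hf
    refine PP_of_wit (T := GT (sc f).twG) (X := GX (sc f).twG rel) hE (by decide) (by decide) (fun r hr => v.map r (by omega))
      (fun r hr => v.onto r (by omega)) (fun r hr => v.inj r (by omega)) ?_ ?_ ?_ hP1 hP2 ?_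
    · intro r hr a ha b hb
      exact v.lc r (by omega) a b (v.map r (by omega) a ha) (v.map r (by omega) b hb)
    · intro g hg r hr u hu
      exact v.conj g (GT_le_GN hg) r (by omega) r (by omega) (fun x hx => GT_act hg hx) u hu
    · intro x hx y hy
      exact GX_comm (relT f) (by decide) (by decide) hx hy
    · exact ⟨_, tz_GT hf3 z, Or.inr ⟨fun y hy => tz_fix hf hf3 z (Or.inl rfl) hy, fun x hx e => tz_fpf hf hf3 hz (Or.inl rfl) hx e⟩⟩
  · exact h02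
  · exact h03
  · exact hpc (by decide)
  · exact hpc (by decide)
  · exact hpc (by decide)
  · exact hpc (by decide)
  · exact h14
  · exact h15
  · exact h23
  · exact hpc (by decide)
  · exact hpc (by decide)
  · exact hpc (by decide)
  · exact hpc (by decide)
  · exact h45

end Rel

/-! ### The main theorem -/

omit [Finite Γ] in
theorem ker_eq_bot2 (hK : Fintype.card K = 2 ^ 3) (hf : ∀ t, f t = t ^ 2)
    (hf3 : ∀ t, f^[3] t = t) [Finite Γ] (hσ : IsStemExtension σ) : σ.ker = ⊥ := by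
  classical
  have t := rtab f
  have hq : IsPrimePow 2 := Nat.prime_two.isPrimePow
  have hE : CE σ := ⟨hσ.1, fun z hz x => by
    have h1 : z ∈ σ.ker := hz
    have h2 := hσ.2.1 h1
    exact (Subgroup.mem_center_iff.1 h2 x).symm⟩
  obtain ⟨φ0, P0⟩ := Cfsg.Agent.Lib.TwStem.SCOK.exists_classHom (sc f) (i := 0) (by decide)
  obtain ⟨φ1, P1⟩ := Cfsg.Agent.Lib.TwStem.SCOK.exists_classHom (sc f) (i := 1) (by decide)
  have h0 := good0 hE hq hK hf hf3 P0
  have v := vd hf hf3 hE h0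
  have hcl : ∀ a < 2, ∃ φ : SL2 ↥(Sb f (dd a)) →* GL chevD4.Idx K, ClassHom (sc f) a φ ∧
      ∀ c : ↥(Sb f (dd a)), c ≠ 0 → φ (wd c * wd (-1)) = 1 → c = 1 := by
    intro a ha
    interval_cases a
    · exact ⟨φ0, P0, hker0 hf3 P0⟩
    · exact ⟨φ1, P1, hker1 hf3 P1⟩
  obtain ⟨nh, S⟩ := t.exists_tsysV hE v (hP_all hK hf hf3 hE h0) hcl
  have : Finite (CoxeterMatrix.G₂).Group := Cfsg.Agent.Lib.CoxG2.main.1
  obtain ⟨Φ, hΦ1, hΦ2⟩ := exists_phi (sc f) CoxeterMatrix.G₂ repG (by decide +kernel) hrelG (by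
      intro i hi
      have hi' : i < 4 := hi
      interval_cases i
      · exact ⟨0, rfl⟩
      · exact ⟨1, rfl⟩
      · exact ⟨0, by decide +kernel⟩
      · exact ⟨0, by decide +kernel⟩) TwWD4.gen_inv TwWD4.gm_ok TwWD4.w_ok (by
      rw [Cfsg.Agent.Lib.CoxG2.main.2.1]
      decide +kernel)
  refine S.ker_eq_bot hσ CoxeterMatrix.G₂ Φ (fun t ht => hΦ1 t ht) ?_ ?_ ?_
  · intro a
    have e : (⟨nn (sc f) (fun a => a) a, S.n_mem a a.2⟩ : ↥(GN (sc f).twG)) =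
        ⟨⟨((sc f).twG.nC (repG a)).1, (sc f).twG.nC_mem _ (by
          have := a.2
          show a.1 < 4
          omega)⟩, mem_GN.2 ((sc f).twG.nC (repG a)).2⟩ :=
      Subtype.ext (Subtype.ext (t.nn_val a.2))
    rw [e]
    exact hΦ2 a
  · intro a b
    by_cases hab : a = b
    · subst hab
      rw [CoxeterMatrix.diagonal, pow_one]
      exact S.TL_le_Tt a.2 (S.nh_sq a.2)
    · refine S.hbr_of a.2 b.2 (brOK_table a b hab) ?_
      exact pow_mem_GT a.2 b.2 (hrelG a b)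
  · -- the lifted torus
    intro x hx e
    have hrk0 := t.rank1V hE v (a := 0) (by decide) P0 (hker0 hf3 P0)
    have hrk1 := t.rank1V hE v (a := 1) (by decide) P1 (hker1 hf3 P1)
    obtain ⟨-, -, -, -, -, r0⟩ := hrk0
    obtain ⟨-, -, -, -, -, r1⟩ := hrk1
    have key : ∃ t0 ∈ TL σ (GT (sc f).twG) (VW σ) 6 0, ∃ t1 ∈ TL σ (GT (sc f).twG) (VW σ) 6 1, x = t0 * t1 := by
      clear e
      unfold Tt at hx
      induction hx using Subgroup.closure_induction with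
      | mem y hy =>
        obtain ⟨i, hi, hy⟩ := hy
        interval_cases i
        · exact ⟨y, hy, 1, Subgroup.one_mem _, by simp⟩
        · exact ⟨1, Subgroup.one_mem _, y, hy, by simp⟩
      | one => exact ⟨1, Subgroup.one_mem _, 1, Subgroup.one_mem _, by simp⟩
      | mul a b _ _ ha hb =>
        obtain ⟨a0, ha0, a1, ha1, rfl⟩ := ha
        obtain ⟨b0, hb0, b1, hb1, rfl⟩ := hb
        refine ⟨a0 * b0, Subgroup.mul_mem _ ha0 hb0, a1 * b1, Subgroup.mul_mem _ ha1 hb1, ?_⟩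
        have e1 := S.TL_comm (by decide : 1 < 2) (by decide : 0 < 2) ha1 hb0
        calc a0 * a1 * (b0 * b1) = a0 * (a1 * b0) * b1 := by group
          _ = a0 * (b0 * a1) * b1 := by rw [e1]
          _ = _ := by group
      | inv a _ ha =>
        obtain ⟨a0, ha0, a1, ha1, rfl⟩ := ha
        refine ⟨a0⁻¹, Subgroup.inv_mem _ ha0, a1⁻¹, Subgroup.inv_mem _ ha1, ?_⟩
        have e1 := S.TL_comm (by decide : 1 < 2) (by decide : 0 < 2) (Subgroup.inv_mem _ ha1) (Subgroup.inv_mem _ ha0)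
        rw [mul_inv_rev, e1]
    obtain ⟨t0, ht0, t1, ht1, rfl⟩ := key
    obtain ⟨c0, hc0, e0⟩ := r0 t0 ht0
    obtain ⟨c1, hc1, e1⟩ := r1 t1 ht1
    have e0' : ((σ t0 : ↥(sc f).twG.G1) : GL chevD4.Idx K) = tor RootD4T.R chevD4 (cc f (uS c0 hc0) 1) := by
      rw [e0]
      exact D_class0 hf3 P0 c0 hc0
    have e1' : ((σ t1 : ↥(sc f).twG.G1) : GL chevD4.Idx K) = tor RootD4T.R chevD4 (cc f 1 (uS c1 hc1)) := by
      rw [e1]
      exact D_class1 P1 c1 hc1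
    have hmul : cc f (uS c0 hc0) 1 * cc f 1 (uS c1 hc1) = cc f (uS c0 hc0) (uS c1 hc1) := by
      funext j
      revert j
      refine fin4_cases ?_ ?_ ?_ ?_ <;> simp [cc]
    have e2 : tor RootD4T.R chevD4 (cc f (uS c0 hc0) (uS c1 hc1)) = (1 : GL chevD4.Idx K) := by
      rw [← hmul, ← tor_mul, ← e0', ← e1']
      have := congrArg Subtype.val e
      rw [map_mul] at this
      exact this
    obtain ⟨u0, u1⟩ := cc_one hf3 (uS_fix hc1) e2
    have s0 : σ t0 = 1 := by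
      apply Subtype.ext
      rw [e0', u0]
      show tor RootD4T.R chevD4 (cc f 1 1) = 1
      have : cc f (1 : Kˣ) (1 : Kˣ) = 1 := by
        funext j
        revert j
        refine fin4_cases ?_ ?_ ?_ ?_ <;> simp [cc]
      rw [this, tor_one]
    have s1 : σ t1 = 1 := by
      rw [map_mul, s0, one_mul] at e
      exact e
    rw [S.inj_L 0 (by decide) t0 ht0.1 s0, S.inj_L 1 (by decide) t1 ht1.1 s1, one_mul]

/-- The main theorem for `q = 2`. -/
theorem main_q2 (hK : Fintype.card K = 2 ^ 3) :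
    HasCyclicSchurMultiplier ↥(twistedD4 K 2) 1 := by
  have hq : IsPrimePow 2 := Nat.prime_two.isPrimePow
  obtain ⟨f, hf, hf3⟩ := exists_frob3 hq hK
  rw [← G1_eq f hf hf3]
  show HasCyclicSchurMultiplier ↥(sc f).twG.G1 1
  apply Cfsg.Agent.Lib.ChevStem.multiplier_one
  intro Γ _ _ σ hσ
  exact ker_eq_bot2 hK hf hf3 hσ

end Cfsg.Agent.Lib.TwStem.D4
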