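import Cfsg.Agent.Lib.TwStem.Bruhat
import Cfsg.Agent.Lib.TwStem.Cox
import Cfsg.Agent.Lib.ChevStem

/-!
# A central extension of a group with a system of root subgroups

Everything is expressed in terms of subgroups: the root subgroups of the base `X r`, indexed by `r < m` for the positive
ones and by `m + r` for the negative ones, with `r < l` for the simple ones; the torus `T`, the monomial group `N`; and
the lifted root groups `V r`.
-/

set_option autoImplicit false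
set_option linter.unusedSectionVars false
set_option linter.unusedVariables false

namespace Cfsg.Agent.Lib.TwStem

open scoped commutatorElement
open Cfsg

variable {Γ G : Type*} [Group Γ] [Group G]

/-- The lifted rank one group. -/
def LL (V : ℕ → Subgroup Γ) (m i : ℕ) : Subgroup Γ := Subgroup.closure ((V i : Set Γ) ∪ V (m + i))

/-- Its torus. -/
def TL (σ : Γ →* G) (T : Subgroup G) (V : ℕ → Subgroup Γ) (m i : ℕ) : Subgroup Γ := LL V m i ⊓ T.comap σ

/-- The lifted torus. -/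
def Tt (σ : Γ →* G) (T : Subgroup G) (V : ℕ → Subgroup Γ) (l m : ℕ) : Subgroup Γ :=
  Subgroup.closure {g | ∃ i < l, g ∈ TL σ T V m i}

/-- The lifted monomial group. -/
def Nt (σ : Γ →* G) (T : Subgroup G) (V : ℕ → Subgroup Γ) (nh : ℕ → Γ) (l m : ℕ) : Subgroup Γ :=
  Subgroup.closure ({g | ∃ i < l, g ∈ TL σ T V m i} ∪ {g | ∃ i < l, g = nh i})

/-- The system. -/
structure TSys (σ : Γ →* G) (l m : ℕ) (X : ℕ → Subgroup G) (T N : Subgroup G) (n : ℕ → G) (s : ℕ → ℕ → ℕ)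
    (V : ℕ → Subgroup Γ) (nh : ℕ → Γ) : Prop where
  cen : CE σ
  T_le : T ≤ N
  T_ab : ∀ a ∈ T, ∀ b ∈ T, a * b = b * a
  T_nrm : ∀ a ∈ N, ∀ t ∈ T, a * t * a⁻¹ ∈ T
  n_mem : ∀ i < l, n i ∈ N
  n_sq : ∀ i < l, n i * n i ∈ T
  act : ∀ i < l, ∀ r < 2 * m, s i r < 2 * m ∧ ∀ x ∈ X r, n i * x * (n i)⁻¹ ∈ X (s i r)
  act_T : ∀ t ∈ T, ∀ r < 2 * m, ∀ x ∈ X r, t * x * t⁻¹ ∈ X r
  lm : l ≤ m
  swap1 : ∀ i < l, s i i = m + i
  swap2 : ∀ i < l, s i (m + i) = i
  pos : ∀ i < l, ∀ r < m, r ≠ i → s i r < m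
  gen : ∀ g : G, g ∈ Subgroup.closure {x | ∃ i < l, x ∈ X i ∨ x ∈ X (m + i)}
  dich : ∀ a ∈ N, ∀ i < l, ∃ k < m, (∀ x ∈ X i, a⁻¹ * x * a ∈ X k) ∨ (∀ x ∈ X (m + i), a⁻¹ * x * a ∈ X k)
  U_N : ∀ u ∈ Subgroup.closure {x | ∃ r < m, x ∈ X r}, u ∈ N → u = 1
  map : ∀ r < 2 * m, ∀ u ∈ V r, σ u ∈ X r
  onto : ∀ r < 2 * m, ∀ x ∈ X r, ∃ u ∈ V r, σ u = x
  conj : ∀ g, σ g ∈ N → ∀ r < 2 * m, ∀ r' < 2 * m, (∀ x ∈ X r, σ g * x * (σ g)⁻¹ ∈ X r') →
    ∀ u ∈ V r, g * u * g⁻¹ ∈ V r'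
  hP : ∀ k s', k < s' → s' < m → PP V m k s'
  hinjU : ∀ u ∈ UF V m 0, σ u = 1 → u = 1
  nh_mem : ∀ i < l, nh i ∈ LL V m i
  nh_map : ∀ i < l, σ (nh i) = n i
  inj_L : ∀ i < l, ∀ u ∈ LL V m i, σ u = 1 → u = 1
  bru : ∀ i < l, ∀ x ∈ V i, x = 1 ∨ ∃ a ∈ V i, ∃ τ ∈ TL σ T V m i, ∃ b ∈ V (m + i), nh i * x = a * τ * b

namespace TSys

variable {σ : Γ →* G} {l m : ℕ} {X : ℕ → Subgroup G} {T N : Subgroup G} {n : ℕ → G} {s : ℕ → ℕ → ℕ}
  {V : ℕ → Subgroup Γ} {nh : ℕ → Γ} (S : TSys σ l m X T N n s V nh)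

include S

/-- Conjugation of a closure. -/
theorem conj_closure {A : Set Γ} {B : Subgroup Γ} (g : Γ) (h : ∀ a ∈ A, g * a * g⁻¹ ∈ B) {x : Γ}
    (hx : x ∈ Subgroup.closure A) : g * x * g⁻¹ ∈ B := by
  induction hx using Subgroup.closure_induction with
  | mem a ha => exact h a ha
  | one => simp [B.one_mem]
  | mul a b _ _ ha hb =>
    have e : g * (a * b) * g⁻¹ = g * a * g⁻¹ * (g * b * g⁻¹) := by group
    rw [e]
    exact B.mul_mem ha hb
  | inv a _ ha =>
    have e : g * a⁻¹ * g⁻¹ = (g * a * g⁻¹)⁻¹ := by group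
    rw [e]
    exact B.inv_mem ha

/-- A torus element normalises the lifted root groups. -/
theorem conj_T {y : Γ} (hy : σ y ∈ T) {r : ℕ} (hr : r < 2 * m) {u : Γ} (hu : u ∈ V r) : y * u * y⁻¹ ∈ V r :=
  S.conj y (S.T_le hy) r hr r hr (S.act_T _ hy r hr) u hu

theorem hi2 {i : ℕ} (hi : i < l) : i < 2 * m := by
  have := S.lm
  omega

theorem hi3 {i : ℕ} (hi : i < l) : m + i < 2 * m := by
  have := S.lm
  omega

/-- A torus element normalises the lifted rank one groups. -/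
theorem conj_LL_T {y : Γ} (hy : σ y ∈ T) {i : ℕ} (hi : i < l) {u : Γ} (hu : u ∈ LL V m i) : y * u * y⁻¹ ∈ LL V m i := by
  refine S.conj_closure y ?_ hu
  rintro a (ha | ha)
  · exact Subgroup.subset_closure (Or.inl (S.conj_T hy (S.hi2 hi) ha))
  · exact Subgroup.subset_closure (Or.inr (S.conj_T hy (S.hi3 hi) ha))

/-- The conjugation of a rank one group. -/
theorem conj_LL {g : Γ} (hg : σ g ∈ N) {i j r1 r2 : ℕ} (hi : i < l) (hj : j < l) (h1 : r1 = j ∨ r1 = m + j) (h2 : r2 = j ∨ r2 = m + j)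
    (e1 : ∀ x ∈ X i, σ g * x * (σ g)⁻¹ ∈ X r1) (e2 : ∀ x ∈ X (m + i), σ g * x * (σ g)⁻¹ ∈ X r2) {u : Γ} (hu : u ∈ LL V m i) :
    g * u * g⁻¹ ∈ LL V m j := by
  have hsub : ∀ r, (r = j ∨ r = m + j) → (r < 2 * m ∧ V r ≤ LL V m j) := by
    rintro r (rfl | rfl)
    · exact ⟨S.hi2 hj, fun x hx => Subgroup.subset_closure (Or.inl hx)⟩
    · exact ⟨S.hi3 hj, fun x hx => Subgroup.subset_closure (Or.inr hx)⟩
  refine S.conj_closure g ?_ hu
  rintro a (ha | ha)
  · exact (hsub r1 h1).2 (S.conj g hg i (S.hi2 hi) r1 (hsub r1 h1).1 e1 a ha)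
  · exact (hsub r2 h2).2 (S.conj g hg (m + i) (S.hi3 hi) r2 (hsub r2 h2).1 e2 a ha)

/-- Two elements of the lifted torus commute. -/
theorem TL_comm {i j : ℕ} (hi : i < l) (hj : j < l) {t t' : Γ} (ht : t ∈ TL σ T V m i) (ht' : t' ∈ TL σ T V m j) :
    t * t' = t' * t := by
  have h1 : t' * t⁻¹ * t'⁻¹ ∈ LL V m i := S.conj_LL_T ht'.2 hi (Subgroup.inv_mem _ ht.1)
  have h2 : t * (t' * t⁻¹ * t'⁻¹) ∈ LL V m i := Subgroup.mul_mem _ ht.1 h1
  have e1 : σ (t * (t' * t⁻¹ * t'⁻¹)) = 1 := by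
    simp only [map_mul, map_inv]
    have := S.T_ab _ ht.2 _ ht'.2
    calc σ t * (σ t' * (σ t)⁻¹ * (σ t')⁻¹) = σ t * σ t' * (σ t)⁻¹ * (σ t')⁻¹ := by group
      _ = 1 := by rw [this]; group
  have e2 := S.inj_L i hi _ h2 e1
  calc t * t' = (t * (t' * t⁻¹ * t'⁻¹)) * (t' * t) := by group
    _ = t' * t := by rw [e2, one_mul]

theorem Tt_comm {t t' : Γ} (ht : t ∈ Tt σ T V l m) (ht' : t' ∈ Tt σ T V l m) : t * t' = t' * t := by
  have h1 : ∀ a ∈ Subgroup.closure {g | ∃ i < l, g ∈ TL σ T V m i}, ∀ j < l, ∀ b ∈ TL σ T V m j, a * b = b * a := by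
    intro a ha j hj b hb
    induction ha using Subgroup.closure_induction with
    | mem a ha =>
      obtain ⟨i, hi, hai⟩ := ha
      exact S.TL_comm hi hj hai hb
    | one => simp
    | mul x y _ _ hx hy =>
      rw [mul_assoc, hy, ← mul_assoc, hx, mul_assoc]
    | inv x _ hx =>
      calc x⁻¹ * b = x⁻¹ * (b * x) * x⁻¹ := by group
        _ = x⁻¹ * (x * b) * x⁻¹ := by rw [hx]
        _ = b * x⁻¹ := by group
  unfold Tt at ht'
  induction ht' using Subgroup.closure_induction with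
  | mem b hb =>
    obtain ⟨j, hj, hbj⟩ := hb
    exact h1 t ht j hj b hbj
  | one => simp
  | mul x y _ _ hx hy =>
    rw [← mul_assoc, hx, mul_assoc, hy, mul_assoc]
  | inv x _ hx =>
    calc t * x⁻¹ = x⁻¹ * (x * t) * x⁻¹ := by group
      _ = x⁻¹ * (t * x) * x⁻¹ := by rw [hx]
      _ = x⁻¹ * t := by group

theorem TL_le_Tt {i : ℕ} (hi : i < l) : TL σ T V m i ≤ Tt σ T V l m := fun _ hx => Subgroup.subset_closure ⟨i, hi, hx⟩

theorem Tt_map {t : Γ} (ht : t ∈ Tt σ T V l m) : σ t ∈ T := by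
  unfold Tt at ht
  induction ht using Subgroup.closure_induction with
  | mem a ha =>
    obtain ⟨i, hi, h⟩ := ha
    exact h.2
  | one => simp [T.one_mem]
  | mul x y _ _ hx hy =>
    rw [map_mul]
    exact T.mul_mem hx hy
  | inv x _ hx =>
    rw [map_inv]
    exact T.inv_mem hx

theorem Nt_map {t : Γ} (ht : t ∈ Nt σ T V nh l m) : σ t ∈ N := by
  unfold Nt at ht
  induction ht using Subgroup.closure_induction with
  | mem a ha =>
    rcases ha with ⟨i, hi, h⟩ | ⟨i, hi, rfl⟩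
    · exact S.T_le h.2
    · rw [S.nh_map i hi]
      exact S.n_mem i hi
  | one => simp [N.one_mem]
  | mul x y _ _ hx hy =>
    rw [map_mul]
    exact N.mul_mem hx hy
  | inv x _ hx =>
    rw [map_inv]
    exact N.inv_mem hx

theorem Tt_le_Nt : Tt σ T V l m ≤ Nt σ T V nh l m := Subgroup.closure_mono fun _ h => Or.inl h

theorem nh_mem_Nt {i : ℕ} (hi : i < l) : nh i ∈ Nt σ T V nh l m := Subgroup.subset_closure (Or.inr ⟨i, hi, rfl⟩)

/-- The lift of the monomial group normalises the lift of the torus. -/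
theorem Nt_norm {g t : Γ} (hg : g ∈ Nt σ T V nh l m) (ht : t ∈ Tt σ T V l m) : g * t * g⁻¹ ∈ Tt σ T V l m := by
  have hstep : ∀ i < l, ∀ j < l, ∀ t ∈ TL σ T V m j, ∀ e ∈ ({nh i, (nh i)⁻¹} : Set Γ), e * t * e⁻¹ ∈ Tt σ T V l m := by
    intro i hi j hj t ht e he
    have he1 : e ∈ LL V m i := by
      rcases he with rfl | he
      · exact S.nh_mem i hi
      · rw [Set.mem_singleton_iff.1 he]
        exact Subgroup.inv_mem _ (S.nh_mem i hi)
    have he2 : σ e ∈ N := by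
      rcases he with rfl | he
      · rw [S.nh_map i hi]
        exact S.n_mem i hi
      · rw [Set.mem_singleton_iff.1 he, map_inv, S.nh_map i hi]
        exact N.inv_mem (S.n_mem i hi)
    have h1 : t * e⁻¹ * t⁻¹ ∈ LL V m i := S.conj_LL_T ht.2 hi (Subgroup.inv_mem _ he1)
    have h2 : e * (t * e⁻¹ * t⁻¹) ∈ TL σ T V m i := by
      refine ⟨Subgroup.mul_mem _ he1 h1, ?_⟩
      show σ (e * (t * e⁻¹ * t⁻¹)) ∈ T
      have e3 : σ (e * (t * e⁻¹ * t⁻¹)) = (σ e * σ t * (σ e)⁻¹) * (σ t)⁻¹ := by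
        simp only [map_mul, map_inv]
        group
      rw [e3]
      exact T.mul_mem (S.T_nrm _ he2 _ ht.2) (T.inv_mem ht.2)
    have e4 : e * t * e⁻¹ = (e * (t * e⁻¹ * t⁻¹)) * t := by group
    rw [e4]
    exact Subgroup.mul_mem _ (S.TL_le_Tt hi h2) (S.TL_le_Tt hj ht)
  have hbase : ∀ i < l, ∀ e ∈ ({nh i, (nh i)⁻¹} : Set Γ), ∀ t ∈ Tt σ T V l m, e * t * e⁻¹ ∈ Tt σ T V l m := by
    intro i hi e he t ht
    refine S.conj_closure e ?_ ht
    rintro a ⟨j, hj, ha⟩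
    exact hstep i hi j hj a ha e he
  have hT : ∀ y ∈ Tt σ T V l m, ∀ t ∈ Tt σ T V l m, y * t * y⁻¹ ∈ Tt σ T V l m := by
    intro y hy t ht
    rw [S.Tt_comm hy ht]
    simpa using ht
  unfold Nt at hg
  induction hg using Subgroup.closure_induction generalizing t with
  | mem a ha =>
    rcases ha with ⟨i, hi, h⟩ | ⟨i, hi, rfl⟩
    · exact hT _ (S.TL_le_Tt hi h) t ht
    · exact hbase i hi _ (Or.inl rfl) t ht
  | one => simpa using ht
  | mul x y _ _ hx hy =>
    have e : x * y * t * (x * y)⁻¹ = x * (y * t * y⁻¹) * x⁻¹ := by group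
    rw [e]
    exact hx (hy ht)
  | inv x hxm hx =>
    -- use induction on the closure for the inverse
    have key : ∀ x ∈ Subgroup.closure ({g | ∃ i < l, g ∈ TL σ T V m i} ∪ {g | ∃ i < l, g = nh i}),
        ∀ t ∈ Tt σ T V l m, x⁻¹ * t * x⁻¹⁻¹ ∈ Tt σ T V l m := by
      intro x hx
      induction hx using Subgroup.closure_induction with
      | mem a ha =>
        intro t ht
        rcases ha with ⟨i, hi, h⟩ | ⟨i, hi, rfl⟩
        · exact hT _ (Subgroup.inv_mem _ (S.TL_le_Tt hi h)) t ht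
        · exact hbase i hi _ (Or.inr rfl) t ht
      | one =>
        intro t ht
        simpa using ht
      | mul x y _ _ hx hy =>
        intro t ht
        have e : (x * y)⁻¹ * t * (x * y)⁻¹⁻¹ = y⁻¹ * (x⁻¹ * t * x⁻¹⁻¹) * y⁻¹⁻¹ := by group
        rw [e]
        exact hy _ (hx _ ht)
      | inv x _ hx =>
        intro t ht
        -- `x⁻¹⁻¹ = x`: the conjugation by `x` was proved in the other direction
        have e : x⁻¹⁻¹ * t * x⁻¹⁻¹⁻¹ = x * t * x⁻¹ := by group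
        rw [e]
        -- finiteness free argument: conjugation by `x` is obtained from the first induction
        have main : ∀ x ∈ Subgroup.closure ({g | ∃ i < l, g ∈ TL σ T V m i} ∪ {g | ∃ i < l, g = nh i}),
            ∀ t ∈ Tt σ T V l m, (x * t * x⁻¹ ∈ Tt σ T V l m ∧ x⁻¹ * t * x ∈ Tt σ T V l m) := by
          intro x hx
          induction hx using Subgroup.closure_induction with
          | mem a ha =>
            intro t ht
            rcases ha with ⟨i, hi, h⟩ | ⟨i, hi, rfl⟩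
            · refine ⟨hT _ (S.TL_le_Tt hi h) t ht, ?_⟩
              have := hT _ (Subgroup.inv_mem _ (S.TL_le_Tt hi h)) t ht
              simpa using this
            · refine ⟨hbase i hi _ (Or.inl rfl) t ht, ?_⟩
              have := hbase i hi _ (Or.inr rfl) t ht
              simpa using this
          | one =>
            intro t ht
            simpa using ht
          | mul x y _ _ hx hy =>
            intro t ht
            constructor
            · have e : x * y * t * (x * y)⁻¹ = x * (y * t * y⁻¹) * x⁻¹ := by group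
              rw [e]
              exact (hx _ ((hy t ht).1)).1
            · have e : (x * y)⁻¹ * t * (x * y) = y⁻¹ * (x⁻¹ * t * x) * y := by group
              rw [e]
              exact (hy _ ((hx t ht).2)).2
          | inv x _ hx =>
            intro t ht
            constructor
            · simpa using (hx t ht).2
            · simpa using (hx t ht).1
        rename_i hx'
        exact (main x hx' t ht).1
    exact key x hxm t ht

/-- The positive part is normalised by the torus. -/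
theorem conj_UF_T {y : Γ} (hy : σ y ∈ T) {u : Γ} (hu : u ∈ UF V m 0) : y * u * y⁻¹ ∈ UF V m 0 := by
  refine S.conj_closure y ?_ hu
  rintro a ⟨r, _, hr, ha⟩
  exact mem_UF (Nat.zero_le _) hr (S.conj_T hy (by omega) ha)

theorem V_le_UF {r : ℕ} (hr : r < m) : V r ≤ UF V m 0 := fun _ h => mem_UF (Nat.zero_le _) hr h

/-- The action of the reflection on the other roots. -/
theorem conj_UO {i : ℕ} (hi : i < l) {u : Γ} (hu : u ∈ UO V m i) : nh i * u * (nh i)⁻¹ ∈ UF V m 0 := by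
  refine S.conj_closure (nh i) ?_ hu
  rintro a ⟨r, hr, hri, ha⟩
  have h1 := S.pos i hi r hr hri
  have h2 := S.conj (nh i) (by rw [S.nh_map i hi]; exact S.n_mem i hi) r (by omega) (s i r) (by omega)
    (by rw [S.nh_map i hi]; exact (S.act i hi r (by omega)).2) a ha
  exact S.V_le_UF h1 h2

/-- The dichotomy in the lift. -/
theorem dich_lift {i : ℕ} (hi : i < l) {a : Γ} (ha : a ∈ Nt σ T V nh l m) :
    (∀ x ∈ V i, a⁻¹ * x * a ∈ UF V m 0) ∨ (∀ x ∈ V (m + i), a⁻¹ * x * a ∈ UF V m 0) := by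
  obtain ⟨k, hk, h⟩ := S.dich _ (S.Nt_map ha) i hi
  have hN : σ a⁻¹ ∈ N := by
    rw [map_inv]
    exact N.inv_mem (S.Nt_map ha)
  rcases h with h | h
  · left
    intro x hx
    have := S.conj a⁻¹ hN i (S.hi2 hi) k (by omega) (by
      intro y hy
      rw [map_inv, inv_inv]
      exact h y hy) x hx
    rw [inv_inv] at this
    exact S.V_le_UF hk this
  · right
    intro x hx
    have := S.conj a⁻¹ hN (m + i) (S.hi3 hi) k (by omega) (by
      intro y hy
      rw [map_inv, inv_inv]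
      exact h y hy) x hx
    rw [inv_inv] at this
    exact S.V_le_UF hk this

theorem TL_le_Nt {i : ℕ} (hi : i < l) : TL σ T V m i ≤ Nt σ T V nh l m := fun _ hx =>
  Subgroup.subset_closure (Or.inl ⟨i, hi, hx⟩)

/-- Left multiplication by a reflection. -/
theorem cell_nh {i : ℕ} (hi : i < l) {g : Γ} (hg : g ∈ BCell (UF V m 0) (Nt σ T V nh l m)) :
    nh i * g ∈ BCell (UF V m 0) (Nt σ T V nh l m) := by
  have hlm := S.lm
  refine cell_left_w (Up := UO V m i) (Va := V i) (Vb := V (m + i)) (S.nh_mem_Nt hi) ?_ ?_ ?_ (S.V_le_UF (by omega)) ?_ hg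
  · intro u hu
    exact UF_dec_at S.hP (by omega) hu
  · intro u hu
    exact S.conj_UO hi hu
  · intro n hn
    exact S.dich_lift hi hn
  · intro x hx
    rcases S.bru i hi x hx with h | ⟨a, ha, τ, hτ, b, hb, e⟩
    · exact Or.inl h
    · exact Or.inr ⟨a, ha, τ, S.TL_le_Nt hi hτ, b, hb, e⟩

/-- The generators. -/
def gens (σ : Γ →* G) (T : Subgroup G) (V : ℕ → Subgroup Γ) (nh : ℕ → Γ) (l m : ℕ) : Set Γ :=
  {g | ∃ r < m, g ∈ V r} ∪ ({g | ∃ i < l, g ∈ TL σ T V m i} ∪ {g | ∃ i < l, g = nh i})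

omit S in
theorem mem_gens_V {σ : Γ →* G} {T : Subgroup G} {V : ℕ → Subgroup Γ} {nh : ℕ → Γ} {l m r : ℕ} (hr : r < m) {g : Γ} (hg : g ∈ V r) :
    g ∈ gens σ T V nh l m := Or.inl ⟨r, hr, hg⟩

/-- Every element generated is in a cell. -/
theorem closure_gens_cell {g : Γ} (hg : g ∈ Subgroup.closure (gens σ T V nh l m)) :
    g ∈ BCell (UF V m 0) (Nt σ T V nh l m) := by
  apply closure_le_cell (S := gens σ T V nh l m) _ hg
  rintro y (⟨r, hr, hy⟩ | ⟨i, hi, hy⟩ | ⟨i, hi, rfl⟩) g hg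
  · exact ⟨cell_left_U (S.V_le_UF hr hy) hg, cell_left_U (Subgroup.inv_mem _ (S.V_le_UF hr hy)) hg⟩
  · refine ⟨cell_left_norm (S.TL_le_Nt hi hy) (fun u hu => S.conj_UF_T hy.2 hu) hg, ?_⟩
    exact cell_left_norm (S.TL_le_Nt hi (Subgroup.inv_mem _ hy)) (fun u hu => S.conj_UF_T (Subgroup.inv_mem _ hy).2 hu) hg
  · refine ⟨S.cell_nh hi hg, ?_⟩
    -- `nh⁻¹ = nh⁻² nh`
    have h1 : (nh i)⁻¹ * (nh i)⁻¹ ∈ TL σ T V m i := by
      refine ⟨Subgroup.mul_mem _ (Subgroup.inv_mem _ (S.nh_mem i hi)) (Subgroup.inv_mem _ (S.nh_mem i hi)), ?_⟩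
      show σ _ ∈ T
      rw [map_mul, map_inv, S.nh_map i hi, ← mul_inv_rev]
      exact T.inv_mem (S.n_sq i hi)
    have e : (nh i)⁻¹ * g = ((nh i)⁻¹ * (nh i)⁻¹) * (nh i * g) := by group
    rw [e]
    exact cell_left_norm (S.TL_le_Nt hi h1) (fun u hu => S.conj_UF_T h1.2 hu) (S.cell_nh hi hg)

/-- The subgroup generated maps onto. -/
theorem gens_onto (g : G) : ∃ h ∈ Subgroup.closure (gens σ T V nh l m), σ h = g := by
  have hlm := S.lm
  have key : ∀ g ∈ Subgroup.closure {x | ∃ i < l, x ∈ X i ∨ x ∈ X (m + i)}, ∃ h ∈ Subgroup.closure (gens σ T V nh l m), σ h = g := by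
    intro g hg
    induction hg using Subgroup.closure_induction with
    | mem x hx =>
      obtain ⟨i, hi, h | h⟩ := hx
      · obtain ⟨u, hu, rfl⟩ := S.onto i (S.hi2 hi) x h
        exact ⟨u, Subgroup.subset_closure (mem_gens_V (by omega) hu), rfl⟩
      · -- conjugate by the reflection
        have h1 := (S.act i hi (m + i) (S.hi3 hi)).2 x h
        rw [S.swap2 i hi] at h1
        obtain ⟨u, hu, e⟩ := S.onto i (S.hi2 hi) _ h1
        have hnm : nh i ∈ Subgroup.closure (gens σ T V nh l m) := Subgroup.subset_closure (Or.inr (Or.inr ⟨i, hi, rfl⟩))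
        refine ⟨(nh i)⁻¹ * u * nh i, Subgroup.mul_mem _ (Subgroup.mul_mem _ (Subgroup.inv_mem _ hnm)
          (Subgroup.subset_closure (mem_gens_V (by omega) hu))) hnm, ?_⟩
        rw [map_mul, map_mul, map_inv, e, S.nh_map i hi]
        group
    | one => exact ⟨1, Subgroup.one_mem _, map_one _⟩
    | mul a b _ _ ha hb =>
      obtain ⟨x, hx, rfl⟩ := ha
      obtain ⟨y, hy, rfl⟩ := hb
      exact ⟨x * y, Subgroup.mul_mem _ hx hy, map_mul _ _ _⟩
    | inv a _ ha =>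
      obtain ⟨x, hx, rfl⟩ := ha
      exact ⟨x⁻¹, Subgroup.inv_mem _ hx, map_inv _ _⟩
  exact key g (S.gen g)

/-- A positive element maps to the positive part. -/
theorem UF_map_U {u : Γ} (hu : u ∈ UF V m 0) : σ u ∈ Subgroup.closure {x | ∃ r < m, x ∈ X r} := by
  unfold UF at hu
  induction hu using Subgroup.closure_induction with
  | mem a ha =>
    obtain ⟨r, _, hr, h⟩ := ha
    exact Subgroup.subset_closure ⟨r, hr, S.map r (by omega) a h⟩
  | one => simp [Subgroup.one_mem]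
  | mul x y _ _ hx hy =>
    rw [map_mul]
    exact Subgroup.mul_mem _ hx hy
  | inv x _ hx =>
    rw [map_inv]
    exact Subgroup.inv_mem _ hx

/-- The main theorem. -/
theorem ker_eq_bot (hσ : IsStemExtension σ) (M : CoxeterMatrix (Fin l)) (Φ : ↥N →* M.Group)
    (hΦT : ∀ t (ht : t ∈ T), Φ ⟨t, S.T_le ht⟩ = 1)
    (hΦn : ∀ a : Fin l, Φ ⟨n a, S.n_mem a a.2⟩ = M.simple a)
    (hbr : ∀ a b : Fin l, (nh a * nh b) ^ M a b ∈ Tt σ T V l m)
    (hTt : ∀ t ∈ Tt σ T V l m, σ t = 1 → t = 1) : σ.ker = ⊥ := by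
  have htop : Subgroup.closure (gens σ T V nh l m) = ⊤ := by
    apply ChevStem.eq_top_of_stem hσ
    intro g
    exact S.gens_onto (σ g)
  rw [eq_bot_iff]
  intro z hz
  have hz1 : σ z = 1 := hz
  have hcz := S.cen.cen z hz1
  have hc : z ∈ BCell (UF V m 0) (Nt σ T V nh l m) := S.closure_gens_cell (by rw [htop]; trivial)
  obtain ⟨u, hu, a, ha, v, hv, rfl⟩ := hc
  have e1 : σ a = (σ u)⁻¹ * (σ v)⁻¹ := by
    rw [map_mul, map_mul] at hz1
    calc σ a = (σ u)⁻¹ * (σ u * σ a * σ v) * (σ v)⁻¹ := by group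
      _ = _ := by rw [hz1]; group
  have h1 : σ a ∈ Subgroup.closure {x | ∃ r < m, x ∈ X r} := by
    rw [e1]
    exact Subgroup.mul_mem _ (Subgroup.inv_mem _ (S.UF_map_U hu)) (Subgroup.inv_mem _ (S.UF_map_U hv))
  have h2 : σ a = 1 := S.U_N _ h1 (S.Nt_map ha)
  have h3 : σ (u * v) = 1 := by
    rw [map_mul] at hz1 ⊢
    rw [map_mul, h2, mul_one] at hz1
    exact hz1
  have h4 : u * v = 1 := S.hinjU _ (Subgroup.mul_mem _ hu hv) h3
  have h5 : v = u⁻¹ := eq_inv_of_mul_eq_one_right h4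
  subst h5
  -- the element is `a`
  have e2 : u * a * u⁻¹ * u = u * (u * a * u⁻¹) := hcz u
  have e3 : a = u * a * u⁻¹ := by
    have e4 : u * a = u * (u * a * u⁻¹) := by
      calc u * a = u * a * u⁻¹ * u := by group
        _ = _ := e2
    exact mul_left_cancel e4
  rw [← e3]
  rw [← e3] at hz
  -- the Coxeter argument
  let φ : ↥(Nt σ T V nh l m) →* ↥N :=
    { toFun := fun x => ⟨σ x.1, S.Nt_map x.2⟩
      map_one' := by
        apply Subtype.ext
        simp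
      map_mul' := by
        intro x y
        apply Subtype.ext
        simp }
  have hgen2 : Nt σ T V nh l m ≤ Subgroup.closure ((Tt σ T V l m : Set Γ) ∪ Set.range fun a : Fin l => nh a) := by
    unfold Nt
    rw [Subgroup.closure_le]
    rintro x (⟨i, hi, hx⟩ | ⟨i, hi, rfl⟩)
    · exact Subgroup.subset_closure (Or.inl (S.TL_le_Tt hi hx))
    · exact Subgroup.subset_closure (Or.inr ⟨⟨i, hi⟩, rfl⟩)
  have h6 := mem_of_cox M (Nt σ T V nh l m) (Tt σ T V l m) (fun a : Fin l => nh a) S.Tt_le_Nt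
    (fun g hg t ht => S.Nt_norm hg ht) (fun a => S.nh_mem_Nt a.2) hgen2 hbr (Φ.comp φ)
    (by
      intro t ht
      show Φ ⟨σ t, _⟩ = 1
      exact hΦT _ (S.Tt_map ht))
    (by
      intro b
      show Φ ⟨σ (nh b), _⟩ = _
      have := hΦn b
      simp only [S.nh_map b b.2]
      exact this)
    ha (by
      show Φ ⟨σ a, _⟩ = 1
      have e5 : (⟨σ a, S.Nt_map ha⟩ : ↥N) = 1 := Subtype.ext h2
      rw [e5, map_one])
  have h7 := hTt a h6 h2
  rw [h7]
  exact Subgroup.one_mem _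

end TSys

end Cfsg.Agent.Lib.TwStem
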