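import Cfsg.Agent.Lib.Chev.TwFix
import Cfsg.Agent.Lib.TwStem.Sys

/-!
# Closed sets of positive roots in a Chevalley group
-/

set_option autoImplicit false
set_option linter.unusedSectionVars false
set_option linter.unusedVariables false

namespace Cfsg.Agent.Lib.TwStem

open Cfsg Cfsg.Lie Cfsg.Agent.Lib.Chev Matrix
open scoped commutatorElement

variable {T : Tabs} {X : Extra} {R : RootTab} {D : ChevalleyDatum} (hF : Full T X R D) {F : Type*} [Field F]

section Closed

variable {Q : ℕ → Prop} (hQ : ∀ r, Q r → R.N ≤ r ∧ r < D.nroots)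
  (hcl : ∀ r s, Q r → Q s → s ≠ r → ∀ c ∈ D.commTerms r s, Q c.1)

include hQ hcl

/-- Elements of the closure of a closed set of positive roots are ordered products supported on the set. -/
theorem supp_ord : ∀ (m k : ℕ), k + m = D.nroots → R.N ≤ k →
    ∀ g ∈ Full.rootClosure D F (fun s => Q s ∧ k ≤ s),
    ∃ t : ℕ → F, g = hF.ordW k t ∧ ∀ r, k ≤ r → r < D.nroots → t r ≠ 0 → Q r := by
  intro m
  induction m with
  | zero =>
    intro k hk _ g hg
    have h1 : Full.rootClosure D F (fun s => Q s ∧ k ≤ s) = ⊥ := by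
      unfold Full.rootClosure
      rw [Subgroup.closure_eq_bot_iff]
      rintro x ⟨s, t, hs, _⟩
      have := (hQ s hs.1).2
      omega
    rw [h1, Subgroup.mem_bot] at hg
    refine ⟨0, by rw [hg, hF.ordW_of_ge (by omega)], ?_⟩
    intro r h2 h3
    omega
  | succ m ih =>
    intro k hk hkN g hg
    have hkn : k < D.nroots := by omega
    have hIH := ih (k + 1) (by omega) (by omega)
    have key : ∀ (s : ℕ) (u : F), Q s → k ≤ s → ∀ y, (∃ t, y = hF.ordW k t ∧ ∀ r, k ≤ r → r < D.nroots → t r ≠ 0 → Q r) →
        ∃ t, hF.c.xG s u * y = hF.ordW k t ∧ ∀ r, k ≤ r → r < D.nroots → t r ≠ 0 → Q r := by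
      rintro s u hQs hs1 y ⟨t, rfl, ht⟩
      have hs2 := (hQ s hQs).2
      rw [hF.ordW_succ hkn]
      by_cases hsk : s = k
      · subst hsk
        refine ⟨Function.update t s (u + t s), ?_, ?_⟩
        · rw [hF.ordW_succ hkn, Function.update_self, ← mul_assoc, hF.c.xG_add]
          congr 1
          apply hF.ordW_congr
          intro r hr _
          rw [Function.update_of_ne (by omega)]
        · intro r h1 h2 h3
          by_cases hrs : r = s
          · rw [hrs]
            exact hQs
          · rw [Function.update_of_ne hrs] at h3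
            exact ht r h1 h2 h3
      · -- the general case
        by_cases htk : t k = 0
        · have hmem : hF.c.xG s u * hF.ordW (k + 1) t ∈ Full.rootClosure D F (fun s => Q s ∧ k + 1 ≤ s) := by
            obtain ⟨t', ht'1, ht'2⟩ : ∃ t' : ℕ → F, hF.ordW (k + 1) t = hF.ordW (k + 1) t' ∧ ∀ r, t' r ≠ 0 → Q r ∧ k + 1 ≤ r := by
              classical
              refine ⟨fun r => if k + 1 ≤ r ∧ r < D.nroots then t r else 0, ?_, ?_⟩
              · apply hF.ordW_congr
                intro r h1 h2
                simp [h1, h2]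
              · intro r hr
                beta_reduce at hr
                by_cases h : k + 1 ≤ r ∧ r < D.nroots
                · rw [if_pos h] at hr
                  exact ⟨ht r (by omega) h.2 hr, h.1⟩
                · rw [if_neg h] at hr
                  exact absurd rfl hr
            rw [ht'1]
            refine Subgroup.mul_mem _ (hF.xG_mem_rootClosure ⟨hQs, by omega⟩ _) ?_
            apply hF.c.wordG_mem
            intro p hp
            simp only [List.mem_map, List.mem_range'_1] at hp
            obtain ⟨r, hr, rfl⟩ := hp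
            by_cases h0 : t' r = 0
            · show hF.c.xG r (t' r) ∈ _
              rw [h0, hF.c.xG_zero]
              exact Subgroup.one_mem _
            · exact hF.xG_mem_rootClosure (ht'2 r h0) _
          obtain ⟨t', ht'1, ht'2⟩ := hIH _ hmem
          refine ⟨Function.update t' k 0, ?_, ?_⟩
          · rw [hF.ordW_succ hkn, Function.update_self, hF.c.xG_zero, htk, hF.c.xG_zero, one_mul, one_mul]
            have h4 : hF.ordW (k + 1) (Function.update t' k 0) = hF.ordW (k + 1) t' := by
              apply hF.ordW_congr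
              intro r hr _
              rw [Function.update_of_ne (by omega)]
            rw [h4, ← ht'1]
          · intro r h1 h2 h3
            by_cases hrk : r = k
            · rw [hrk, Function.update_self] at h3
              exact absurd rfl h3
            · rw [Function.update_of_ne hrk] at h3
              exact ht'2 r (by omega) h2 h3
        · have hQk : Q k := ht k le_rfl hkn htk
          have hsk' : s ≠ D.neg k := by
            have := hF.neg_lt_N hkn hkN
            have := (hQ s hQs).1
            omega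
          have h1 := hF.xG_comm hkn hs2 hsk hsk' (t k) u
          have hmem : hF.c.xG s u * hF.c.wordG (D.commWord F k s (t k) u) * hF.ordW (k + 1) t ∈
              Full.rootClosure D F (fun s => Q s ∧ k + 1 ≤ s) := by
            obtain ⟨t', ht'1, ht'2⟩ : ∃ t' : ℕ → F, hF.ordW (k + 1) t = hF.ordW (k + 1) t' ∧ ∀ r, t' r ≠ 0 → Q r ∧ k + 1 ≤ r := by
              classical
              refine ⟨fun r => if k + 1 ≤ r ∧ r < D.nroots then t r else 0, ?_, ?_⟩
              · apply hF.ordW_congr
                intro r h1 h2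
                simp [h1, h2]
              · intro r hr
                beta_reduce at hr
                by_cases h : k + 1 ≤ r ∧ r < D.nroots
                · rw [if_pos h] at hr
                  exact ⟨ht r (by omega) h.2 hr, h.1⟩
                · rw [if_neg h] at hr
                  exact absurd rfl hr
            rw [ht'1]
            refine Subgroup.mul_mem _ (Subgroup.mul_mem _ (hF.xG_mem_rootClosure ⟨hQs, by omega⟩ _) ?_) ?_
            · apply hF.c.wordG_mem
              intro p hp
              simp only [ChevalleyDatum.commWord, List.mem_map] at hp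
              obtain ⟨c, hc, rfl⟩ := hp
              have h2 := hF.commTerm_pos hkn hs2 hsk hsk' hc hkN (by have := (hQ s hQs).1; omega)
              exact hF.xG_mem_rootClosure ⟨hcl k s hQk hQs hsk c hc, by omega⟩ _
            · apply hF.c.wordG_mem
              intro p hp
              simp only [List.mem_map, List.mem_range'_1] at hp
              obtain ⟨r, hr, rfl⟩ := hp
              by_cases h0 : t' r = 0
              · show hF.c.xG r (t' r) ∈ _
                rw [h0, hF.c.xG_zero]
                exact Subgroup.one_mem _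
              · exact hF.xG_mem_rootClosure (ht'2 r h0) _
          obtain ⟨t', ht'1, ht'2⟩ := hIH _ hmem
          refine ⟨Function.update t' k (t k), ?_, ?_⟩
          · rw [hF.ordW_succ hkn, Function.update_self]
            have h4 : hF.ordW (k + 1) (Function.update t' k (t k)) = hF.ordW (k + 1) t' := by
              apply hF.ordW_congr
              intro r hr _
              rw [Function.update_of_ne (by omega)]
            rw [h4, ← ht'1, ← mul_assoc, h1]
            group
          · intro r h3 h4 h5
            by_cases hrk : r = k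
            · rw [hrk]
              exact hQk
            · rw [Function.update_of_ne hrk] at h5
              exact ht'2 r (by omega) h4 h5
    unfold Full.rootClosure at hg
    induction hg using Subgroup.closure_induction_left with
    | one =>
      refine ⟨0, (hF.ordW_zero k).symm, ?_⟩
      intro r _ _ h
      exact absurd rfl h
    | mul_left x hx y hy ih' =>
      obtain ⟨s, u, hs, hg⟩ := hx
      rw [hF.c.eq_xG hg]
      exact key s u hs.1 hs.2 y ih'
    | inv_mul_cancel x hx y hy ih' =>
      obtain ⟨s, u, hs, hg⟩ := hx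
      rw [hF.c.eq_xG hg, hF.c.xG_inv]
      exact key s (-u) hs.1 hs.2 y ih'

/-- The closure of a closed positive set. -/
theorem supp_ord' {g : GL D.Idx F} (hg : g ∈ Full.rootClosure D F Q) :
    ∃ t : ℕ → F, g = hF.ordW R.N t ∧ ∀ r, R.N ≤ r → r < D.nroots → t r ≠ 0 → Q r := by
  have hNle : R.N ≤ D.nroots := by
    have := hF.two
    omega
  have e : Full.rootClosure D F Q = Full.rootClosure D F (fun s => Q s ∧ R.N ≤ s) := by
    unfold Full.rootClosure
    congr 1
    ext x
    constructor
    · rintro ⟨s, t, hs, h⟩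
      exact ⟨s, t, ⟨hs, (hQ s hs).1⟩, h⟩
    · rintro ⟨s, t, hs, h⟩
      exact ⟨s, t, hs.1, h⟩
  rw [e] at hg
  exact supp_ord hF hQ hcl (D.nroots - R.N) R.N (by omega) le_rfl g hg

end Closed

include hF in
/-- Closed disjoint sets have trivially intersecting closures. -/
theorem cl_disj {Q Q' : ℕ → Prop} (hQ : ∀ r, Q r → R.N ≤ r ∧ r < D.nroots)
    (hcl : ∀ r s, Q r → Q s → s ≠ r → ∀ c ∈ D.commTerms r s, Q c.1)
    (hQ' : ∀ r, Q' r → R.N ≤ r ∧ r < D.nroots)
    (hcl' : ∀ r s, Q' r → Q' s → s ≠ r → ∀ c ∈ D.commTerms r s, Q' c.1)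
    (hd : ∀ r, Q r → ¬ Q' r) {g : GL D.Idx F} (h1 : g ∈ Full.rootClosure D F Q) (h2 : g ∈ Full.rootClosure D F Q') : g = 1 := by
  obtain ⟨t, ht, ht2⟩ := supp_ord' hF hQ hcl h1
  obtain ⟨t', ht', ht2'⟩ := supp_ord' hF hQ' hcl' h2
  have hNle : R.N ≤ D.nroots := by
    have := hF.two
    omega
  have e := hF.ordW_inj (D.nroots - R.N) R.N (by omega) le_rfl t t' (ht.symm.trans ht')
  have h0 : ∀ r, R.N ≤ r → r < D.nroots → t r = (0 : ℕ → F) r := by
    intro r h3 h4
    by_contra h5
    have h6 : t r ≠ 0 := h5
    have h7 := ht2 r h3 h4 h6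
    have h8 : t' r ≠ 0 := by
      rw [← e r h3 h4]
      exact h6
    exact hd r h7 (ht2' r h3 h4 h8)
  rw [ht, hF.ordW_congr h0, hF.ordW_zero]

/-- Commutators of closures. -/
theorem comm_closure_mem {Γ : Type*} [Group Γ] {A B : Set Γ} {W : Subgroup Γ}
    (hAW : ∀ x ∈ Subgroup.closure A, ∀ w ∈ W, x * w * x⁻¹ ∈ W)
    (hBW : ∀ y ∈ Subgroup.closure B, ∀ w ∈ W, y * w * y⁻¹ ∈ W)
    (h : ∀ a ∈ A, ∀ b ∈ B, ⁅a, b⁆ ∈ W) : ∀ x ∈ Subgroup.closure A, ∀ y ∈ Subgroup.closure B, ⁅x, y⁆ ∈ W := by
  have h1 : ∀ a ∈ A, ∀ y ∈ Subgroup.closure B, ⁅a, y⁆ ∈ W := by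
    intro a ha y hy
    induction hy using Subgroup.closure_induction with
    | mem b hb => exact h a ha b hb
    | one => simp [W.one_mem]
    | mul y1 y2 hy1 _ h1 h2 =>
      have e : ⁅a, y1 * y2⁆ = ⁅a, y1⁆ * (y1 * ⁅a, y2⁆ * y1⁻¹) := by
        simp only [commutatorElement_def]
        group
      rw [e]
      exact W.mul_mem h1 (hBW _ hy1 _ h2)
    | inv y hy h1 =>
      have e : ⁅a, y⁻¹⁆ = y⁻¹ * ⁅a, y⁆⁻¹ * y⁻¹⁻¹ := by
        simp only [commutatorElement_def]
        group
      rw [e]
      exact hBW _ (Subgroup.inv_mem _ hy) _ (W.inv_mem h1)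
  intro x hx y hy
  induction hx using Subgroup.closure_induction with
  | mem a ha => exact h1 a ha y hy
  | one => simp [W.one_mem]
  | mul x1 x2 hx1 _ h1 h2 =>
    have e : ⁅x1 * x2, y⁆ = (x1 * ⁅x2, y⁆ * x1⁻¹) * ⁅x1, y⁆ := by
      simp only [commutatorElement_def]
      group
    rw [e]
    exact W.mul_mem (hAW _ hx1 _ h2) h1
  | inv x hx h1 =>
    have e : ⁅x⁻¹, y⁆ = x⁻¹ * ⁅x, y⁆⁻¹ * x⁻¹⁻¹ := by
      simp only [commutatorElement_def]
      group
    rw [e]
    exact hAW _ (Subgroup.inv_mem _ hx) _ (W.inv_mem h1)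

/-- Products of subgroups with normalisation. -/
theorem closure_union_dec {Γ : Type*} [Group Γ] {A B : Subgroup Γ} (hn : ∀ a ∈ A, ∀ b ∈ B, a * b * a⁻¹ ∈ B) {g : Γ}
    (hg : g ∈ A ⊔ B) : ∃ a ∈ A, ∃ b ∈ B, g = a * b := by
  rw [Subgroup.sup_eq_closure] at hg
  induction hg using Subgroup.closure_induction with
  | mem x hx =>
    rcases hx with hx | hx
    · exact ⟨x, hx, 1, B.one_mem, by simp⟩
    · exact ⟨1, A.one_mem, x, hx, by simp⟩
  | one => exact ⟨1, A.one_mem, 1, B.one_mem, by simp⟩
  | mul x y _ _ hx hy =>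
    obtain ⟨a, ha, b, hb, rfl⟩ := hx
    obtain ⟨a', ha', b', hb', rfl⟩ := hy
    refine ⟨a * a', A.mul_mem ha ha', a'⁻¹ * b * a'⁻¹⁻¹ * b', B.mul_mem (hn _ (A.inv_mem ha') _ hb) hb', by group⟩
  | inv x _ hx =>
    obtain ⟨a, ha, b, hb, rfl⟩ := hx
    refine ⟨a⁻¹, A.inv_mem ha, a * b⁻¹ * a⁻¹, hn _ ha _ (B.inv_mem hb), by group⟩

end Cfsg.Agent.Lib.TwStem
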