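import Cfsg.Agent.Lib.TwStem.Geo

/-!
# Relative roots of a twisted group
-/

set_option autoImplicit false
set_option linter.unusedSectionVars false
set_option linter.unusedVariables false

namespace Cfsg.Agent.Lib.TwStem

open Cfsg Cfsg.Lie Cfsg.Agent.Lib.Chev Matrix Equiv
open scoped commutatorElement

variable {T : Tabs} {X : Extra} {R : RootTab} {D : ChevalleyDatum} {hF : Full T X R D} {F : Type*} [Field F]

/-- The tables of the relative roots. -/
structure RelT (τ : Tw hF F) (rel : ℕ → ℕ) (m : ℕ) : Prop where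
  lt : ∀ r < D.nroots, rel r < 2 * m
  pos : ∀ r < D.nroots, R.N ≤ r ↔ rel r < m
  neg : ∀ r < D.nroots, R.N ≤ r → rel (D.neg r) = m + rel r
  rho : ∀ r : Fin D.nroots, rel (τ.ρ r) = rel r
  orb : ∀ r r' : Fin D.nroots, rel r = rel r' → ∃ k : ℕ, (τ.ρ ^ k) r = r'
  comm1 : ∀ r < D.nroots, ∀ s < D.nroots, R.N ≤ r → R.N ≤ s → s ≠ r → ∀ c ∈ D.commTerms r s, rel r < rel c.1 ∧ rel s < rel c.1
  comm2 : ∀ r < D.nroots, ∀ s < D.nroots, R.N ≤ r → R.N ≤ s → s ≠ r → rel r = rel s → D.commTerms r s = []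

/-- The subgroup of a relative root, before taking fixed points. -/
def RO (D : ChevalleyDatum) (F : Type*) [Field F] (rel : ℕ → ℕ) (j : ℕ) : Subgroup (GL D.Idx F) :=
  Full.rootClosure D F (fun s => s < D.nroots ∧ rel s = j)

/-- The subgroup of the relative roots at least `j`. -/
def RGE (R : RootTab) (D : ChevalleyDatum) (F : Type*) [Field F] (rel : ℕ → ℕ) (j : ℕ) : Subgroup (GL D.Idx F) :=
  Full.rootClosure D F (fun s => s < D.nroots ∧ R.N ≤ s ∧ j ≤ rel s)

namespace RelT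

variable {τ : Tw hF F} {rel : ℕ → ℕ} {m : ℕ} (h : RelT τ rel m)

include h

theorem O_pos {j : ℕ} (hj : j < m) : ∀ r, (r < D.nroots ∧ rel r = j) → R.N ≤ r ∧ r < D.nroots := by
  rintro r ⟨h1, h2⟩
  exact ⟨(h.pos r h1).2 (by omega), h1⟩

theorem O_cl {j : ℕ} (hj : j < m) : ∀ r s, (r < D.nroots ∧ rel r = j) → (s < D.nroots ∧ rel s = j) → s ≠ r →
    ∀ c ∈ D.commTerms r s, (c.1 < D.nroots ∧ rel c.1 = j) := by
  rintro r s ⟨h1, h2⟩ ⟨h3, h4⟩ hne c hc
  rw [h.comm2 r h1 s h3 ((h.pos r h1).2 (by omega)) ((h.pos s h3).2 (by omega)) hne (by omega)] at hc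
  simp at hc

theorem GE_pos (j : ℕ) : ∀ r, (r < D.nroots ∧ R.N ≤ r ∧ j ≤ rel r) → R.N ≤ r ∧ r < D.nroots := by
  rintro r ⟨h1, h2, _⟩
  exact ⟨h2, h1⟩

theorem GE_cl (j : ℕ) : ∀ r s, (r < D.nroots ∧ R.N ≤ r ∧ j ≤ rel r) → (s < D.nroots ∧ R.N ≤ s ∧ j ≤ rel s) → s ≠ r →
    ∀ c ∈ D.commTerms r s, (c.1 < D.nroots ∧ R.N ≤ c.1 ∧ j ≤ rel c.1) := by
  rintro r s ⟨h1, h2, h3⟩ ⟨h4, h5, h6⟩ hne c hc
  have hn : s ≠ D.neg r := by
    have := hF.neg_lt_N h1 h2
    omega
  refine ⟨(hF.commTerms_spec h1 h4 hne hn hc).1, (hF.commTerm_pos h1 h4 hne hn hc h2 h5).1, ?_⟩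
  have := h.comm1 r h1 s h4 h2 h5 hne c hc
  omega

/-- The intersection is trivial. -/
theorem disj {j : ℕ} (hj : j < m) {g : GL D.Idx F} (h1 : g ∈ RO D F rel j) (h2 : g ∈ RGE R D F rel (j + 1)) : g = 1 :=
  cl_disj hF (h.O_pos hj) (h.O_cl hj) (h.GE_pos _) (h.GE_cl _) (by
    rintro r ⟨_, h3⟩ ⟨_, _, h4⟩
    omega) h1 h2

/-- A root element normalises. -/
theorem conj_GE {r j : ℕ} (hr : r < D.nroots) (hp : R.N ≤ r) (hj : rel r ≤ j) (t : F) {w : GL D.Idx F} (hw : w ∈ RGE R D F rel (j + 1)) :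
    hF.c.xG r t * w * (hF.c.xG r t)⁻¹ ∈ RGE R D F rel (j + 1) := by
  have h1 := hF.xG_mem_normalizer hr (fun s => s < D.nroots ∧ R.N ≤ s ∧ j + 1 ≤ rel s) (by
    rintro s ⟨h2, h3, _⟩
    have := hF.neg_lt_N hr hp
    exact ⟨h2, by omega⟩) (by
    rintro s ⟨h2, h3, h4⟩ hne c hc
    have hn : s ≠ D.neg r := by
      have := hF.neg_lt_N hr hp
      omega
    refine ⟨(hF.commTerms_spec hr h2 hne hn hc).1, (hF.commTerm_pos hr h2 hne hn hc hp h3).1, ?_⟩
    have := h.comm1 r hr s h2 hp h3 hne c hc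
    omega) t
  rw [Subgroup.mem_normalizer_iff] at h1
  exact (h1 w).1 hw

theorem conj_GE' {k j : ℕ} (hk : k < m) (hj : k ≤ j) {x w : GL D.Idx F} (hx : x ∈ RO D F rel k) (hw : w ∈ RGE R D F rel (j + 1)) :
    x * w * x⁻¹ ∈ RGE R D F rel (j + 1) := by
  unfold RO Full.rootClosure at hx
  induction hx using Subgroup.closure_induction generalizing w with
  | mem a ha =>
    obtain ⟨r, t, ⟨h1, h2⟩, e⟩ := ha
    rw [hF.c.eq_xG e]
    exact h.conj_GE h1 ((h.pos r h1).2 (by omega)) (by omega) t hw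
  | one => simpa using hw
  | mul a b _ _ ha hb =>
    have e : a * b * w * (a * b)⁻¹ = a * (b * w * b⁻¹) * a⁻¹ := by group
    rw [e]
    exact ha (hb hw)
  | inv a hm ha =>
    -- the inverse of a product of root elements
    have key : ∀ a ∈ Subgroup.closure {g : GL D.Idx F | ∃ (s : ℕ) (t : F), (s < D.nroots ∧ rel s = k) ∧ (g : Matrix D.Idx D.Idx F) = D.x F s t},
        ∀ w ∈ RGE R D F rel (j + 1), a⁻¹ * w * a ∈ RGE R D F rel (j + 1) := by
      intro a ha
      induction ha using Subgroup.closure_induction with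
      | mem a ha =>
        intro w hw
        obtain ⟨r, t, ⟨h1, h2⟩, e⟩ := ha
        rw [hF.c.eq_xG e]
        have := h.conj_GE h1 ((h.pos r h1).2 (by omega)) (by omega) (-t) hw
        rwa [← hF.c.xG_inv, inv_inv] at this
      | one =>
        intro w hw
        simpa using hw
      | mul a b _ _ ha hb =>
        intro w hw
        have e : (a * b)⁻¹ * w * (a * b) = b⁻¹ * (a⁻¹ * w * a) * b := by group
        rw [e]
        exact hb _ (ha _ hw)
      | inv a ha' ha =>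
        intro w hw
        have : a * w * a⁻¹ ∈ RGE R D F rel (j + 1) := by
          have key2 : ∀ a ∈ Subgroup.closure {g : GL D.Idx F | ∃ (s : ℕ) (t : F), (s < D.nroots ∧ rel s = k) ∧ (g : Matrix D.Idx D.Idx F) = D.x F s t},
              ∀ w ∈ RGE R D F rel (j + 1), (a * w * a⁻¹ ∈ RGE R D F rel (j + 1) ∧ a⁻¹ * w * a ∈ RGE R D F rel (j + 1)) := by
            intro a ha
            induction ha using Subgroup.closure_induction with
            | mem a ha =>
              intro w hw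
              obtain ⟨r, t, ⟨h1, h2⟩, e⟩ := ha
              rw [hF.c.eq_xG e]
              refine ⟨h.conj_GE h1 ((h.pos r h1).2 (by omega)) (by omega) t hw, ?_⟩
              have := h.conj_GE h1 ((h.pos r h1).2 (by omega)) (by omega) (-t) hw
              rwa [← hF.c.xG_inv, inv_inv] at this
            | one =>
              intro w hw
              simpa using hw
            | mul a b _ _ ha hb =>
              intro w hw
              constructor
              · have e : a * b * w * (a * b)⁻¹ = a * (b * w * b⁻¹) * a⁻¹ := by group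
                rw [e]
                exact (ha _ (hb _ hw).1).1
              · have e : (a * b)⁻¹ * w * (a * b) = b⁻¹ * (a⁻¹ * w * a) * b := by group
                rw [e]
                exact (hb _ (ha _ hw).2).2
            | inv a _ ha =>
              intro w hw
              constructor
              · simpa using (ha w hw).2
              · simpa using (ha w hw).1
          exact (key2 a ha' w hw).1
        simpa using this
    have := key a hm w hw
    simpa using this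

/-- The decomposition. -/
theorem GE_dec {j : ℕ} (hj : j < m) {g : GL D.Idx F} (hg : g ∈ RGE R D F rel j) :
    ∃ a ∈ RO D F rel j, ∃ b ∈ RGE R D F rel (j + 1), g = a * b := by
  apply closure_union_dec (fun a ha b hb => h.conj_GE' hj le_rfl ha hb)
  unfold RGE Full.rootClosure at hg
  induction hg using Subgroup.closure_induction with
  | mem x hx =>
    obtain ⟨s, t, ⟨h1, h2, h3⟩, e⟩ := hx
    by_cases h4 : rel s = j
    · exact Subgroup.mem_sup_left (Subgroup.subset_closure ⟨s, t, ⟨h1, h4⟩, e⟩)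
    · exact Subgroup.mem_sup_right (Subgroup.subset_closure ⟨s, t, ⟨h1, h2, by omega⟩, e⟩)
  | one => exact Subgroup.one_mem _
  | mul a b _ _ ha hb => exact Subgroup.mul_mem _ ha hb
  | inv a _ ha => exact Subgroup.inv_mem _ ha

/-- The commutators. -/
theorem comm_mem {k s : ℕ} (hk : k < s) (hs : s < m) {x y : GL D.Idx F} (hx : x ∈ RO D F rel k) (hy : y ∈ RO D F rel s) :
    ⁅x, y⁆ ∈ RGE R D F rel (s + 1) := by
  unfold RO Full.rootClosure at hx hy
  refine comm_closure_mem (W := RGE R D F rel (s + 1)) (fun x hx w hw => h.conj_GE' (by omega) (by omega) hx hw)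
    (fun x hx w hw => h.conj_GE' hs le_rfl hx hw) ?_ x hx y hy
  rintro a ⟨r, t, ⟨h1, h2⟩, e⟩ b ⟨r', u, ⟨h3, h4⟩, e'⟩
  rw [hF.c.eq_xG e, hF.c.eq_xG e']
  have hpr : R.N ≤ r := (h.pos r h1).2 (by omega)
  have hpr' : R.N ≤ r' := (h.pos r' h3).2 (by omega)
  have hne : r' ≠ r := by
    rintro rfl
    omega
  have hn : r' ≠ D.neg r := by
    have := hF.neg_lt_N h1 hpr
    omega
  have e1 := hF.xG_comm h1 h3 hne hn t u
  have hw : hF.c.wordG (D.commWord F r r' t u) ∈ RGE R D F rel (s + 1) := by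
    apply hF.c.wordG_mem
    intro p hp
    simp only [ChevalleyDatum.commWord, List.mem_map] at hp
    obtain ⟨c, hc, rfl⟩ := hp
    have h5 := h.comm1 r h1 r' h3 hpr hpr' hne c hc
    have h7 : s + 1 ≤ rel c.1 := by omega
    exact hF.xG_mem_rootClosure (s := c.1) ⟨(hF.commTerms_spec h1 h3 hne hn hc).1, (hF.commTerm_pos h1 h3 hne hn hc hpr hpr').1, h7⟩ _
  set a := hF.c.xG r t
  set b := hF.c.xG r' u
  set w := hF.c.wordG (D.commWord F r r' t u)
  have e2 : ⁅a, b⁆ = (b * a) * w⁻¹ * (b * a)⁻¹ := by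
    have e1' : a * b = b * a * w⁻¹ := by
      rw [e1]
      group
    rw [commutatorElement_def, e1']
    group
  rw [e2]
  have h6 : a * w⁻¹ * a⁻¹ ∈ RGE R D F rel (s + 1) := h.conj_GE h1 hpr (by omega) t (Subgroup.inv_mem _ hw)
  have h7 := h.conj_GE h3 hpr' (by omega) u h6
  have e3 : (b * a) * w⁻¹ * (b * a)⁻¹ = b * (a * w⁻¹ * a⁻¹) * b⁻¹ := by group
  rw [e3]
  exact h7

theorem O_group {j : ℕ} : RO D F rel j ≤ D.group F := τ.rootClosure_le_group fun _ hr => hr.1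

theorem GE_group {j : ℕ} : RGE R D F rel j ≤ D.group F := τ.rootClosure_le_group fun _ hr => hr.1

theorem s_O {j : ℕ} {g : GL D.Idx F} (hg : g ∈ RO D F rel j) : τ.s g ∈ RO D F rel j :=
  τ.s_rootClosure (fun _ hr => hr.1) (by
    rintro r hr ⟨_, h2⟩
    refine ⟨(τ.ρ ⟨r, hr⟩).2, ?_⟩
    rw [h.rho ⟨r, hr⟩]
    exact h2) hg

theorem s_GE {j : ℕ} {g : GL D.Idx F} (hg : g ∈ RGE R D F rel j) : τ.s g ∈ RGE R D F rel j :=
  τ.s_rootClosure (fun _ hr => hr.1) (by
    rintro r hr ⟨_, h2, h3⟩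
    refine ⟨(τ.ρ ⟨r, hr⟩).2, ?_, ?_⟩
    · rw [h.pos _ (τ.ρ ⟨r, hr⟩).2, h.rho ⟨r, hr⟩]
      exact (h.pos r hr).1 h2
    · rw [h.rho ⟨r, hr⟩]
      exact h3) hg

/-- Descent of fixed points. -/
theorem desc {j : ℕ} (hj : j < m) {g : GL D.Idx F} (hg : g ∈ RGE R D F rel j) (hf : τ.s g = g) :
    ∃ a, (a ∈ RO D F rel j ∧ τ.s a = a) ∧ ∃ b, (b ∈ RGE R D F rel (j + 1) ∧ τ.s b = b) ∧ g = a * b := by
  obtain ⟨a, ha, b, hb, rfl⟩ := h.GE_dec hj hg
  have h1 := h.O_group ha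
  have h2 := h.GE_group hb
  rw [τ.s_mul h1 h2] at hf
  have h3 : (τ.s a)⁻¹ * a = τ.s b * b⁻¹ := by
    calc (τ.s a)⁻¹ * a = (τ.s a)⁻¹ * (a * b) * b⁻¹ := by group
      _ = (τ.s a)⁻¹ * (τ.s a * τ.s b) * b⁻¹ := by rw [hf]
      _ = _ := by group
  have h4 : τ.s b * b⁻¹ = 1 := by
    apply h.disj hj (g := τ.s b * b⁻¹)
    · rw [← h3]
      exact Subgroup.mul_mem _ (Subgroup.inv_mem _ (h.s_O ha)) ha
    · exact Subgroup.mul_mem _ (h.s_GE hb) (Subgroup.inv_mem _ hb)
  have h5 : τ.s b = b := mul_inv_eq_one.1 h4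
  have h6 : τ.s a = a := by
    rw [h4] at h3
    exact inv_mul_eq_one.1 h3
  exact ⟨a, ⟨ha, h6⟩, b, ⟨hb, h5⟩, rfl⟩

end RelT

/-- The fixed points in the subgroup of a relative root. -/
noncomputable def XF (τ : Tw hF F) (rel : ℕ → ℕ) (j : ℕ) : Subgroup (GL D.Idx F) := τ.Fx ⊓ RO D F rel j

namespace RelT

variable {τ : Tw hF F} {rel : ℕ → ℕ} {m : ℕ} (h : RelT τ rel m)

include h

theorem GE_bot {j : ℕ} (hj : m ≤ j) : RGE R D F rel j = ⊥ := by
  unfold RGE Full.rootClosure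
  rw [Subgroup.closure_eq_bot_iff]
  rintro g ⟨s, t, ⟨h1, h2, h3⟩, _⟩
  have := (h.pos s h1).1 h2
  omega

/-- The fixed points of `RGE` are generated by the fixed points of the relative root groups. -/
theorem Fx_GE : ∀ (a j : ℕ), m ≤ j + a → ∀ g ∈ RGE R D F rel j, τ.s g = g →
    g ∈ Subgroup.closure {x | ∃ l, j ≤ l ∧ l < m ∧ x ∈ XF τ rel l} := by
  intro a
  induction a with
  | zero =>
    intro j hj g hg _
    rw [h.GE_bot (by omega), Subgroup.mem_bot] at hg
    rw [hg]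
    exact Subgroup.one_mem _
  | succ a ih =>
    intro j hj g hg hf
    by_cases hjm : j < m
    · obtain ⟨x, ⟨hx, hx'⟩, y, ⟨hy, hy'⟩, rfl⟩ := h.desc hjm hg hf
      refine Subgroup.mul_mem _ (Subgroup.subset_closure ⟨j, le_rfl, hjm, ⟨h.O_group hx, hx'⟩, hx⟩) ?_
      refine Subgroup.closure_mono ?_ (ih (j + 1) (by omega) y hy hy')
      rintro z ⟨l, h1, h2, h3⟩
      exact ⟨l, by omega, h2, h3⟩
    · rw [h.GE_bot (by omega), Subgroup.mem_bot] at hg
      rw [hg]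
      exact Subgroup.one_mem _

theorem O_le_GE {j l : ℕ} (hj : j ≤ l) (hl : l < m) : RO D F rel l ≤ RGE R D F rel j := by
  apply Subgroup.closure_mono
  rintro g ⟨s, t, ⟨h1, h2⟩, e⟩
  exact ⟨s, t, ⟨h1, (h.pos s h1).2 (by omega), by omega⟩, e⟩

theorem O_le_U {l : ℕ} (hl : l < m) : RO D F rel l ≤ D.posUnipotent F := by
  unfold RO Full.rootClosure ChevalleyDatum.posUnipotent
  apply Subgroup.closure_mono
  rintro g ⟨s, t, ⟨h1, h2⟩, e⟩
  exact ⟨s, t, (hF.isPos_iff).2 ⟨h1, (h.pos s h1).2 (by omega)⟩, e⟩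

end RelT

end Cfsg.Agent.Lib.TwStem
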