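import Cfsg.Agent.Lib.TwStem.Core

/-!
# The unipotent part of a central extension

Given lifted root subgroups `U k`, `k < m`, the commutator relations at the level of subgroups are derived from the
elements of a torus, and the map is injective on the group they generate.
-/

set_option autoImplicit false
set_option linter.unusedSectionVars false
set_option linter.unusedVariables false

namespace Cfsg.Agent.Lib.TwStem

open scoped commutatorElement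

variable {Γ G : Type*} [Group Γ] [Group G]

/-- The join of the subgroups of index at least `j`. -/
def UF (U : ℕ → Subgroup Γ) (m j : ℕ) : Subgroup Γ := Subgroup.closure {g | ∃ l, j ≤ l ∧ l < m ∧ g ∈ U l}

theorem UF_anti {U : ℕ → Subgroup Γ} {m j j' : ℕ} (h : j ≤ j') : UF U m j' ≤ UF U m j := by
  apply Subgroup.closure_mono
  rintro g ⟨l, h1, h2, h3⟩
  exact ⟨l, by omega, h2, h3⟩

theorem mem_UF {U : ℕ → Subgroup Γ} {m j l : ℕ} (h1 : j ≤ l) (h2 : l < m) {g : Γ} (hg : g ∈ U l) : g ∈ UF U m j :=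
  Subgroup.subset_closure ⟨l, h1, h2, hg⟩

/-- The commutator relation. -/
def PP (U : ℕ → Subgroup Γ) (m k s : ℕ) : Prop := ∀ x ∈ U k, ∀ y ∈ U s, ⁅x, y⁆ ∈ UF U m (s + 1)

section

variable {U : ℕ → Subgroup Γ} {m : ℕ}

theorem norm_UF {k s : ℕ} (hP : ∀ s', s < s' → s' < m → PP U m k s') {x : Γ} (hx : x ∈ U k) {w : Γ} (hw : w ∈ UF U m (s + 1)) :
    x * w * x⁻¹ ∈ UF U m (s + 1) := by
  unfold UF at hw
  induction hw using Subgroup.closure_induction with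
  | mem y hy =>
    obtain ⟨l, h1, h2, h3⟩ := hy
    have e : x * y * x⁻¹ = ⁅x, y⁆ * y := by
      rw [commutatorElement_def]
      group
    rw [e]
    refine Subgroup.mul_mem _ (UF_anti (by omega) (hP l (by omega) h2 x hx y h3)) (mem_UF (by omega) h2 h3)
  | one => simp
  | mul a b _ _ ha hb =>
    have e : x * (a * b) * x⁻¹ = x * a * x⁻¹ * (x * b * x⁻¹) := by group
    rw [e]
    exact Subgroup.mul_mem _ ha hb
  | inv a _ ha =>
    have e : x * a⁻¹ * x⁻¹ = (x * a * x⁻¹)⁻¹ := by group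
    rw [e]
    exact Subgroup.inv_mem _ ha

variable {σ : Γ →* G}

/-- The relation from an element commuting with the first group. -/
theorem wit1 (hE : CE σ) {k s : ℕ} {H : Γ}
    (hcomm : ∀ x ∈ U k, H * x = x * H)
    (hsurj : ∀ y ∈ U s, ∃ y0 ∈ U s, y = ⁅H, y0⁆)
    (hnH : ∀ w ∈ UF U m (s + 1), H * w * H⁻¹ ∈ UF U m (s + 1))
    (hnH' : ∀ y ∈ U s, H * y * H⁻¹ ∈ U s)
    (hnS : ∀ y ∈ U s, ∀ w ∈ UF U m (s + 1), y * w * y⁻¹ ∈ UF U m (s + 1))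
    (hcov : ∀ x ∈ U k, ∀ y ∈ U s, ∃ w ∈ UF U m (s + 1), σ w = σ ⁅x, y⁆) : PP U m k s := by
  intro x hx y hy
  obtain ⟨y0, hy0, rfl⟩ := hsurj y hy
  obtain ⟨w, hw, ew⟩ := hcov x hx y0 hy0
  obtain ⟨z, hz, e⟩ : ∃ z, σ z = 1 ∧ ⁅x, y0⁆ = w * z :=
    ⟨w⁻¹ * ⁅x, y0⁆, by rw [map_mul, map_inv, ew, inv_mul_cancel], by group⟩
  have hcz := hE.cen z hz
  set y1 := H * y0 * H⁻¹ with hy1
  have hy1m : y1 ∈ U s := hnH' _ hy0
  have e1 : ⁅x, y1⁆ = H * w * H⁻¹ * z := by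
    have e2 : H * ⁅x, y0⁆ * H⁻¹ = ⁅x, y1⁆ := by
      have hx' : H * x * H⁻¹ = x := by rw [hcomm x hx]; group
      rw [hy1, commutatorElement_def, commutatorElement_def]
      calc H * (x * y0 * x⁻¹ * y0⁻¹) * H⁻¹ = (H * x * H⁻¹) * (H * y0 * H⁻¹) * (H * x * H⁻¹)⁻¹ * (H * y0 * H⁻¹)⁻¹ := by group
        _ = _ := by rw [hx']
    rw [← e2, e]
    calc H * (w * z) * H⁻¹ = H * w * (z * H⁻¹) := by group
      _ = H * w * (H⁻¹ * z) := by rw [hcz]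
      _ = _ := by group
  have e3 : ⁅x, y0⁻¹⁆ = y0⁻¹ * w⁻¹ * y0 * z⁻¹ := by
    have e4 : ⁅x, y0⁻¹⁆ = y0⁻¹ * ⁅x, y0⁆⁻¹ * y0 := by
      rw [commutatorElement_def, commutatorElement_def]
      group
    rw [e4, e]
    have hcz' : ∀ a, z⁻¹ * a = a * z⁻¹ := fun a => by
      calc z⁻¹ * a = z⁻¹ * (a * z) * z⁻¹ := by group
        _ = z⁻¹ * (z * a) * z⁻¹ := by rw [hcz a]
        _ = a * z⁻¹ := by group
    calc y0⁻¹ * (w * z)⁻¹ * y0 = y0⁻¹ * (z⁻¹ * w⁻¹) * y0 := by group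
      _ = y0⁻¹ * (w⁻¹ * z⁻¹) * y0 := by rw [hcz' w⁻¹]
      _ = y0⁻¹ * w⁻¹ * (z⁻¹ * y0) := by group
      _ = y0⁻¹ * w⁻¹ * (y0 * z⁻¹) := by rw [hcz' y0]
      _ = _ := by group
  have e5 : ⁅x, ⁅H, y0⁆⁆ = H * w * H⁻¹ * (y1 * (y0⁻¹ * w⁻¹ * y0) * y1⁻¹) := by
    have e6 : ⁅H, y0⁆ = y1 * y0⁻¹ := by
      rw [hy1, commutatorElement_def]
    have e7 : ⁅x, y1 * y0⁻¹⁆ = ⁅x, y1⁆ * (y1 * ⁅x, y0⁻¹⁆ * y1⁻¹) := by
      rw [commutatorElement_def, commutatorElement_def, commutatorElement_def]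
      group
    rw [e6, e7, e1, e3]
    have hcz' : ∀ a, z⁻¹ * a = a * z⁻¹ := fun a => by
      calc z⁻¹ * a = z⁻¹ * (a * z) * z⁻¹ := by group
        _ = z⁻¹ * (z * a) * z⁻¹ := by rw [hcz a]
        _ = a * z⁻¹ := by group
    calc H * w * H⁻¹ * z * (y1 * (y0⁻¹ * w⁻¹ * y0 * z⁻¹) * y1⁻¹)
        = H * w * H⁻¹ * z * (y1 * (y0⁻¹ * w⁻¹ * y0) * (z⁻¹ * y1⁻¹)) := by group
      _ = H * w * H⁻¹ * z * (y1 * (y0⁻¹ * w⁻¹ * y0) * (y1⁻¹ * z⁻¹)) := by rw [hcz' y1⁻¹]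
      _ = H * w * H⁻¹ * (z * (y1 * (y0⁻¹ * w⁻¹ * y0) * y1⁻¹)) * z⁻¹ := by group
      _ = H * w * H⁻¹ * ((y1 * (y0⁻¹ * w⁻¹ * y0) * y1⁻¹) * z) * z⁻¹ := by rw [hcz]
      _ = _ := by group
  rw [e5]
  refine Subgroup.mul_mem _ (hnH _ hw) (hnS _ hy1m _ ?_)
  exact hnS _ (Subgroup.inv_mem _ hy0) _ (Subgroup.inv_mem _ hw) |> fun h => by
    simpa using h

/-- The relation from an element commuting with the second group. -/
theorem wit2 (hE : CE σ) {k s : ℕ} {H : Γ}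
    (hcomm : ∀ y ∈ U s, H * y = y * H)
    (hsurj : ∀ x ∈ U k, ∃ x0 ∈ U k, x = ⁅H, x0⁆)
    (hnH : ∀ w ∈ UF U m (s + 1), H * w * H⁻¹ ∈ UF U m (s + 1))
    (hnH' : ∀ x ∈ U k, H * x * H⁻¹ ∈ U k)
    (hnS : ∀ x ∈ U k, ∀ w ∈ UF U m (s + 1), x * w * x⁻¹ ∈ UF U m (s + 1))
    (hcov : ∀ x ∈ U k, ∀ y ∈ U s, ∃ w ∈ UF U m (s + 1), σ w = σ ⁅x, y⁆) : PP U m k s := by
  intro x hx y hy
  obtain ⟨x0, hx0, rfl⟩ := hsurj x hx
  obtain ⟨w, hw, ew⟩ := hcov x0 hx0 y hy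
  obtain ⟨z, hz, e⟩ : ∃ z, σ z = 1 ∧ ⁅x0, y⁆ = w * z :=
    ⟨w⁻¹ * ⁅x0, y⁆, by rw [map_mul, map_inv, ew, inv_mul_cancel], by group⟩
  have hcz := hE.cen z hz
  have hcz' : ∀ a, z⁻¹ * a = a * z⁻¹ := fun a => by
    calc z⁻¹ * a = z⁻¹ * (a * z) * z⁻¹ := by group
      _ = z⁻¹ * (z * a) * z⁻¹ := by rw [hcz a]
      _ = a * z⁻¹ := by group
  set x1 := H * x0 * H⁻¹ with hx1
  have hx1m : x1 ∈ U k := hnH' _ hx0
  have e1 : ⁅x1, y⁆ = H * w * H⁻¹ * z := by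
    have e2 : H * ⁅x0, y⁆ * H⁻¹ = ⁅x1, y⁆ := by
      have hy' : H * y * H⁻¹ = y := by rw [hcomm y hy]; group
      rw [hx1, commutatorElement_def, commutatorElement_def]
      calc H * (x0 * y * x0⁻¹ * y⁻¹) * H⁻¹ = (H * x0 * H⁻¹) * (H * y * H⁻¹) * (H * x0 * H⁻¹)⁻¹ * (H * y * H⁻¹)⁻¹ := by group
        _ = _ := by rw [hy']
    rw [← e2, e]
    calc H * (w * z) * H⁻¹ = H * w * (z * H⁻¹) := by group
      _ = H * w * (H⁻¹ * z) := by rw [hcz]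
      _ = _ := by group
  have e3 : ⁅x0⁻¹, y⁆ = x0⁻¹ * w⁻¹ * x0 * z⁻¹ := by
    have e4 : ⁅x0⁻¹, y⁆ = x0⁻¹ * ⁅x0, y⁆⁻¹ * x0 := by
      rw [commutatorElement_def, commutatorElement_def]
      group
    rw [e4, e]
    calc x0⁻¹ * (w * z)⁻¹ * x0 = x0⁻¹ * (z⁻¹ * w⁻¹) * x0 := by group
      _ = x0⁻¹ * (w⁻¹ * z⁻¹) * x0 := by rw [hcz' w⁻¹]
      _ = x0⁻¹ * w⁻¹ * (z⁻¹ * x0) := by group
      _ = x0⁻¹ * w⁻¹ * (x0 * z⁻¹) := by rw [hcz' x0]
      _ = _ := by group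
  have e5 : ⁅⁅H, x0⁆, y⁆ = x1 * (x0⁻¹ * w⁻¹ * x0) * x1⁻¹ * (H * w * H⁻¹) := by
    have e6 : ⁅H, x0⁆ = x1 * x0⁻¹ := by
      rw [hx1, commutatorElement_def]
    have e7 : ⁅x1 * x0⁻¹, y⁆ = (x1 * ⁅x0⁻¹, y⁆ * x1⁻¹) * ⁅x1, y⁆ := by
      rw [commutatorElement_def, commutatorElement_def, commutatorElement_def]
      group
    rw [e6, e7, e1, e3]
    calc x1 * (x0⁻¹ * w⁻¹ * x0 * z⁻¹) * x1⁻¹ * (H * w * H⁻¹ * z)
        = x1 * (x0⁻¹ * w⁻¹ * x0) * (z⁻¹ * x1⁻¹) * (H * w * H⁻¹ * z) := by group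
      _ = x1 * (x0⁻¹ * w⁻¹ * x0) * (x1⁻¹ * z⁻¹) * (H * w * H⁻¹ * z) := by rw [hcz' x1⁻¹]
      _ = x1 * (x0⁻¹ * w⁻¹ * x0) * x1⁻¹ * (z⁻¹ * (H * w * H⁻¹ * z)) := by group
      _ = x1 * (x0⁻¹ * w⁻¹ * x0) * x1⁻¹ * ((H * w * H⁻¹ * z) * z⁻¹) := by rw [hcz']
      _ = _ := by group
  rw [e5]
  refine Subgroup.mul_mem _ (hnS _ hx1m _ ?_) (hnH _ hw)
  exact hnS _ (Subgroup.inv_mem _ hx0) _ (Subgroup.inv_mem _ hw) |> fun h => by
    simpa using h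

/-- Double induction for the relations. -/
theorem all_PP (hstep : ∀ k s, k < s → s < m → (∀ s', s < s' → s' < m → PP U m k s') →
      (∀ k' s', k < k' → k' < s' → s' < m → PP U m k' s') → PP U m k s) :
    ∀ k s, k < s → s < m → PP U m k s := by
  have key : ∀ (a k : ℕ), m ≤ k + a → ∀ s, k < s → s < m → PP U m k s := by
    intro a
    induction a with
    | zero =>
      intro k hk s h1 h2
      omega
    | succ a iha =>
      intro k hk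
      have key2 : ∀ (b s : ℕ), m ≤ s + b → k < s → s < m → PP U m k s := by
        intro b
        induction b with
        | zero =>
          intro s h1 h2 h3
          omega
        | succ b ihb =>
          intro s h1 h2 h3
          apply hstep k s h2 h3
          · intro s' h4 h5
            exact ihb s' (by omega) (by omega) h5
          · intro k' s' h4 h5 h6
            exact iha k' (by omega) s' h5 h6
      intro s h2 h3
      exact key2 m s (by omega) h2 h3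
  intro k s h1 h2
  exact key m k (by omega) s h1 h2

/-- Normal form. -/
theorem UF_dec (hP : ∀ k s, k < s → s < m → PP U m k s) {k : ℕ} (hk : k < m) {g : Γ} (hg : g ∈ UF U m k) :
    ∃ x ∈ U k, ∃ w ∈ UF U m (k + 1), g = x * w := by
  have hn : ∀ x ∈ U k, ∀ w ∈ UF U m (k + 1), x * w * x⁻¹ ∈ UF U m (k + 1) := by
    intro x hx w hw
    exact norm_UF (s := k) (fun s' h1 h2 => hP k s' h1 h2) hx hw
  unfold UF at hg
  induction hg using Subgroup.closure_induction with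
  | mem y hy =>
    obtain ⟨l, h1, h2, h3⟩ := hy
    rcases eq_or_lt_of_le h1 with h | h
    · subst h
      exact ⟨y, h3, 1, Subgroup.one_mem _, by simp⟩
    · exact ⟨1, Subgroup.one_mem _, y, mem_UF (by omega) h2 h3, by simp⟩
  | one => exact ⟨1, Subgroup.one_mem _, 1, Subgroup.one_mem _, by simp⟩
  | mul a b _ _ ha hb =>
    obtain ⟨x, hx, w, hw, rfl⟩ := ha
    obtain ⟨x', hx', w', hw', rfl⟩ := hb
    refine ⟨x * x', Subgroup.mul_mem _ hx hx', x'⁻¹ * w * x' * w', Subgroup.mul_mem _ ?_ hw', by group⟩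
    have := hn _ (Subgroup.inv_mem _ hx') _ hw
    simpa using this
  | inv a _ ha =>
    obtain ⟨x, hx, w, hw, rfl⟩ := ha
    refine ⟨x⁻¹, Subgroup.inv_mem _ hx, x * w⁻¹ * x⁻¹, hn _ hx _ (Subgroup.inv_mem _ hw), by group⟩

theorem UF_of_ge {k : ℕ} (hk : m ≤ k) : UF U m k = ⊥ := by
  unfold UF
  rw [Subgroup.closure_eq_bot_iff]
  rintro g ⟨l, h1, h2, _⟩
  omega

/-- Injectivity. -/
theorem UF_inj (hP : ∀ k s, k < s → s < m → PP U m k s) (hinj : ∀ l < m, ∀ u ∈ U l, σ u = 1 → u = 1)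
    (hdis : ∀ l < m, ∀ x ∈ U l, ∀ w ∈ UF U m (l + 1), σ x * σ w = 1 → σ x = 1) :
    ∀ k, ∀ u ∈ UF U m k, σ u = 1 → u = 1 := by
  have key : ∀ (a k : ℕ), m ≤ k + a → ∀ u ∈ UF U m k, σ u = 1 → u = 1 := by
    intro a
    induction a with
    | zero =>
      intro k hk u hu _
      rw [UF_of_ge (by omega)] at hu
      exact Subgroup.mem_bot.1 hu
    | succ a ih =>
      intro k hk u hu e
      by_cases hkm : k < m
      · obtain ⟨x, hx, w, hw, rfl⟩ := UF_dec hP hkm hu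
        rw [map_mul] at e
        have h1 := hdis k hkm x hx w hw e
        have h2 := hinj k hkm x hx h1
        rw [h1, one_mul] at e
        rw [h2, ih (k + 1) (by omega) w hw e, one_mul]
      · rw [UF_of_ge (by omega)] at hu
        exact Subgroup.mem_bot.1 hu
  intro k
  exact key m k (by omega)

/-- The image of the join. -/
theorem UF_map {X : ℕ → Subgroup G} (hon : ∀ l < m, ∀ x ∈ X l, ∃ u ∈ U l, σ u = x) {j : ℕ} {v : G}
    (hv : v ∈ Subgroup.closure {g | ∃ l, j ≤ l ∧ l < m ∧ g ∈ X l}) : ∃ w ∈ UF U m j, σ w = v := by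
  induction hv using Subgroup.closure_induction with
  | mem y hy =>
    obtain ⟨l, h1, h2, h3⟩ := hy
    obtain ⟨u, hu, rfl⟩ := hon l h2 y h3
    exact ⟨u, mem_UF h1 h2 hu, rfl⟩
  | one => exact ⟨1, Subgroup.one_mem _, map_one _⟩
  | mul a b _ _ ha hb =>
    obtain ⟨x, hx, rfl⟩ := ha
    obtain ⟨y, hy, rfl⟩ := hb
    exact ⟨x * y, Subgroup.mul_mem _ hx hy, map_mul _ _ _⟩
  | inv a _ ha =>
    obtain ⟨x, hx, rfl⟩ := ha
    exact ⟨x⁻¹, Subgroup.inv_mem _ hx, map_inv _ _⟩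

end

/-! ### Lifts which are compatible with a torus -/

/-- A lifted subgroup. -/
structure RL (σ : Γ →* G) (T X U : Subgroup G) (V : Subgroup Γ) : Prop where
  map : ∀ u ∈ V, σ u ∈ X
  onto : ∀ x ∈ X, ∃ u ∈ V, σ u = x
  inj : ∀ u ∈ V, σ u = 1 → u = 1
  conj : ∀ g : Γ, (∀ t ∈ T, σ g * t * (σ g)⁻¹ ∈ T) → (∀ x ∈ X, σ g * x * (σ g)⁻¹ ∈ X) → ∀ u ∈ V, g * u * g⁻¹ ∈ V
  ab : ∀ a ∈ V, ∀ b ∈ V, a * b = b * a

end Cfsg.Agent.Lib.TwStem
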